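import Mathlib

set_option autoImplicit false

namespace Cfsg.Agent.Helper29

open MulAction

section KTrans

variable {G : Type*} [Group G] {α : Type*} [MulAction G α]

/-- `LTr H F k`: the pointwise stabiliser in `H` of the points in `F` is `k`-transitive on the
points outside `F`, stated with duplicate-free lists. -/
def LTr (H : Subgroup G) (F : List α) (k : ℕ) : Prop :=
  ∀ l l' : List α, l.length = k → l'.length = k → (F ++ l).Nodup → (F ++ l').Nodup →
    ∃ h ∈ H, (∀ f ∈ F, h • f = f) ∧ l.map (fun x => h • x) = l'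

theorem nodup_app {F l : List α} :
    (F ++ l).Nodup ↔ F.Nodup ∧ l.Nodup ∧ ∀ x ∈ l, x ∉ F := by
  rw [List.nodup_append]
  constructor
  · rintro ⟨h1, h2, h3⟩
    exact ⟨h1, h2, fun x hx hxF => h3 x hxF x hx rfl⟩
  · rintro ⟨h1, h2, h3⟩
    exact ⟨h1, h2, fun a ha b hb hab => h3 b hb (hab ▸ ha)⟩

theorem ltr_of_pretrans (k : ℕ) (h : IsMultiplyPretransitive G α k) :
    LTr (⊤ : Subgroup G) ([] : List α) k := by
  intro l l' hl hl' hn hn'
  rw [List.nil_append] at hn hn'
  let x : Fin k ↪ α := ⟨fun i => l.get (Fin.cast hl.symm i), fun i j hij =>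
    Fin.cast_injective _ ((List.Nodup.get_inj_iff hn).1 hij)⟩
  let y : Fin k ↪ α := ⟨fun i => l'.get (Fin.cast hl'.symm i), fun i j hij =>
    Fin.cast_injective _ ((List.Nodup.get_inj_iff hn').1 hij)⟩
  obtain ⟨g, hg⟩ := h.exists_smul_eq x y
  refine ⟨g, Subgroup.mem_top g, by simp, ?_⟩
  apply List.ext_get (by simp [hl, hl'])
  intro n h1 h2
  have h3 : n < k := by rw [List.length_map] at h1; omega
  have := DFunLike.congr_fun hg ⟨n, h3⟩
  rw [Function.Embedding.smul_apply] at this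
  simpa [x, y] using this

theorem pretrans_of_ltr (H : Subgroup G) (k : ℕ) (h : LTr H ([] : List α) k) :
    IsMultiplyPretransitive H α k := by
  rw [isMultiplyPretransitive_iff]
  intro x y
  obtain ⟨g, hg, -, hmap⟩ := h (List.ofFn x) (List.ofFn y) (by simp) (by simp)
    (by simpa using List.nodup_ofFn.2 x.injective) (by simpa using List.nodup_ofFn.2 y.injective)
  refine ⟨⟨g, hg⟩, ?_⟩
  rw [List.map_ofFn] at hmap
  have h2 := List.ofFn_injective hmap
  ext i
  exact congrFun h2 i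

theorem exists_notMem_list [Fintype α] (L : List α) (h : L.length < Fintype.card α) :
    ∃ x, x ∉ L := by
  classical
  by_contra hc
  push Not at hc
  have h1 : Fintype.card α ≤ L.toFinset.card := by
    rw [← Finset.card_univ]
    exact Finset.card_le_card (fun x _ => List.mem_toFinset.2 (hc x))
  have h2 := List.toFinset_card_le L
  omega

theorem map_fix {h : G} {F : List α} (hF : ∀ f ∈ F, h • f = f) :
    F.map (fun x => h • x) = F := by
  conv_rhs => rw [← List.map_id F]
  exact List.map_congr_left (fun a ha => by simpa using hF a ha)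

theorem notMem_of_fix {h : G} {F : List α} (hF : ∀ f ∈ F, h • f = f) {a : α} (ha : a ∉ F) :
    h • a ∉ F := by
  intro hmem
  have h1 := hF _ hmem
  have h2 : h • a = a := MulAction.injective h h1
  rw [h2] at hmem
  exact ha hmem

theorem conj_smul_of_fix {g x : G} {a : α} (hg : g • a = a) :
    (g * x * g⁻¹) • a = g • x • a := by
  rw [mul_smul, mul_smul, inv_smul_eq_iff.2 hg.symm]

theorem LTr.subgroup_mono {H K : Subgroup G} (hHK : H ≤ K) {F : List α} {k : ℕ}
    (h : LTr H F k) : LTr K F k := by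
  intro l l' hl hl' hn hn'
  obtain ⟨g, hg, h1, h2⟩ := h l l' hl hl' hn hn'
  exact ⟨g, hHK hg, h1, h2⟩

theorem LTr.cons_fix {H : Subgroup G} {F : List α} {k : ℕ} (h : LTr H F (k + 1)) (a : α) :
    LTr H (F ++ [a]) k := by
  intro l l' hl hl' hn hn'
  rw [List.append_assoc, List.singleton_append] at hn hn'
  obtain ⟨g, hg, hF, hmap⟩ := h (a :: l) (a :: l') (by simp [hl]) (by simp [hl']) hn hn'
  rw [List.map_cons, List.cons.injEq] at hmap
  refine ⟨g, hg, ?_, hmap.2⟩
  intro f hf
  rcases List.mem_append.1 hf with hf | hf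
  · exact hF f hf
  · rw [List.mem_singleton] at hf
    rw [hf]; exact hmap.1

theorem LTr.of_nil {H : Subgroup G} {F : List α} {k : ℕ}
    (h : LTr H ([] : List α) (F.length + k)) : LTr H F k := by
  intro l l' hl hl' hn hn'
  obtain ⟨g, hg, -, hmap⟩ := h (F ++ l) (F ++ l') (by simp [hl]) (by simp [hl'])
    (by simpa using hn) (by simpa using hn')
  rw [List.map_append] at hmap
  have h1 := List.append_inj hmap (by simp)
  refine ⟨g, hg, ?_, h1.2⟩
  have h2 : List.map (fun x => g • x) F = List.map id F := by rw [List.map_id]; exact h1.1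
  exact fun f hf => List.map_inj_left.1 h2 f hf

theorem LTr.pred [Fintype α] {H : Subgroup G} {F : List α} {k : ℕ} (h : LTr H F (k + 1))
    (hc : F.length + k < Fintype.card α) : LTr H F k := by
  intro l l' hl hl' hn hn'
  obtain ⟨x, hx⟩ := exists_notMem_list (F ++ l) (by rw [List.length_append, hl]; exact hc)
  obtain ⟨x', hx'⟩ := exists_notMem_list (F ++ l') (by rw [List.length_append, hl']; exact hc)
  have hn1 : (F ++ (l ++ [x])).Nodup := by
    rw [← List.append_assoc, ← List.concat_eq_append]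
    exact List.Nodup.concat hx hn
  have hn1' : (F ++ (l' ++ [x'])).Nodup := by
    rw [← List.append_assoc, ← List.concat_eq_append]
    exact List.Nodup.concat hx' hn'
  obtain ⟨g, hg, hF, hmap⟩ := h (l ++ [x]) (l' ++ [x']) (by simp [hl]) (by simp [hl']) hn1 hn1'
  rw [List.map_append] at hmap
  exact ⟨g, hg, hF, (List.append_inj hmap (by simp [hl, hl'])).1⟩

theorem LTr.mono [Fintype α] {H : Subgroup G} {F : List α} {j k : ℕ} (hjk : j ≤ k)
    (h : LTr H F k) (hc : F.length + k ≤ Fintype.card α) : LTr H F j := by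
  obtain ⟨d, rfl⟩ := Nat.exists_eq_add_of_le hjk
  induction d with
  | zero => exact h
  | succ d ih =>
    exact ih (Nat.le_add_right _ _) (LTr.pred (k := j + d) h (by omega)) (by omega)

theorem ltr_one_of_two (hfaith : ∀ g : G, (∀ x : α, g • x = x) → g = 1) {F : List α}
    (hG : LTr (⊤ : Subgroup G) F 2) (N : Subgroup G)
    (hnorm : ∀ g : G, (∀ f ∈ F, g • f = f) → ∀ n ∈ N, g * n * g⁻¹ ∈ N)
    (hfix : ∀ n ∈ N, ∀ f ∈ F, n • f = f) (hN : ∃ n ∈ N, n ≠ 1) : LTr N F 1 := by
  obtain ⟨n, hn, hn1⟩ := hN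
  obtain ⟨x, hx⟩ : ∃ x : α, n • x ≠ x := by
    by_contra hc
    push Not at hc
    exact hn1 (hfaith n hc)
  have hxF : x ∉ F := fun h => hx (hfix n hn x h)
  have hyF : n • x ∉ F := notMem_of_fix (hfix n hn) hxF
  intro l l' hl hl' hnd hnd'
  obtain ⟨u, rfl⟩ := List.length_eq_one_iff.1 hl
  obtain ⟨v, rfl⟩ := List.length_eq_one_iff.1 hl'
  rw [nodup_app] at hnd hnd'
  have huF : u ∉ F := hnd.2.2 u (by simp)
  have hvF : v ∉ F := hnd'.2.2 v (by simp)
  by_cases huv : u = v
  · exact ⟨1, N.one_mem, fun f _ => one_smul _ f, by simp [huv]⟩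
  · obtain ⟨g, -, hgF, hgmap⟩ := hG [x, n • x] [u, v] rfl rfl
      (by rw [nodup_app]; refine ⟨hnd.1, ?_, ?_⟩ <;> simp [hxF, hyF, Ne.symm hx])
      (by rw [nodup_app]; refine ⟨hnd.1, ?_, ?_⟩ <;> simp [huF, hvF, huv])
    simp only [List.map_cons, List.map_nil, List.cons.injEq, and_true] at hgmap
    obtain ⟨hgx, hgy⟩ := hgmap
    refine ⟨g * n * g⁻¹, hnorm g hgF n hn, hfix _ (hnorm g hgF n hn), ?_⟩
    have h1 : g⁻¹ • u = x := by rw [inv_smul_eq_iff, hgx]
    simp only [List.map_cons, List.map_nil, List.cons.injEq, and_true]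
    rw [mul_smul, mul_smul, h1, hgy]

theorem LTr.up {N : Subgroup G} {F : List α} {a : α} {j : ℕ} (h1 : LTr N F 1)
    (h2 : LTr N (F ++ [a]) j) (ha : a ∉ F) : LTr N F (j + 1) := by
  intro l l' hl hl' hn hn'
  rcases l with _ | ⟨x, l₀⟩
  · simp at hl
  rcases l' with _ | ⟨y, l₀'⟩
  · simp at hl'
  have hFn : F.Nodup := (nodup_app.1 hn).1
  have hna : (F ++ [a]).Nodup := by
    rw [nodup_app]; exact ⟨hFn, by simp, by simpa using ha⟩
  have hx : (F ++ [x]).Nodup := by
    rw [nodup_app] at hn ⊢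
    exact ⟨hFn, by simp, by intro z hz; exact hn.2.2 z (by simp at hz; simp [hz])⟩
  have hy : (F ++ [y]).Nodup := by
    rw [nodup_app] at hn' ⊢
    exact ⟨hFn, by simp, by intro z hz; exact hn'.2.2 z (by simp at hz; simp [hz])⟩
  obtain ⟨g₁, hg₁, hg₁F, hg₁x⟩ := h1 [x] [a] rfl rfl hx hna
  obtain ⟨g₂, hg₂, hg₂F, hg₂y⟩ := h1 [y] [a] rfl rfl hy hna
  simp only [List.map_cons, List.map_nil, List.cons.injEq, and_true] at hg₁x hg₂y
  have e1 : (F ++ [a]) ++ l₀.map (fun z => g₁ • z) = (F ++ x :: l₀).map (fun z => g₁ • z) := by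
    rw [List.map_append, List.map_cons, map_fix hg₁F, hg₁x, List.append_assoc,
      List.singleton_append]
  have e2 : (F ++ [a]) ++ l₀'.map (fun z => g₂ • z) = (F ++ y :: l₀').map (fun z => g₂ • z) := by
    rw [List.map_append, List.map_cons, map_fix hg₂F, hg₂y, List.append_assoc,
      List.singleton_append]
  obtain ⟨g, hg, hgF, hgmap⟩ := h2 (l₀.map (fun z => g₁ • z)) (l₀'.map (fun z => g₂ • z))
    (by simpa using hl) (by simpa using hl')
    (by rw [e1]; exact hn.map (MulAction.injective g₁))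
    (by rw [e2]; exact hn'.map (MulAction.injective g₂))
  have hga : g • a = a := hgF a (by simp)
  refine ⟨g₂⁻¹ * g * g₁, N.mul_mem (N.mul_mem (N.inv_mem hg₂) hg) hg₁, ?_, ?_⟩
  · intro f hf
    rw [mul_smul, mul_smul, hg₁F f hf, hgF f (by simp [hf]), inv_smul_eq_iff, hg₂F f hf]
  · rw [List.map_cons, List.cons.injEq]
    constructor
    · rw [mul_smul, mul_smul, hg₁x, hga, inv_smul_eq_iff, hg₂y]
    · have h3 : l₀.map (fun z => (g₂⁻¹ * g * g₁) • z)
          = ((l₀.map (fun z => g₁ • z)).map (fun z => g • z)).map (fun z => g₂⁻¹ • z) := by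
        simp [List.map_map, Function.comp_def, mul_smul]
      rw [h3, hgmap, List.map_map]
      simp [Function.comp_def]

end KTrans

end Cfsg.Agent.Helper29
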