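import Mathlib
import Cfsg.Agent.Helper29.KTrans

set_option autoImplicit false

namespace Cfsg.Agent.Helper29

open MulAction

section Burnside

variable {G : Type*} [Group G] {α : Type*} [MulAction G α]

/-- `Blk N B`: an element of `N` mapping one point of `B` into `B` maps all of `B` into `B`. -/
def Blk (N : Subgroup G) (B : Set α) : Prop :=
  ∀ n ∈ N, ∀ x ∈ B, n • x ∈ B → ∀ y ∈ B, n • y ∈ B

/-- An imprimitive normal subgroup of a 2-transitive group has trivial two-point stabilisers. -/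
theorem frob_of_imprim [Finite α]
    (hfaith : ∀ g : G, (∀ x : α, g • x = x) → g = 1)
    (h2 : ∀ a b c d : α, a ≠ b → c ≠ d → ∃ g : G, g • a = c ∧ g • b = d)
    (N : Subgroup G) [hNn : N.Normal]
    (B : Set α) (hB : Blk N B) (hBne : B ≠ Set.univ) (x y : α) (hx : x ∈ B) (hy : y ∈ B)
    (hxy : x ≠ y) :
    ∀ n ∈ N, ∀ a c : α, a ≠ c → n • a = a → n • c = c → n = 1 := by
  have hBimg : ∀ g : G, ∀ B' : Set α, Blk N B' → Blk N ((fun z => g • z) '' B') := by
    rintro g B' hB' n hn _ ⟨x₀, hx₀, rfl⟩ ⟨z₀, hz₀, hz⟩ _ ⟨y₀, hy₀, rfl⟩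
    have hz' : g • z₀ = n • g • x₀ := hz
    refine ⟨(g⁻¹ * n * g) • y₀,
      hB' (g⁻¹ * n * g) (by simpa using hNn.conj_mem n hn g⁻¹) x₀ hx₀ ?_ y₀ hy₀, ?_⟩
    · rw [mul_smul, mul_smul, ← hz', inv_smul_smul]; exact hz₀
    · show g • (g⁻¹ * n * g) • y₀ = n • g • y₀
      rw [mul_smul, mul_smul, smul_inv_smul]
  have hne_img : ∀ g : G, ∀ B' : Set α, B' ≠ Set.univ →
      (fun z => g • z) '' B' ≠ Set.univ := by
    intro g B' hB' h
    apply hB'
    rw [Set.eq_univ_iff_forall]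
    intro z
    have : g • z ∈ (fun z => g • z) '' B' := by rw [h]; trivial
    obtain ⟨w, hw, hwz⟩ := this
    have : w = z := MulAction.injective g hwz
    rw [← this]; exact hw
  obtain ⟨L, hLdef⟩ : ∃ L : α → α → Set α, ∀ u v,
      L u v = ⋂₀ {B' | Blk N B' ∧ B' ≠ Set.univ ∧ u ∈ B' ∧ v ∈ B'} := ⟨_, fun _ _ => rfl⟩
  have hfam_ne : ∀ u v : α, u ≠ v → ∃ B', Blk N B' ∧ B' ≠ Set.univ ∧ u ∈ B' ∧ v ∈ B' := by
    intro u v huv
    obtain ⟨g, hgx, hgy⟩ := h2 x y u v hxy huv
    exact ⟨_, hBimg g B hB, hne_img g B hBne, ⟨x, hx, hgx⟩, ⟨y, hy, hgy⟩⟩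
  have hL_mem : ∀ u v : α, u ∈ L u v ∧ v ∈ L u v := by
    intro u v
    rw [hLdef u v]
    exact ⟨Set.mem_sInter.2 fun B' hB' => hB'.2.2.1, Set.mem_sInter.2 fun B' hB' => hB'.2.2.2⟩
  have hL_blk : ∀ u v : α, Blk N (L u v) := by
    intro u v n hn x hx hnx y hy
    rw [hLdef u v] at hx hnx hy ⊢
    exact Set.mem_sInter.2 fun B' hB' =>
      hB'.1 n hn x (Set.mem_sInter.1 hx B' hB') (Set.mem_sInter.1 hnx B' hB') y
        (Set.mem_sInter.1 hy B' hB')
  have hL_ne : ∀ u v : α, u ≠ v → L u v ≠ Set.univ := by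
    intro u v huv h
    obtain ⟨B', hB'⟩ := hfam_ne u v huv
    have hsub : L u v ⊆ B' := by rw [hLdef u v]; exact Set.sInter_subset_of_mem hB'
    rw [h] at hsub
    exact hB'.2.1 (Set.univ_subset_iff.1 hsub)
  have hL_img : ∀ (g : G) (u v : α), L (g • u) (g • v) ⊆ (fun z => g • z) '' L u v := by
    intro g u v z hz
    refine ⟨g⁻¹ • z, ?_, smul_inv_smul g z⟩
    rw [hLdef (g • u) (g • v)] at hz
    rw [hLdef u v]
    refine Set.mem_sInter.2 fun B' hB' => ?_
    have hmem : (fun z => g • z) '' B' ∈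
        {B' | Blk N B' ∧ B' ≠ Set.univ ∧ g • u ∈ B' ∧ g • v ∈ B'} :=
      ⟨hBimg g B' hB'.1, hne_img g B' hB'.2.1, ⟨u, hB'.2.2.1, rfl⟩, ⟨v, hB'.2.2.2, rfl⟩⟩
    obtain ⟨w, hw, hwz⟩ := Set.mem_sInter.1 hz _ hmem
    have : g⁻¹ • z = w := by rw [inv_smul_eq_iff]; exact hwz.symm
    rw [this]; exact hw
  have hL_card : ∀ u v u' v' : α, u ≠ v → u' ≠ v' → (L u' v').ncard ≤ (L u v).ncard := by
    intro u v u' v' huv hu'v'
    obtain ⟨g, hgu, hgv⟩ := h2 u v u' v' huv hu'v'
    have h1 := hL_img g u v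
    rw [hgu, hgv] at h1
    exact (Set.ncard_le_ncard h1 (Set.toFinite _)).trans (Set.ncard_image_le (Set.toFinite _))
  have hL_eq : ∀ u v u' v' : α, u ≠ v → u' ≠ v' → u' ∈ L u v → v' ∈ L u v →
      L u' v' = L u v := by
    intro u v u' v' huv hu'v' hu' hv'
    have hsub : L u' v' ⊆ L u v := by
      rw [hLdef u' v']
      exact Set.sInter_subset_of_mem ⟨hL_blk u v, hL_ne u v huv, hu', hv'⟩
    exact Set.eq_of_subset_of_ncard_le hsub (hL_card u' v' u v hu'v' huv) (Set.toFinite _)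
  intro n hn a c hac hna hnc
  have hfixL : ∀ u v : α, n • u = u → ∀ w ∈ L u v, n • w ∈ L u v := fun u v hu w hw =>
    hL_blk u v n hn u (hL_mem u v).1 (by rw [hu]; exact (hL_mem u v).1) w hw
  have hout : ∀ d : α, d ∉ L a c → n • d = d := by
    intro d hd
    by_contra hne
    have hda : d ≠ a := fun h => hd (by rw [h]; exact (hL_mem a c).1)
    have hdc : d ≠ c := fun h => hd (by rw [h]; exact (hL_mem a c).2)
    have h1 : n • d ∈ L a d := hfixL a d hna d (hL_mem a d).2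
    have h2' : n • d ∈ L c d := hfixL c d hnc d (hL_mem c d).2
    have e1 : L d (n • d) = L a d :=
      hL_eq a d d (n • d) (Ne.symm hda) (Ne.symm hne) (hL_mem a d).2 h1
    have e2 : L d (n • d) = L c d :=
      hL_eq c d d (n • d) (Ne.symm hdc) (Ne.symm hne) (hL_mem c d).2 h2'
    have hc_in : c ∈ L a d := by rw [← e1, e2]; exact (hL_mem c d).1
    have e3 : L a c = L a d := hL_eq a d a c (Ne.symm hda) hac (hL_mem a d).1 hc_in
    apply hd
    rw [e3]; exact (hL_mem a d).2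
  obtain ⟨e, he⟩ := (Set.ne_univ_iff_exists_notMem _).1 (hL_ne a c hac)
  have hne_e : n • e = e := hout e he
  apply hfaith
  intro w
  by_cases hw : w ∈ L a c
  swap
  · exact hout w hw
  by_contra hnw
  have hew : e ≠ w := fun h => he (by rw [h]; exact hw)
  have h1 : n • w ∈ L a c := hfixL a c hna w hw
  have h2' : n • w ∈ L e w := hfixL e w hne_e w (hL_mem e w).2
  have e1 : L w (n • w) = L a c := hL_eq a c w (n • w) hac (Ne.symm hnw) hw h1
  have e2 : L w (n • w) = L e w :=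
    hL_eq e w w (n • w) hew (Ne.symm hnw) (hL_mem e w).2 h2'
  apply he
  rw [← e1, e2]; exact (hL_mem e w).1

/-- A transitive normal subgroup with non-trivial point stabilisers and trivial two-point
stabilisers cannot be a minimal normal subgroup of a 2-transitive group. -/
theorem frob_contra [Fintype α] [Finite G]
    (hfaith : ∀ g : G, (∀ x : α, g • x = x) → g = 1)
    (h2 : ∀ a b c d : α, a ≠ b → c ≠ d → ∃ g : G, g • a = c ∧ g • b = d)
    (N : Subgroup G) [hNn : N.Normal] (a₀ : α)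
    (htr : ∀ x y : α, ∃ n ∈ N, n • x = y)
    (hmin : ∀ M : Subgroup G, M.Normal → M ≤ N → M = ⊥ ∨ M = N)
    (hnr : ∀ a : α, ∃ n ∈ N, n ≠ 1 ∧ n • a = a)
    (hFR : ∀ n ∈ N, ∀ a c : α, a ≠ c → n • a = a → n • c = c → n = 1) : False := by
  classical
  haveI : Fintype N := Fintype.ofFinite N
  obtain ⟨n₁, hn₁, hn₁1, hn₁a⟩ := hnr a₀
  obtain ⟨b₁, hb₁⟩ : ∃ b : α, n₁ • b ≠ b := by
    by_contra hc; push Not at hc; exact hn₁1 (hfaith n₁ hc)
  have hcard2 : 1 < Fintype.card α := Fintype.one_lt_card_iff.2 ⟨_, _, hb₁⟩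
  have : IsPretransitive N α := ⟨fun x y => by
    obtain ⟨n, hn, h⟩ := htr x y; exact ⟨⟨n, hn⟩, h⟩⟩
  have hburn := MulAction.sum_card_fixedBy_eq_card_orbits_mul_card_group N α
  have horb : Fintype.card (Quotient (orbitRel N α)) = 1 := by
    have : Subsingleton (orbitRel.Quotient N α) :=
      (pretransitive_iff_subsingleton_quotient N α).1 inferInstance
    exact Fintype.card_eq_one_iff.2 ⟨Quotient.mk'' a₀, fun y =>
      Subsingleton.elim (α := orbitRel.Quotient N α) _ _⟩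
  rw [horb, one_mul] at hburn
  obtain ⟨A, hAdef⟩ : ∃ A : Finset N, A = Finset.univ.filter (fun x : N => ∀ c : α, x • c ≠ c) :=
    ⟨_, rfl⟩
  have hAmem : ∀ x : N, x ∈ A ↔ ∀ c : α, (x : G) • c ≠ c := by
    intro x; rw [hAdef]; simp [Subgroup.smul_def]
  have h1A : (1 : N) ∉ A := by
    intro h; exact (hAmem 1).1 h a₀ (one_smul _ _)
  have hf : ∀ x : N, Fintype.card (fixedBy α x) =
      (if x = 1 then Fintype.card α else 0) + (if x ∈ insert 1 A then 0 else 1) := by
    intro x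
    by_cases hx1 : x = 1
    · subst hx1
      rw [if_pos rfl, if_pos (Finset.mem_insert_self _ _), add_zero]
      exact Fintype.card_congr (Equiv.subtypeUnivEquiv (fun c => by simp [mem_fixedBy]))
    · rw [if_neg hx1, zero_add]
      by_cases hxA : x ∈ A
      · rw [if_pos (Finset.mem_insert_of_mem hxA), Fintype.card_eq_zero_iff]
        exact ⟨fun c => (hAmem x).1 hxA c.1 c.2⟩
      · rw [if_neg (by simp [hx1, hxA])]
        have hex : ∃ c : α, (x : G) • c = c := by
          by_contra hc; push Not at hc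
          exact hxA ((hAmem x).2 hc)
        obtain ⟨c, hc⟩ := hex
        rw [Fintype.card_eq_one_iff]
        refine ⟨⟨c, hc⟩, fun d => ?_⟩
        by_contra hdc
        have : (x : G) = 1 := hFR x x.2 d.1 c (fun h => hdc (Subtype.ext h)) d.2 hc
        exact hx1 (Subtype.ext this)
  have hsum : ∑ x : N, Fintype.card (fixedBy α x) =
      Fintype.card α + (Finset.univ.filter (fun x : N => x ∉ insert 1 A)).card := by
    rw [Finset.sum_congr rfl (fun x _ => hf x), Finset.sum_add_distrib]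
    congr 1
    · simp
    · rw [Finset.card_filter]
      apply Finset.sum_congr rfl
      intro x _
      by_cases h : x ∈ insert 1 A <;> simp [h]
  have hcompl : (Finset.univ.filter (fun x : N => x ∈ insert 1 A)).card +
      (Finset.univ.filter (fun x : N => x ∉ insert 1 A)).card = Fintype.card N := by
    rw [Finset.card_filter_add_card_filter_not, Finset.card_univ]
  have hins : (Finset.univ.filter (fun x : N => x ∈ insert 1 A)).card = A.card + 1 := by
    rw [Finset.filter_mem_eq_inter, Finset.univ_inter, Finset.card_insert_of_notMem h1A]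
  have hA : A.card + 1 = Fintype.card α := by omega
  have hAne : A.Nonempty := by
    rw [← Finset.card_pos]; omega
  obtain ⟨x₀, hx₀⟩ := hAne
  have hx₀f : ∀ c : α, (x₀ : G) • c ≠ c := (hAmem x₀).1 hx₀
  have hU : ∀ a : α, ∀ x ∈ A, ∀ y ∈ A, (x : G) • a = (y : G) • a → x = y := by
    intro a
    have hmaps : Set.MapsTo (fun x : N => (x : G) • a) A (Finset.univ.erase a) := by
      intro x hx
      simp only [Finset.coe_erase, Finset.coe_univ, Set.mem_sdiff, Set.mem_univ,
        Set.mem_singleton_iff, true_and]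
      exact (hAmem x).1 hx a
    have hsurj : Set.SurjOn (fun x : N => (x : G) • a) A (Finset.univ.erase a) := by
      intro b hb
      have hba : b ≠ a := by simpa using hb
      obtain ⟨g, hga, hgb⟩ := h2 a ((x₀ : G) • a) a b (Ne.symm (hx₀f a)) (Ne.symm hba)
      refine ⟨⟨g * x₀ * g⁻¹, hNn.conj_mem _ x₀.2 g⟩, ?_, ?_⟩
      · refine Finset.mem_coe.2 ((hAmem _).2 fun c hc => ?_)
        have hc' : (g * (x₀ : G) * g⁻¹) • c = c := hc
        rw [mul_smul, mul_smul] at hc'
        exact hx₀f (g⁻¹ • c) (eq_inv_smul_iff.2 hc')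
      · show (g * (x₀ : G) * g⁻¹) • a = b
        rw [conj_smul_of_fix hga, hgb]
    have hcard : A.card ≤ (Finset.univ.erase a).card := by
      rw [Finset.card_erase_of_mem (Finset.mem_univ a), Finset.card_univ]; omega
    have hinj := Finset.injOn_of_surjOn_of_card_le _ hmaps hsurj hcard
    intro x hx y hy hxy
    exact hinj (Finset.mem_coe.2 hx) (Finset.mem_coe.2 hy) hxy
  obtain ⟨K, hK⟩ : ∃ K : Subgroup G, ∀ x, x ∈ K ↔ x ∈ N ∧ (x = 1 ∨ ∀ c : α, x • c ≠ c) :=
    ⟨{ carrier := {x | x ∈ N ∧ (x = 1 ∨ ∀ c : α, x • c ≠ c)}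
       one_mem' := ⟨N.one_mem, Or.inl rfl⟩
       inv_mem' := by
         rintro x ⟨hx, hx'⟩
         refine ⟨N.inv_mem hx, ?_⟩
         rcases hx' with rfl | hx'
         · left; simp
         · right
           intro c hc
           rw [inv_smul_eq_iff] at hc
           exact hx' c hc.symm
       mul_mem' := by
         rintro x y ⟨hx, hx'⟩ ⟨hy, hy'⟩
         refine ⟨N.mul_mem hx hy, ?_⟩
         rcases hx' with rfl | hx'
         · rw [one_mul]; exact hy'
         rcases hy' with rfl | hy'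
         · rw [mul_one]; exact Or.inr hx'
         by_contra hcon
         push Not at hcon
         obtain ⟨hxy1, c, hc⟩ := hcon
         have h1 : (⟨x⁻¹, N.inv_mem hx⟩ : N) = ⟨y, hy⟩ := by
           apply hU c
           · refine (hAmem _).2 fun d hd => hx' d ?_
             have hd' : x⁻¹ • d = d := hd
             rw [inv_smul_eq_iff] at hd'
             exact hd'.symm
           · exact (hAmem _).2 hy'
           · show x⁻¹ • c = y • c
             rw [inv_smul_eq_iff, ← mul_smul, hc]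
         have h2 : x⁻¹ = y := congrArg Subtype.val h1
         apply hxy1
         rw [← h2, mul_inv_cancel] }, fun x => Iff.rfl⟩
  have hKn : K.Normal := ⟨fun x hx g => by
    rw [hK] at hx ⊢
    refine ⟨hNn.conj_mem x hx.1 g, ?_⟩
    rcases hx.2 with h | h
    · left; rw [h]; group
    · right
      intro c hc
      rw [mul_smul, mul_smul] at hc
      exact h (g⁻¹ • c) (eq_inv_smul_iff.2 hc)⟩
  have hKN : K ≤ N := fun x hx => ((hK x).1 hx).1
  rcases hmin K hKn hKN with h | h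
  · have : (x₀ : G) ∈ K := (hK _).2 ⟨x₀.2, Or.inr hx₀f⟩
    rw [h, Subgroup.mem_bot] at this
    exact hx₀f a₀ (by rw [this, one_smul])
  · have : n₁ ∈ K := by rw [h]; exact hn₁
    rcases ((hK _).1 this).2 with h' | h'
    · exact hn₁1 h'
    · exact h' a₀ hn₁a

/-- The abelian case of Burnside's theorem. -/
theorem burnside_abelian [Finite G]
    (hfaith : ∀ g : G, (∀ x : α, g • x = x) → g = 1)
    (N : Subgroup G) [hNn : N.Normal] (htr : ∀ x y : α, ∃ n ∈ N, n • x = y)
    (hN : ∃ n ∈ N, n ≠ 1) (hmin : ∀ M : Subgroup G, M.Normal → M ≤ N → M = ⊥ ∨ M = N)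
    (hab : ∀ x ∈ N, ∀ y ∈ N, x * y = y * x) :
    (∃ p : ℕ, p.Prime ∧ ∀ n ∈ N, n ^ p = 1) ∧ ∀ a : α, ∀ n ∈ N, n • a = a → n = 1 := by
  constructor
  · have : Nontrivial N := by
      obtain ⟨n, hn, hn1⟩ := hN
      exact ⟨⟨⟨n, hn⟩, 1, fun h => hn1 (congrArg Subtype.val h)⟩⟩
    have hc1 : Nat.card N ≠ 1 := by
      intro h
      have := (Nat.card_eq_one_iff_unique.1 h).1
      exact not_subsingleton N this
    obtain ⟨p, hp, hpd⟩ := Nat.exists_prime_and_dvd hc1
    have : Fact p.Prime := ⟨hp⟩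
    obtain ⟨x, hx⟩ := exists_prime_orderOf_dvd_card' p hpd
    refine ⟨p, hp, ?_⟩
    have hM : ∃ M : Subgroup G, ∀ n, n ∈ M ↔ n ∈ N ∧ n ^ p = 1 :=
      ⟨{ carrier := {n | n ∈ N ∧ n ^ p = 1}
         one_mem' := ⟨N.one_mem, one_pow p⟩
         inv_mem' := by
           rintro n ⟨hn, hn'⟩
           exact ⟨N.inv_mem hn, by rw [inv_pow, hn', inv_one]⟩
         mul_mem' := by
           rintro n m ⟨hn, hn'⟩ ⟨hm, hm'⟩
           refine ⟨N.mul_mem hn hm, ?_⟩
           have hc : Commute n m := hab n hn m hm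
           rw [hc.mul_pow, hn', hm', one_mul] }, fun n => Iff.rfl⟩
    obtain ⟨M, hM⟩ := hM
    have hMn : M.Normal := ⟨fun n hn g => by
      rw [hM] at hn ⊢
      exact ⟨hNn.conj_mem n hn.1 g, by rw [conj_pow, hn.2, mul_one, mul_inv_cancel]⟩⟩
    have hMN : M ≤ N := fun n hn => ((hM n).1 hn).1
    have hxM : (x : G) ∈ M := by
      rw [hM]
      refine ⟨x.2, ?_⟩
      have h1 : x ^ p = 1 := by rw [← hx]; exact pow_orderOf_eq_one x
      exact_mod_cast congrArg Subtype.val h1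
    have hx1 : (x : G) ≠ 1 := by
      intro h
      have h1 : x = 1 := Subtype.ext h
      rw [h1, orderOf_one] at hx
      exact hp.one_lt.ne hx
    rcases hmin M hMn hMN with h | h
    · rw [h, Subgroup.mem_bot] at hxM
      exact absurd hxM hx1
    · intro n hn
      rw [← h] at hn
      exact ((hM n).1 hn).2
  · intro a n hn hna
    apply hfaith
    intro x
    obtain ⟨h, hh, rfl⟩ := htr a x
    rw [← mul_smul, hab n hn h hh, mul_smul, hna]

/-- A non-abelian normal subgroup of a 2-transitive group has non-trivial point stabilisers. -/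
theorem burnside_nonreg [Finite G]
    (h2 : ∀ a b c d : α, a ≠ b → c ≠ d → ∃ g : G, g • a = c ∧ g • b = d)
    (N : Subgroup G) [hNn : N.Normal] (hN : ∃ n ∈ N, n ≠ 1)
    (hnab : ¬ ∀ x ∈ N, ∀ y ∈ N, x * y = y * x) :
    ∀ a : α, ∃ n ∈ N, n ≠ 1 ∧ n • a = a := by
  intro a
  by_contra hreg'
  have hreg : ∀ n ∈ N, n • a = a → n = 1 := by
    intro n hn hna
    by_contra h1
    exact hreg' ⟨n, hn, h1, hna⟩
  have hconj : ∀ x ∈ N, ∀ y ∈ N, x ≠ 1 → y ≠ 1 → ∃ g : G, g * x * g⁻¹ = y := by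
    intro x hx y hy hx1 hy1
    have hxa : a ≠ x • a := fun h => hx1 (hreg x hx h.symm)
    have hya : a ≠ y • a := fun h => hy1 (hreg y hy h.symm)
    obtain ⟨g, hga, hgb⟩ := h2 a (x • a) a (y • a) hxa hya
    refine ⟨g, ?_⟩
    have h1 : y⁻¹ * (g * x * g⁻¹) = 1 := by
      apply hreg _ (N.mul_mem (N.inv_mem hy) (hNn.conj_mem x hx g))
      rw [mul_smul, conj_smul_of_fix hga, hgb, inv_smul_smul]
    exact (inv_mul_eq_one.1 h1).symm
  have : Nontrivial N := by
    obtain ⟨n, hn, hn1⟩ := hN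
    exact ⟨⟨⟨n, hn⟩, 1, fun h => hn1 (congrArg Subtype.val h)⟩⟩
  have hc1 : Nat.card N ≠ 1 := by
    intro h
    have := (Nat.card_eq_one_iff_unique.1 h).1
    exact not_subsingleton N this
  obtain ⟨p, hp, hpd⟩ := Nat.exists_prime_and_dvd hc1
  have : Fact p.Prime := ⟨hp⟩
  obtain ⟨x₀, hx₀⟩ := exists_prime_orderOf_dvd_card' p hpd
  have hx₀p : (x₀ : G) ^ p = 1 := by
    have h1 : x₀ ^ p = 1 := by rw [← hx₀]; exact pow_orderOf_eq_one x₀
    exact_mod_cast congrArg Subtype.val h1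
  have hx₀1 : (x₀ : G) ≠ 1 := by
    intro h
    have h1 : x₀ = 1 := Subtype.ext h
    rw [h1, orderOf_one] at hx₀
    exact hp.one_lt.ne hx₀
  have hpow : ∀ y ∈ N, y ^ p = 1 := by
    intro y hy
    by_cases hy1 : y = 1
    · rw [hy1, one_pow]
    · obtain ⟨g, hg⟩ := hconj x₀ x₀.2 y hy hx₀1 hy1
      rw [← hg, conj_pow, hx₀p, mul_one, mul_inv_cancel]
  have hPG : IsPGroup p N := by
    intro y
    refine ⟨1, Subtype.ext ?_⟩
    have := hpow y.1 y.2
    simpa using this
  have := hPG.center_nontrivial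
  obtain ⟨z, hz⟩ := exists_ne (1 : Subgroup.center N)
  have hz1 : ((z : N) : G) ≠ 1 := fun h => hz (Subtype.ext (Subtype.ext h))
  have hzc : ∀ w ∈ N, w * ((z : N) : G) = ((z : N) : G) * w := by
    intro w hw
    have := Subgroup.mem_center_iff.1 z.2 ⟨w, hw⟩
    exact congrArg Subtype.val this
  apply hnab
  intro x hx y hy
  by_cases hx1 : x = 1
  · rw [hx1, one_mul, mul_one]
  · obtain ⟨g, hg⟩ := hconj _ (z : N).2 x hx hz1 hx1
    have hw : g⁻¹ * y * g ∈ N := by simpa using hNn.conj_mem y hy g⁻¹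
    have hc := hzc _ hw
    rw [← hg]
    calc g * ((z : N) : G) * g⁻¹ * y = g * (((z : N) : G) * (g⁻¹ * y * g)) * g⁻¹ := by group
      _ = g * ((g⁻¹ * y * g) * ((z : N) : G)) * g⁻¹ := by rw [hc]
      _ = y * (g * ((z : N) : G) * g⁻¹) := by group

end Burnside

end Cfsg.Agent.Helper29
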