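import Mathlib
import Cfsg.Agent.Helper29.Burnside1

set_option autoImplicit false

namespace Cfsg.Agent.Helper29

open MulAction

open scoped Pointwise

section Burnside2

variable {G : Type*} [Group G] {α : Type*} [MulAction G α]

/-- A non-trivial subgroup normalised by a primitive group `N` is transitive. -/
theorem prim_normal_trans (hfaith : ∀ g : G, (∀ x : α, g • x = x) → g = 1)
    (N : Subgroup G) (hprim : IsPreprimitive N α) (M : Subgroup G) (hMN : M ≤ N)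
    (hM : ∃ m ∈ M, m ≠ 1) (hnorm : ∀ n ∈ N, ∀ m ∈ M, n * m * n⁻¹ ∈ M) :
    ∀ x y : α, ∃ m ∈ M, m • x = y := by
  have hMn : (M.subgroupOf N).Normal := ⟨fun m hm n => by
    rw [Subgroup.mem_subgroupOf] at hm ⊢
    have := hnorm n n.2 m hm
    simpa using this⟩
  obtain ⟨m₀, hm₀, hm₀1⟩ := hM
  obtain ⟨z, hz⟩ : ∃ z : α, m₀ • z ≠ z := by
    by_contra hc; push Not at hc; exact hm₀1 (hfaith m₀ hc)
  have hfp : fixedPoints (M.subgroupOf N) α ≠ Set.univ := by
    intro heq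
    have hmem : z ∈ fixedPoints (M.subgroupOf N) α := by rw [heq]; trivial
    have h2 := hmem ⟨⟨m₀, hMN hm₀⟩, Subgroup.mem_subgroupOf.2 hm₀⟩
    exact hz h2
  have hpt : IsPretransitive (M.subgroupOf N) α :=
    IsQuasiPreprimitive.isPretransitive_of_normal hfp
  intro x y
  obtain ⟨m, hm⟩ := hpt.exists_smul_eq x y
  exact ⟨((m : N) : G), Subgroup.mem_subgroupOf.1 m.2, hm⟩

/-- A primitive non-abelian minimal normal subgroup of a 2-transitive group is simple. -/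
theorem simple_of_prim [Finite G] (hfaith : ∀ g : G, (∀ x : α, g • x = x) → g = 1)
    (h2 : ∀ a b c d : α, a ≠ b → c ≠ d → ∃ g : G, g • a = c ∧ g • b = d)
    (N : Subgroup G) [hNn : N.Normal] (hN : ∃ n ∈ N, n ≠ 1)
    (hmin : ∀ M : Subgroup G, M.Normal → M ≤ N → M = ⊥ ∨ M = N)
    (hprim : IsPreprimitive N α) : IsSimpleGroup N := by
  have hnt : Nontrivial N := by
    obtain ⟨n, hn, hn1⟩ := hN
    exact ⟨⟨⟨n, hn⟩, 1, fun h => hn1 (congrArg Subtype.val h)⟩⟩
  obtain ⟨a, -⟩ : ∃ a : α, ∃ n ∈ N, n • a ≠ a := by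
    obtain ⟨n, hn, hn1⟩ := hN
    by_contra hc
    push Not at hc
    exact hn1 (hfaith n fun x => hc x n hn)
  refine ⟨fun K hK => ?_⟩
  by_contra hcon
  push Not at hcon
  obtain ⟨hKbot, hKtop⟩ := hcon
  obtain ⟨P, hPdef⟩ : ∃ P : Subgroup G → Prop, ∀ M, P M ↔
      (M ≤ N ∧ M ≠ ⊥ ∧ ∀ n ∈ N, ∀ m ∈ M, n * m * n⁻¹ ∈ M) := ⟨_, fun _ => Iff.rfl⟩
  have hM₀ : P (K.map N.subtype) := by
    rw [hPdef]
    refine ⟨?_, ?_, ?_⟩
    · rintro _ ⟨x, -, rfl⟩; exact x.2
    · intro h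
      apply hKbot
      rw [eq_bot_iff]
      intro x hx
      have : (x : G) ∈ K.map N.subtype := ⟨x, hx, rfl⟩
      rw [h, Subgroup.mem_bot] at this
      exact Subgroup.mem_bot.2 (Subtype.ext this)
    · rintro n hn _ ⟨x, hx, rfl⟩
      exact ⟨⟨n, hn⟩ * x * ⟨n, hn⟩⁻¹, hK.conj_mem x hx ⟨n, hn⟩, rfl⟩
  have hM₀N : K.map N.subtype ≠ N := by
    intro h
    apply hKtop
    rw [eq_top_iff]
    intro x _
    have : (x : G) ∈ K.map N.subtype := by rw [h]; exact x.2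
    obtain ⟨y, hy, hyx⟩ := this
    have : y = x := Subtype.ext hyx
    rw [← this]; exact hy
  obtain ⟨T, hTP, hTmin⟩ := Set.exists_min_image {M : Subgroup G | P M}
    (fun M => Nat.card M) (Set.toFinite _) ⟨_, hM₀⟩
  have hTP' := (hPdef T).1 hTP
  obtain ⟨hTN, hTbot, hTnorm⟩ := hTP'
  have hTlt : T ≠ N := by
    intro h
    have h1 := hTmin _ hM₀
    rw [h] at h1
    exact hM₀N (Subgroup.eq_of_le_of_card_ge ((hPdef _).1 hM₀).1 h1)
  have hTmin' : ∀ M : Subgroup G, P M → M ≤ T → M = T := fun M hM hMT =>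
    Subgroup.eq_of_le_of_card_ge hMT (hTmin M hM)
  have hPconj : ∀ g : G, P (T.map (MulAut.conj g).toMonoidHom) := by
    intro g
    rw [hPdef]
    refine ⟨?_, ?_, ?_⟩
    · rintro _ ⟨t, ht, rfl⟩; exact hNn.conj_mem t (hTN ht) g
    · intro h
      apply hTbot
      rw [eq_bot_iff]
      intro t ht
      have : g * t * g⁻¹ ∈ T.map (MulAut.conj g).toMonoidHom := ⟨t, ht, rfl⟩
      rw [h, Subgroup.mem_bot] at this
      exact Subgroup.mem_bot.2 (conj_eq_one_iff.1 this)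
    · rintro n hn _ ⟨t, ht, rfl⟩
      refine ⟨(g⁻¹ * n * g) * t * (g⁻¹ * n * g)⁻¹,
        hTnorm _ (by simpa using hNn.conj_mem n hn g⁻¹) t ht, ?_⟩
      simp only [MulEquiv.coe_toMonoidHom, MulAut.conj_apply]
      group
  have hcardconj : ∀ g : G, Nat.card (T.map (MulAut.conj g).toMonoidHom) = Nat.card T :=
    fun g => Subgroup.card_map_of_injective (MulAut.conj g).injective
  have hinf : ∀ M : Subgroup G, P M → Nat.card M = Nat.card T → M ≠ T → M ⊓ T = ⊥ := by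
    intro M hM hcard hne
    by_contra hint
    apply hne
    have hM' := (hPdef M).1 hM
    have hP' : P (M ⊓ T) := (hPdef _).2 ⟨inf_le_left.trans hM'.1, hint, fun n hn x hx =>
      Subgroup.mem_inf.2 ⟨hM'.2.2 n hn x (Subgroup.mem_inf.1 hx).1,
        hTnorm n hn x (Subgroup.mem_inf.1 hx).2⟩⟩
    have h1 : M ⊓ T = T := hTmin' _ hP' inf_le_right
    have h2 : T ≤ M := by rw [← h1]; exact inf_le_left
    exact (Subgroup.eq_of_le_of_card_ge h2 (le_of_eq hcard)).symm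
  have hcommOf : ∀ M : Subgroup G, P M → M ⊓ T = ⊥ → ∀ m ∈ M, ∀ t ∈ T, m * t = t * m := by
    intro M hM hint m hm t ht
    have hM' := (hPdef M).1 hM
    have h1 : m * t * m⁻¹ * t⁻¹ ∈ M ⊓ T := by
      refine Subgroup.mem_inf.2 ⟨?_, ?_⟩
      · have h3 := hM'.2.2 t (hTN ht) m⁻¹ (M.inv_mem hm)
        have h4 := M.mul_mem hm h3
        have e : m * t * m⁻¹ * t⁻¹ = m * (t * m⁻¹ * t⁻¹) := by group
        rw [e]; exact h4
      · have h3 := hTnorm m (hM'.1 hm) t ht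
        exact T.mul_mem h3 (T.inv_mem ht)
    rw [hint, Subgroup.mem_bot] at h1
    calc m * t = (m * t * m⁻¹ * t⁻¹) * (t * m) := by group
      _ = t * m := by rw [h1, one_mul]
  obtain ⟨g₀, hg₀⟩ : ∃ g₀ : G, T.map (MulAut.conj g₀).toMonoidHom ≠ T := by
    by_contra hall
    push Not at hall
    have hTnormal : T.Normal := ⟨fun t ht g => by
      have : g * t * g⁻¹ ∈ T.map (MulAut.conj g).toMonoidHom := ⟨t, ht, rfl⟩
      rw [hall g] at this; exact this⟩
    rcases hmin T hTnormal hTN with h | h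
    · exact hTbot h
    · exact hTlt h
  obtain ⟨T', hT'def⟩ : ∃ T' : Subgroup G, T' = T.map (MulAut.conj g₀).toMonoidHom := ⟨_, rfl⟩
  have hT'P : P T' := by rw [hT'def]; exact hPconj g₀
  have hT'card : Nat.card T' = Nat.card T := by rw [hT'def]; exact hcardconj g₀
  have hT'ne : T' ≠ T := by rw [hT'def]; exact hg₀
  have hT'inf : T' ⊓ T = ⊥ := hinf T' hT'P hT'card hT'ne
  have hcomm : ∀ t' ∈ T', ∀ t ∈ T, t' * t = t * t' := hcommOf T' hT'P hT'inf
  have hT'P' := (hPdef T').1 hT'P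
  have hex : ∀ M : Subgroup G, M ≠ ⊥ → ∃ m ∈ M, m ≠ 1 := by
    intro M hM
    obtain ⟨m, hm⟩ := (Subgroup.ne_bot_iff_exists_ne_one).1 hM
    exact ⟨m.1, m.2, fun h => hm (Subtype.ext h)⟩
  have hTtr : ∀ x y : α, ∃ t ∈ T, t • x = y :=
    prim_normal_trans hfaith N hprim T hTN (hex T hTbot) hTnorm
  have hT'tr : ∀ x y : α, ∃ t ∈ T', t • x = y :=
    prim_normal_trans hfaith N hprim T' hT'P'.1 (hex T' hT'P'.2.1) hT'P'.2.2
  have hTsr : ∀ t ∈ T, ∀ c : α, t • c = c → t = 1 := by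
    intro t ht c hc
    apply hfaith
    intro x
    obtain ⟨t', ht', rfl⟩ := hT'tr c x
    rw [← mul_smul, ← hcomm t' ht' t ht, mul_smul, hc]
  have hT'sr : ∀ t' ∈ T', ∀ c : α, t' • c = c → t' = 1 := by
    intro t' ht' c hc
    apply hfaith
    intro x
    obtain ⟨t, ht, rfl⟩ := hTtr c x
    rw [← mul_smul, hcomm t' ht' t ht, mul_smul, hc]
  have hcent : ∀ x : G, (∀ t ∈ T, x * t = t * x) → x ∈ T' := by
    intro x hx
    obtain ⟨t', ht', hta⟩ := hT'tr a (x • a)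
    have h1 : t'⁻¹ * x = 1 := by
      apply hfaith
      intro y
      obtain ⟨t, ht, rfl⟩ := hTtr a y
      have hc : (t'⁻¹ * x) * t = t * (t'⁻¹ * x) := by
        have h3 := hcomm t' ht' t ht
        have h4 := hx t ht
        calc t'⁻¹ * x * t = t'⁻¹ * (x * t) := by group
          _ = t'⁻¹ * (t * x) := by rw [h4]
          _ = t'⁻¹ * (t * t') * (t'⁻¹ * x) := by group
          _ = t'⁻¹ * (t' * t) * (t'⁻¹ * x) := by rw [h3]
          _ = t * (t'⁻¹ * x) := by group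
      rw [← mul_smul, hc, mul_smul]
      congr 1
      rw [mul_smul, ← hta, inv_smul_smul]
    have h5 : x = t' := (inv_mul_eq_one.1 h1).symm
    rw [h5]; exact ht'
  have hgT : ∀ g : G, (∀ t ∈ T, g * t * g⁻¹ ∈ T) ∨ (∀ t ∈ T, g * t * g⁻¹ ∈ T') := by
    intro g
    by_cases h : T.map (MulAut.conj g).toMonoidHom = T
    · left
      intro t ht
      have hm : g * t * g⁻¹ ∈ T.map (MulAut.conj g).toMonoidHom := ⟨t, ht, rfl⟩
      rw [h] at hm; exact hm
    · right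
      intro t ht
      have hc := hcommOf _ (hPconj g) (hinf _ (hPconj g) (hcardconj g) h)
      exact hcent _ (hc _ ⟨t, ht, rfl⟩)
  have hord : ∀ t ∈ T, ∀ s ∈ T', t • a = s • a → orderOf t = orderOf s := by
    intro t ht s hs hts
    have hpow : ∀ k : ℕ, t ^ k • a = s ^ k • a := by
      intro k
      induction k with
      | zero => simp
      | succ k ih =>
        have hc : t ^ k * s = s * t ^ k := (hcomm s hs (t ^ k) (T.pow_mem ht k)).symm
        rw [pow_succ, mul_smul, hts, ← mul_smul, hc, mul_smul, ih, ← mul_smul, ← pow_succ']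
    rw [orderOf_eq_orderOf_iff]
    intro k
    constructor
    · intro h
      apply hT'sr _ (T'.pow_mem hs k) a
      rw [← hpow, h, one_smul]
    · intro h
      apply hTsr _ (T.pow_mem ht k) a
      rw [hpow, h, one_smul]
  have hsame : ∀ t₁ ∈ T, ∀ t₂ ∈ T, t₁ ≠ 1 → t₂ ≠ 1 → orderOf t₁ = orderOf t₂ := by
    intro t₁ h₁ t₂ h₂ hne₁ hne₂
    have hb₁ : a ≠ t₁ • a := fun h => hne₁ (hTsr t₁ h₁ a h.symm)
    have hb₂ : a ≠ t₂ • a := fun h => hne₂ (hTsr t₂ h₂ a h.symm)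
    obtain ⟨g, hga, hgb⟩ := h2 a (t₁ • a) a (t₂ • a) hb₁ hb₂
    have hconj_a : (g * t₁ * g⁻¹) • a = t₂ • a := by rw [conj_smul_of_fix hga, hgb]
    have hordc : orderOf (g * t₁ * g⁻¹) = orderOf t₁ :=
      orderOf_injective (MulAut.conj g).toMonoidHom (MulAut.conj g).injective t₁
    rcases hgT g with h | h
    · have h4 : g * t₁ * g⁻¹ = t₂ := by
        have h3 : t₂⁻¹ * (g * t₁ * g⁻¹) = 1 := by
          apply hTsr _ (T.mul_mem (T.inv_mem h₂) (h t₁ h₁)) a
          rw [mul_smul, hconj_a, inv_smul_smul]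
        exact (inv_mul_eq_one.1 h3).symm
      rw [← hordc, h4]
    · rw [← hordc]
      exact (hord t₂ h₂ _ (h t₁ h₁) hconj_a.symm).symm
  obtain ⟨t₁, ht₁, ht₁1⟩ := hex T hTbot
  have ho : orderOf t₁ ≠ 1 := fun h => ht₁1 (orderOf_eq_one_iff.1 h)
  obtain ⟨p, hp, hpdvd⟩ := Nat.exists_prime_and_dvd ho
  have ho0 : orderOf t₁ ≠ 0 := (orderOf_pos t₁).ne'
  have h3 : orderOf (t₁ ^ (orderOf t₁ / p)) = p := orderOf_pow_orderOf_div ho0 hpdvd
  have ht₃1 : t₁ ^ (orderOf t₁ / p) ≠ 1 := by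
    intro h
    rw [h, orderOf_one] at h3
    exact hp.one_lt.ne h3
  have hop : ∀ t ∈ T, t ^ p = 1 := by
    intro t ht
    by_cases h1 : t = 1
    · rw [h1, one_pow]
    · have h4 := hsame t ht _ (T.pow_mem ht₁ _) h1 ht₃1
      rw [h3] at h4
      rw [← h4]; exact pow_orderOf_eq_one t
  have hfp : Fact p.Prime := ⟨hp⟩
  have hPG : IsPGroup p T := by
    intro t
    refine ⟨1, Subtype.ext ?_⟩
    have := hop t.1 t.2
    simpa using this
  have hTnt : Nontrivial T := ⟨⟨⟨t₁, ht₁⟩, 1, fun h => ht₁1 (congrArg Subtype.val h)⟩⟩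
  have hcnt := hPG.center_nontrivial
  obtain ⟨z, hz⟩ := exists_ne (1 : Subgroup.center T)
  have hz1 : ((z : T) : G) ≠ 1 := fun h => hz (Subtype.ext (Subtype.ext h))
  have hzc : ∀ t ∈ T, ((z : T) : G) * t = t * ((z : T) : G) := by
    intro t ht
    have := Subgroup.mem_center_iff.1 z.2 ⟨t, ht⟩
    exact (congrArg Subtype.val this).symm
  have hzT' : ((z : T) : G) ∈ T' := hcent _ hzc
  have hzinf : ((z : T) : G) ∈ T' ⊓ T := Subgroup.mem_inf.2 ⟨hzT', (z : T).2⟩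
  rw [hT'inf, Subgroup.mem_bot] at hzinf
  exact hz1 hzinf

/-- Burnside's theorem on minimal normal subgroups of 2-transitive groups. -/
theorem burnside_aux [Fintype α] [Finite G] (hfaith : ∀ g : G, (∀ x : α, g • x = x) → g = 1)
    (hG2 : IsMultiplyPretransitive G α 2) (N : Subgroup G) [hNn : N.Normal]
    (hN : ∃ n ∈ N, n ≠ 1) (hmin : ∀ M : Subgroup G, M.Normal → M ≤ N → M = ⊥ ∨ M = N) :
    ((∀ x ∈ N, ∀ y ∈ N, x * y = y * x) ∧ (∃ p : ℕ, p.Prime ∧ ∀ n ∈ N, n ^ p = 1) ∧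
      ∀ a : α, ∀ n ∈ N, n • a = a → n = 1) ∨ (IsSimpleGroup N ∧ IsPreprimitive N α) := by
  have h2 : ∀ a b c d : α, a ≠ b → c ≠ d → ∃ g : G, g • a = c ∧ g • b = d :=
    fun a b c d hab hcd => is_two_pretransitive_iff.1 hG2 hab hcd
  have htr : ∀ x y : α, ∃ n ∈ N, n • x = y := by
    obtain ⟨n₀, hn₀, hn₀1⟩ := hN
    obtain ⟨x₀, hx₀⟩ : ∃ x : α, n₀ • x ≠ x := by
      by_contra hc; push Not at hc; exact hn₀1 (hfaith n₀ hc)
    intro x y
    by_cases hxy : x = y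
    · exact ⟨1, N.one_mem, by rw [one_smul, hxy]⟩
    · obtain ⟨g, hgx, hgy⟩ := h2 x₀ (n₀ • x₀) x y (Ne.symm hx₀) hxy
      refine ⟨g * n₀ * g⁻¹, hNn.conj_mem n₀ hn₀ g, ?_⟩
      rw [mul_smul, mul_smul, inv_smul_eq_iff.2 hgx.symm, hgy]
  by_cases hab : ∀ x ∈ N, ∀ y ∈ N, x * y = y * x
  · left
    obtain ⟨h1, h3⟩ := burnside_abelian hfaith N htr hN hmin hab
    exact ⟨hab, h1, h3⟩
  · right
    have hnr := burnside_nonreg h2 N hN hab
    obtain ⟨a₀⟩ : Nonempty α := by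
      obtain ⟨n₀, hn₀, hn₀1⟩ := hN
      by_contra hc
      rw [not_nonempty_iff] at hc
      exact hn₀1 (hfaith n₀ fun x => (hc.false x).elim)
    have hpt : IsPretransitive N α := ⟨fun x y => by
      obtain ⟨n, hn, h⟩ := htr x y; exact ⟨⟨n, hn⟩, h⟩⟩
    have hprim : IsPreprimitive N α := by
      by_contra hnp
      have hex : ∃ B : Set α, IsBlock N B ∧ ¬ IsTrivialBlock B := by
        by_contra hno
        push Not at hno
        exact hnp { toIsPretransitive := hpt, isTrivialBlock_of_isBlock := fun {B} hB => hno B hB }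
      obtain ⟨B, hB, hBt⟩ := hex
      have hBt' : ¬ B.Subsingleton ∧ B ≠ Set.univ := by
        constructor
        · intro h; exact hBt (Or.inl h)
        · intro h; exact hBt (Or.inr h)
      obtain ⟨x, hx, y, hy, hxy⟩ := Set.not_subsingleton_iff.1 hBt'.1
      have hBlk : Blk N B := by
        intro n hn u hu hnu v hv
        have h1 := isBlock_iff_smul_eq_of_mem.1 hB (g := ⟨n, hn⟩) hu hnu
        have h3 : (⟨n, hn⟩ : N) • v ∈ (⟨n, hn⟩ : N) • B := Set.smul_mem_smul_set hv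
        rw [h1] at h3
        exact h3
      have hFR := frob_of_imprim hfaith h2 N B hBlk hBt'.2 x y hx hy hxy
      exact frob_contra hfaith h2 N a₀ htr hmin hnr hFR
    exact ⟨simple_of_prim hfaith h2 N hN hmin hprim, hprim⟩

end Burnside2

end Cfsg.Agent.Helper29
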