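import Mathlib

set_option autoImplicit false

namespace Cfsg.Agent.Helper29

open scoped Pointwise

/-- If `[G : St]` is a power of `p` and `P` is a `p`-subgroup of the largest possible order,
then `G = P · St`. -/
theorem fis_sylow_mul {G : Type*} [Group G] [Finite G] (p : ℕ) (hp : p.Prime) (St P : Subgroup G)
    (m a : ℕ) (hSt : St.index = p ^ m) (hP : Nat.card P = p ^ a)
    (hmax : ¬ p ^ (a + 1) ∣ Nat.card G) :
    ∀ g : G, ∃ y ∈ P, y⁻¹ * g ∈ St := by
  classical
  obtain ⟨x0, hx0⟩ : ∃ x0 : G ⧸ St, x0 = ((1 : G) : G ⧸ St) := ⟨_, rfl⟩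
  have hmem : ∀ y : P, y ∈ MulAction.stabilizer P x0 ↔ (y : G) ∈ St := by
    intro y
    rw [MulAction.mem_stabilizer_iff, hx0]
    show ((y : G) • ((1 : G) : G ⧸ St)) = ((1 : G) : G ⧸ St) ↔ _
    rw [MulAction.Quotient.smul_mk, QuotientGroup.eq]
    simp
  obtain ⟨stab, hstab⟩ : ∃ s : Subgroup P, s = MulAction.stabilizer P x0 := ⟨_, rfl⟩
  have hdvd : Nat.card stab ∣ p ^ a := by
    rw [← hP]; exact Subgroup.card_subgroup_dvd_card stab
  obtain ⟨j, hja, hj⟩ := (Nat.dvd_prime_pow hp).1 hdvd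
  have hdvd2 : Nat.card stab ∣ Nat.card St := by
    let f : stab →* St :=
      { toFun := fun y => ⟨(y.1 : G), (hmem y.1).1 (hstab ▸ y.2)⟩
        map_one' := rfl
        map_mul' := fun _ _ => rfl }
    refine Subgroup.card_dvd_of_injective f ?_
    intro y1 y2 h
    have h' : (y1.1 : G) = (y2.1 : G) := congrArg (fun z : St => (z : G)) h
    exact Subtype.ext (Subtype.ext h')
  have hjm : j + m ≤ a := by
    by_contra hcon
    push Not at hcon
    apply hmax
    have h1 : p ^ (j + m) ∣ Nat.card G := by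
      rw [← Subgroup.card_mul_index St, hSt, pow_add, ← hj]
      exact Nat.mul_dvd_mul_right hdvd2 _
    exact (pow_dvd_pow p hcon).trans h1
  have hidx : stab.index = p ^ (a - j) := by
    have h1 := Subgroup.card_mul_index stab
    rw [hj, hP] at h1
    have h2 : p ^ a = p ^ j * p ^ (a - j) := by rw [← pow_add, Nat.add_sub_cancel' hja]
    rw [h2] at h1
    exact Nat.eq_of_mul_eq_mul_left (pow_pos hp.pos j) h1
  have horb : MulAction.orbit P x0 = Set.univ := by
    apply Set.eq_of_subset_of_ncard_le (Set.subset_univ _)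
    rw [Set.ncard_univ, ← Subgroup.index_eq_card, hSt, ← MulAction.index_stabilizer, ← hstab, hidx]
    exact Nat.pow_le_pow_right hp.pos (by omega)
  intro g
  have hg : ((g : G) : G ⧸ St) ∈ MulAction.orbit P x0 := by rw [horb]; exact Set.mem_univ _
  obtain ⟨y, hy⟩ := hg
  refine ⟨(y : G), y.2, ?_⟩
  have hy' : ((y : G) • ((1 : G) : G ⧸ St)) = ((g : G) : G ⧸ St) := by rw [← hx0]; exact hy
  rw [MulAction.Quotient.smul_mk, QuotientGroup.eq] at hy'
  simpa using hy'

/-- A group of odd order with an involutory automorphism `φ` such that every element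
`x * (φ x)⁻¹` is a `p`-element: these elements all lie in one `φ`-invariant `p`-subgroup. -/
theorem fis_invol_aut {N : Type*} [Group N] [Finite N] (hodd : Odd (Nat.card N)) (φ : MulAut N)
    (hφ : ∀ n, φ (φ n) = n) (p : ℕ) (hp : p.Prime)
    (H1 : ∀ x : N, ∃ k : ℕ, orderOf (x * (φ x)⁻¹) = p ^ k) :
    ∃ P : Subgroup N, IsPGroup p P ∧ (∀ y ∈ P, φ y ∈ P) ∧ ∀ n, n * (φ n)⁻¹ ∈ P := by
  classical
  haveI : Fact p.Prime := ⟨hp⟩
  have hφ2 : φ ^ 2 = 1 := by
    ext n
    simp [pow_two, hφ n]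
  have h2 : IsPGroup 2 (Subgroup.zpowers φ) := by
    rintro ⟨g, hg⟩
    obtain ⟨j, rfl⟩ := Subgroup.mem_zpowers_iff.1 hg
    refine ⟨1, Subtype.ext ?_⟩
    show (φ ^ j) ^ 2 ^ 1 = 1
    rw [pow_one, ← zpow_natCast, ← zpow_mul, mul_comm, zpow_mul, zpow_natCast, hφ2, one_zpow]
  -- invariant Sylow subgroups
  have hinvSyl : ∀ q : ℕ, q.Prime → ∃ Q : Sylow q N, ∀ y ∈ Q, φ y ∈ Q := by
    intro q hq
    haveI : Fact q.Prime := ⟨hq⟩
    have hcard : Odd (Nat.card (Sylow q N)) := by
      obtain ⟨Q0⟩ : Nonempty (Sylow q N) := inferInstance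
      exact Odd.of_dvd_nat hodd ((Sylow.card_dvd_index Q0).trans (Subgroup.index_dvd_card _))
    have hmod := h2.card_modEq_card_fixedPoints (Sylow q N)
    have hne : Nat.card (MulAction.fixedPoints (Subgroup.zpowers φ) (Sylow q N)) ≠ 0 := by
      intro h0
      rw [h0] at hmod
      have h3 := Nat.odd_iff.1 hcard
      have h4 : Nat.card (Sylow q N) % 2 = 0 % 2 := hmod
      omega
    obtain ⟨⟨Q, hQ⟩⟩ : Nonempty (MulAction.fixedPoints (Subgroup.zpowers φ) (Sylow q N)) := by
      by_contra hemp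
      rw [not_nonempty_iff] at hemp
      exact hne Nat.card_of_isEmpty
    refine ⟨Q, fun y hy => ?_⟩
    have hfix : (⟨φ, Subgroup.mem_zpowers φ⟩ : Subgroup.zpowers φ) • Q = Q := hQ _
    have hfix' : φ • Q = Q := hfix
    have h4 : φ • y ∈ φ • (Q : Subgroup N) := Subgroup.smul_mem_pointwise_smul y φ _ hy
    rw [← Sylow.pointwise_smul_def, hfix'] at h4
    exact h4
  -- the fixed-point subgroup
  obtain ⟨St, hSt⟩ : ∃ St : Subgroup N, ∀ n, n ∈ St ↔ φ n = n :=
    ⟨{ carrier := {n | φ n = n}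
       mul_mem' := by
        intro a b ha hb
        simp only [Set.mem_ofPred_eq] at *
        rw [map_mul, ha, hb]
       one_mem' := map_one φ
       inv_mem' := by
        intro a ha
        simp only [Set.mem_ofPred_eq] at *
        rw [map_inv, ha] }, fun n => Iff.rfl⟩
  -- Sylow q-subgroups for q ≠ p are fixed pointwise
  have hfixq : ∀ q : ℕ, q.Prime → q ≠ p → ∀ Q : Sylow q N, (∀ y ∈ Q, φ y ∈ Q) →
      (Q : Subgroup N) ≤ St := by
    intro q hq hqp Q hQ y hy
    haveI : Fact q.Prime := ⟨hq⟩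
    rw [hSt]
    have hmemQ : y * (φ y)⁻¹ ∈ (Q : Subgroup N) := Q.mul_mem hy (Q.inv_mem (hQ y hy))
    obtain ⟨k, hk⟩ := H1 y
    obtain ⟨j, hj⟩ := (IsPGroup.iff_orderOf.1 Q.isPGroup') ⟨_, hmemQ⟩
    rw [Subgroup.orderOf_mk] at hj
    have hone : orderOf (y * (φ y)⁻¹) = 1 := by
      rcases Nat.eq_zero_or_pos k with h0 | hkpos
      · rw [hk, h0, pow_zero]
      · exfalso
        have h1 : p ∣ q ^ j := by rw [← hj, hk]; exact dvd_pow_self p (by omega)
        have h2 : p ∣ q := hp.dvd_of_dvd_pow h1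
        exact hqp ((Nat.prime_dvd_prime_iff_eq hp hq).1 h2).symm
    rw [orderOf_eq_one_iff] at hone
    have := mul_inv_eq_one.1 hone
    exact this.symm
  -- the index of St is a power of p
  have hidx : ∃ m, St.index = p ^ m := by
    refine ⟨_, Nat.eq_prime_pow_of_unique_prime_dvd Subgroup.index_ne_zero_of_finite ?_⟩
    intro q hq hqd
    by_contra hqp
    haveI : Fact q.Prime := ⟨hq⟩
    obtain ⟨Q, hQ⟩ := hinvSyl q hq
    have hle := hfixq q hq hqp Q hQ
    have h1 : Nat.card Q ∣ Nat.card St := Subgroup.card_dvd_of_le hle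
    rw [Sylow.card_eq_multiplicity] at h1
    have h2 : q ^ ((Nat.card N).factorization q + 1) ∣ Nat.card N := by
      have h3 := Nat.mul_dvd_mul h1 hqd
      rw [Subgroup.card_mul_index St, ← pow_succ] at h3
      exact h3
    exact Nat.pow_succ_factorization_not_dvd Nat.card_pos.ne' hq h2
  obtain ⟨m, hm⟩ := hidx
  obtain ⟨P, hPinv⟩ := hinvSyl p hp
  refine ⟨P, P.isPGroup', hPinv, ?_⟩
  intro n
  obtain ⟨y, hy, hyn⟩ := fis_sylow_mul p hp St (P : Subgroup N) m _ hm
    (Sylow.card_eq_multiplicity P) (Nat.pow_succ_factorization_not_dvd Nat.card_pos.ne' hp) n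
  have hc : φ (y⁻¹ * n) = y⁻¹ * n := (hSt _).1 hyn
  have hn : n = y * (y⁻¹ * n) := by group
  have hφn : φ n = φ y * (y⁻¹ * n) := by
    conv_lhs => rw [hn]
    rw [map_mul, hc]
  have : n * (φ n)⁻¹ = y * (φ y)⁻¹ := by
    rw [hφn]; group
  rw [this]
  exact P.mul_mem hy (P.inv_mem (hPinv y hy))

/-- closure induction for a class of involutions: if `S` is a `d`-invariant subgroup containing
all `e * d`, `e ∈ D`, and `D` generates, then `S` has index at most 2 with transversal `1, d`. -/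
theorem fis_split {G : Type*} [Group G] (d : G) (hd2 : d * d = 1) (D : Set G)
    (hgen : Subgroup.closure D = ⊤) (S : Subgroup G) (hdS : ∀ x ∈ S, d * x * d ∈ S)
    (hD : ∀ e ∈ D, e * d ∈ S) : ∀ g : G, g ∈ S ∨ g * d ∈ S := by
  intro g
  have hg : g ∈ Subgroup.closure D := by rw [hgen]; exact Subgroup.mem_top g
  induction hg using Subgroup.closure_induction with
  | mem x hx => exact Or.inr (hD x hx)
  | one => exact Or.inl S.one_mem
  | mul x y _ _ hx hy =>
    rcases hx with hx | hx <;> rcases hy with hy | hy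
    · exact Or.inl (S.mul_mem hx hy)
    · right
      have : x * y * d = x * (y * d) := by group
      rw [this]; exact S.mul_mem hx hy
    · right
      have : x * y * d = (x * d) * (d * y * d) := by
        calc x * y * d = x * (d * d) * y * d := by rw [hd2, mul_one]
          _ = (x * d) * (d * y * d) := by group
      rw [this]; exact S.mul_mem hx (hdS y hy)
    · left
      have : x * y = (x * d) * (d * (y * d) * d) := by
        calc x * y = x * (d * d) * y * (d * d) := by rw [hd2, mul_one, mul_one]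
          _ = (x * d) * (d * (y * d) * d) := by group
      rw [this]; exact S.mul_mem hx (hdS _ hy)
  | inv x _ hx =>
    rcases hx with hx | hx
    · exact Or.inl (S.inv_mem hx)
    · right
      have hdinv : d⁻¹ = d := inv_eq_of_mul_eq_one_right hd2
      have h1 : (x * d)⁻¹ ∈ S := S.inv_mem hx
      have h2 := hdS _ h1
      have : d * (x * d)⁻¹ * d = x⁻¹ * d := by
        rw [mul_inv_rev, hdinv, ← mul_assoc, hd2, one_mul]
      rw [this] at h2; exact h2

end Cfsg.Agent.Helper29
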