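import Mathlib

/-!
Hamiltonian groups (Dedekind–Baer): a finite non-abelian group all of whose subgroups are normal
is `Q₈ × E × A` with `E` elementary abelian of exponent 2 and `A` abelian of odd order.
-/

namespace Cfsg.Agent.Helper29

open scoped commutatorElement

/-- commutators with powers, when the commutator commutes with the first argument -/
lemma ham_comm_pow_left {G : Type*} [Group G] (x y : G) (hx : Commute ⁅x, y⁆ x) (n : ℕ) :
    ⁅x ^ n, y⁆ = ⁅x, y⁆ ^ n := by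
  induction n with
  | zero => simp
  | succ n ih =>
    have h1 : ⁅x ^ n * x, y⁆ = x ^ n * ⁅x, y⁆ * (x ^ n)⁻¹ * ⁅x ^ n, y⁆ := by
      simp only [commutatorElement_def]
      group
    have h2 : x ^ n * ⁅x, y⁆ * (x ^ n)⁻¹ = ⁅x, y⁆ := by
      rw [← (hx.pow_right n).eq, mul_inv_cancel_right]
    rw [pow_succ, h1, h2, ih, pow_succ']

lemma ham_comm_pow_right {G : Type*} [Group G] (x y : G) (hy : Commute ⁅x, y⁆ y) (n : ℕ) :
    ⁅x, y ^ n⁆ = ⁅x, y⁆ ^ n := by
  induction n with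
  | zero => simp
  | succ n ih =>
    have h1 : ⁅x, y ^ n * y⁆ = ⁅x, y ^ n⁆ * (y ^ n * ⁅x, y⁆ * (y ^ n)⁻¹) := by
      simp only [commutatorElement_def]
      group
    have h2 : y ^ n * ⁅x, y⁆ * (y ^ n)⁻¹ = ⁅x, y⁆ := by
      rw [← (hy.pow_right n).eq, mul_inv_cancel_right]
    rw [pow_succ, h1, h2, ih, pow_succ]

/-- the power of a product in a group of class two -/
lemma ham_mul_pow {G : Type*} [Group G] (u v : G) (hu : Commute ⁅v, u⁆ u) (hv : Commute ⁅v, u⁆ v)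
    (k : ℕ) : (u * v) ^ k = u ^ k * v ^ k * ⁅v, u⁆ ^ (k.choose 2) := by
  induction k with
  | zero => simp
  | succ k ih =>
    have e1 : ⁅v, u⁆ ^ (k.choose 2) * (u * v) = (u * v) * ⁅v, u⁆ ^ (k.choose 2) :=
      ((hu.mul_right hv).pow_left _).eq
    have e2 : v ^ k * u = ⁅v, u⁆ ^ k * u * v ^ k := by
      have := ham_comm_pow_left v u hv k
      rw [← this, commutatorElement_def]
      group
    have e3 : Commute (⁅v, u⁆ ^ k) (u ^ (k + 1) * v ^ (k + 1)) :=
      ((hu.pow_right _).mul_right (hv.pow_right _)).pow_left _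
    have e4 : (k + 1).choose 2 = k + k.choose 2 := by
      rw [Nat.choose_succ_succ' k 1, Nat.choose_one_right]
    calc (u * v) ^ (k + 1) = (u * v) ^ k * (u * v) := pow_succ _ _
      _ = u ^ k * v ^ k * (⁅v, u⁆ ^ (k.choose 2) * (u * v)) := by rw [ih, mul_assoc]
      _ = u ^ k * (v ^ k * u) * v * ⁅v, u⁆ ^ (k.choose 2) := by rw [e1]; group
      _ = u ^ k * (⁅v, u⁆ ^ k * u * v ^ k) * v * ⁅v, u⁆ ^ (k.choose 2) := by rw [e2]
      _ = u ^ k * ⁅v, u⁆ ^ k * (u * (v ^ k * v)) * ⁅v, u⁆ ^ (k.choose 2) := by group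
      _ = ⁅v, u⁆ ^ k * u ^ k * (u * (v ^ k * v)) * ⁅v, u⁆ ^ (k.choose 2) := by
          rw [((hu.pow_pow k k).symm).eq]
      _ = ⁅v, u⁆ ^ k * (u ^ (k + 1) * v ^ (k + 1)) * ⁅v, u⁆ ^ (k.choose 2) := by
          rw [pow_succ, pow_succ]; group
      _ = u ^ (k + 1) * v ^ (k + 1) * (⁅v, u⁆ ^ k * ⁅v, u⁆ ^ (k.choose 2)) := by
          rw [e3.eq, mul_assoc]
      _ = u ^ (k + 1) * v ^ (k + 1) * ⁅v, u⁆ ^ ((k + 1).choose 2) := by
          rw [← pow_add, e4]

/-- in a cyclic group, an element of order dividing `p` is a power of `g ^ (orderOf g / p)` -/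
lemma ham_cyc {G : Type*} [Group G] (g c : G) (p : ℕ) (hp : p.Prime) (hpg : p ∣ orderOf g)
    (hc : c ∈ Subgroup.zpowers g) (hcp : c ^ p = 1) :
    c ∈ Subgroup.zpowers (g ^ (orderOf g / p)) := by
  obtain ⟨a, rfl⟩ := hc
  have h1 : (orderOf g : ℤ) ∣ a * p := by
    rw [orderOf_dvd_iff_zpow_eq_one, zpow_mul]
    exact_mod_cast hcp
  obtain ⟨M, hM⟩ := hpg
  have hM' : orderOf g / p = M := by
    rw [hM, Nat.mul_div_cancel_left _ hp.pos]
  rw [hM'] at *
  have h2 : (M : ℤ) ∣ a := by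
    rw [hM] at h1
    push_cast at h1
    rw [mul_comm a (p : ℤ)] at h1
    exact (mul_dvd_mul_iff_left (by exact_mod_cast hp.ne_zero)).1 h1
  obtain ⟨b, rfl⟩ := h2
  refine ⟨b, ?_⟩
  show (g ^ M) ^ b = g ^ ((M : ℤ) * b)
  rw [zpow_mul, zpow_natCast]

/-- the quaternion relations give a homomorphism from `Q₈` -/
noncomputable def hamQ8Hom {G : Type*} [Group G] (x y : G) (hx : x ^ 4 = 1) (hy : y ^ 2 = x ^ 2)
    (hc : y * x * y⁻¹ = x⁻¹) : QuaternionGroup 2 →* G :=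
  MonoidHom.mk' (fun g => match g with
    | QuaternionGroup.a i => x ^ i.val
    | QuaternionGroup.xa i => y * x ^ i.val) (by
    have hadd : ∀ i j : ZMod 4, x ^ (i + j).val = x ^ i.val * x ^ j.val := by
      intro i j
      rw [← pow_add, ZMod.val_add, ← pow_eq_pow_mod _ hx]
    have hsub : ∀ i j : ZMod 4, x ^ (j - i).val = x ^ j.val * (x ^ i.val)⁻¹ := by
      intro i j
      have := hadd (j - i) i
      rw [sub_add_cancel] at this
      rw [this, mul_inv_cancel_right]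
    have hxy : ∀ n : ℕ, x ^ n * y = y * (x ^ n)⁻¹ := by
      intro n
      have h1 : y⁻¹ * x * y = x⁻¹ := by
        have : x = y⁻¹ * x⁻¹ * y := by rw [← hc]; group
        calc y⁻¹ * x * y = (y⁻¹ * x⁻¹ * y)⁻¹ := by group
          _ = x⁻¹ := by rw [← this]
      have h2 : y⁻¹ * x ^ n * y = (x ^ n)⁻¹ := by
        have := conj_pow (a := y⁻¹) (b := x) (i := n)
        rw [inv_inv] at this
        rw [← this, h1, inv_pow]
      calc x ^ n * y = y * (y⁻¹ * x ^ n * y) := by group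
        _ = y * (x ^ n)⁻¹ := by rw [h2]
    have h2 : x ^ (2 : ZMod 4).val = y * y := by
      rw [← pow_two, hy]
      rfl
    rintro (i | i) (j | j)
    · show x ^ (i + j).val = x ^ i.val * x ^ j.val
      exact hadd i j
    · show y * x ^ (j - i).val = x ^ i.val * (y * x ^ j.val)
      rw [hsub, ← mul_assoc (x ^ i.val), hxy]
      group
    · show y * x ^ (i + j).val = y * x ^ i.val * x ^ j.val
      rw [hadd, mul_assoc]
    · show x ^ (((2 : ℕ) : ZMod (2 * 2)) + j - i).val = y * x ^ i.val * (y * x ^ j.val)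
      have e : (((2 : ℕ) : ZMod (2 * 2)) + j - i) = ((2 : ZMod 4) + (j - i)) := by
        push_cast
        ring
      rw [e, hadd, hsub, h2, mul_assoc y (x ^ i.val), ← mul_assoc (x ^ i.val), hxy]
      group)

lemma hamQ8Hom_a {G : Type*} [Group G] (x y : G) (hx : x ^ 4 = 1) (hy : y ^ 2 = x ^ 2)
    (hc : y * x * y⁻¹ = x⁻¹) (i : ZMod 4) :
    hamQ8Hom x y hx hy hc (QuaternionGroup.a i) = x ^ i.val := rfl

lemma hamQ8Hom_xa {G : Type*} [Group G] (x y : G) (hx : x ^ 4 = 1) (hy : y ^ 2 = x ^ 2)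
    (hc : y * x * y⁻¹ = x⁻¹) (i : ZMod 4) :
    hamQ8Hom x y hx hy hc (QuaternionGroup.xa i) = y * x ^ i.val := rfl

lemma hamQ8Hom_injective {G : Type*} [Group G] (x y : G) (hx : x ^ 4 = 1) (hy : y ^ 2 = x ^ 2)
    (hc : y * x * y⁻¹ = x⁻¹) (hx2 : x ^ 2 ≠ 1) : Function.Injective (hamQ8Hom x y hx hy hc) := by
  rw [injective_iff_map_eq_one]
  intro g hg
  by_contra hne
  have key : ∀ g : QuaternionGroup 2, g ≠ 1 →
      g ^ 2 = QuaternionGroup.a 2 ∨ g = QuaternionGroup.a 2 := by decide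
  have h2 : hamQ8Hom x y hx hy hc (QuaternionGroup.a 2) = x ^ 2 := rfl
  rcases key g hne with h | h
  · have := congrArg (hamQ8Hom x y hx hy hc) h
    rw [map_pow, hg, one_pow, h2] at this
    exact hx2 this.symm
  · rw [h, h2] at hg
    exact hx2 hg


/-- all cyclic subgroups normal: commutators lie in both cyclic subgroups -/
lemma ham_comm_mem {G : Type*} [Group G] (hn : ∀ H : Subgroup G, H.Normal) (u v : G) :
    ⁅u, v⁆ ∈ Subgroup.zpowers u ∧ ⁅u, v⁆ ∈ Subgroup.zpowers v := by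
  constructor
  · have h1 : v * u⁻¹ * v⁻¹ ∈ Subgroup.zpowers u :=
      (hn (Subgroup.zpowers u)).conj_mem _ (inv_mem (Subgroup.mem_zpowers u)) v
    have : ⁅u, v⁆ = u * (v * u⁻¹ * v⁻¹) := by rw [commutatorElement_def]; group
    rw [this]; exact mul_mem (Subgroup.mem_zpowers u) h1
  · have h1 : u * v * u⁻¹ ∈ Subgroup.zpowers v :=
      (hn (Subgroup.zpowers v)).conj_mem _ (Subgroup.mem_zpowers v) u
    rw [commutatorElement_def]; exact mul_mem h1 (inv_mem (Subgroup.mem_zpowers v))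

lemma ham_commute_of_mem_zpowers {G : Type*} [Group G] {u a b : G}
    (ha : a ∈ Subgroup.zpowers u) (hb : b ∈ Subgroup.zpowers u) : Commute a b := by
  obtain ⟨i, rfl⟩ := ha
  obtain ⟨j, rfl⟩ := hb
  exact Commute.zpow_zpow (Commute.refl u) i j

/-- elements of a cyclic group of order dividing 2 -/
lemma ham_two {G : Type*} [Group G] (h z : G) (h2 : h ^ 2 = 1) (hz : z ∈ Subgroup.zpowers h) :
    z = 1 ∨ z = h := by
  obtain ⟨j, rfl⟩ := Subgroup.mem_zpowers_iff.1 hz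
  have h2' : h ^ (2 : ℤ) = 1 := by exact_mod_cast h2
  rw [zpow_eq_zpow_emod j h2']
  have h1 : 0 ≤ j % 2 := Int.emod_nonneg _ (by norm_num)
  have h3 : j % 2 < 2 := Int.emod_lt_of_pos _ (by norm_num)
  obtain ⟨r, hr⟩ : ∃ r, r = j % 2 := ⟨_, rfl⟩
  rw [← hr] at h1 h3 ⊢
  interval_cases r
  · left; simp
  · right; simp

/-- elements of a cyclic group of order dividing 4 -/
lemma ham_four {G : Type*} [Group G] (h z : G) (h4 : h ^ 4 = 1) (hz : z ∈ Subgroup.zpowers h) :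
    z = 1 ∨ z = h ∨ z = h ^ 2 ∨ z = h ^ 3 := by
  obtain ⟨j, rfl⟩ := Subgroup.mem_zpowers_iff.1 hz
  have h4' : h ^ (4 : ℤ) = 1 := by exact_mod_cast h4
  rw [zpow_eq_zpow_emod j h4']
  have h1 : 0 ≤ j % 4 := Int.emod_nonneg _ (by norm_num)
  have h3 : j % 4 < 4 := Int.emod_lt_of_pos _ (by norm_num)
  obtain ⟨r, hr⟩ : ∃ r, r = j % 4 := ⟨_, rfl⟩
  rw [← hr] at h1 h3 ⊢
  interval_cases r
  · left; simp
  · right; left; simp
  · right; right; left; exact zpow_natCast h 2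
  · right; right; right; exact zpow_natCast h 3

lemma ham_conj4 {G : Type*} [Group G] (hn : ∀ H : Subgroup G, H.Normal) (x : G) (hx4 : x ^ 4 = 1)
    (hx2 : x ^ 2 ≠ 1) (g : G) : g * x * g⁻¹ = x ∨ g * x * g⁻¹ = x⁻¹ := by
  have hmem : g * x * g⁻¹ ∈ Subgroup.zpowers x := (hn _).conj_mem _ (Subgroup.mem_zpowers x) g
  rcases ham_four x _ hx4 hmem with h | h | h | h
  · exfalso; apply hx2
    have : x = 1 := by
      have := congrArg (fun t => g⁻¹ * t * g) h
      simpa [mul_assoc] using this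
    rw [this, one_pow]
  · left; exact h
  · exfalso; apply hx2
    have h1 : g * x ^ 2 * g⁻¹ = 1 := by
      rw [← conj_pow, h, ← pow_mul]; exact hx4
    have := congrArg (fun t => g⁻¹ * t * g) h1
    simpa [mul_assoc] using this
  · right; rw [h, eq_inv_iff_mul_eq_one, ← pow_succ]; exact hx4

lemma ham_zpow_neg_pow {G : Type*} [Group G] (z : G) (k : ℤ) (N : ℕ) :
    (z ^ (-k)) ^ N = ((z ^ N) ^ k)⁻¹ := by
  rw [← zpow_natCast, ← zpow_mul, ← zpow_natCast z N, ← zpow_mul, ← zpow_neg]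
  congr 1; ring

/-- A minimal non-commuting pair in a group with all subgroups normal generates `Q₈`. -/
lemma ham_pair_aux {G : Type*} [Group G] [Finite G] (hn : ∀ H : Subgroup G, H.Normal) (x y : G)
    (hxy : ¬ Commute x y)
    (hmin : ∀ x' y' : G, ¬ Commute x' y' → orderOf x + orderOf y ≤ orderOf x' + orderOf y')
    (hle : orderOf y ≤ orderOf x) :
    x ^ 4 = 1 ∧ x ^ 2 ≠ 1 ∧ y ^ 2 = x ^ 2 ∧ y * x * y⁻¹ = x⁻¹ := by
  have hcx := (ham_comm_mem hn x y).1
  have hcy := (ham_comm_mem hn x y).2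
  have hcomx : Commute ⁅x, y⁆ x := ham_commute_of_mem_zpowers hcx (Subgroup.mem_zpowers x)
  have hcomy : Commute ⁅x, y⁆ y := ham_commute_of_mem_zpowers hcy (Subgroup.mem_zpowers y)
  have hc1 : ⁅x, y⁆ ≠ 1 := by rwa [Ne, commutatorElement_eq_one_iff_commute]
  have hXpos : 0 < orderOf x := orderOf_pos x
  have hYpos : 0 < orderOf y := orderOf_pos y
  have hdx : ∀ q : ℕ, q.Prime → q ∣ orderOf x → Commute (x ^ q) y := by
    intro q hq hqx
    by_contra hne
    have h1 := hmin (x ^ q) y hne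
    have h2 : orderOf (x ^ q) = orderOf x / q := orderOf_pow_of_dvd hq.ne_zero hqx
    have h3 : orderOf x / q < orderOf x := Nat.div_lt_self hXpos hq.one_lt
    omega
  have hdy : ∀ q : ℕ, q.Prime → q ∣ orderOf y → Commute x (y ^ q) := by
    intro q hq hqy
    by_contra hne
    have h1 := hmin x (y ^ q) hne
    have h2 : orderOf (y ^ q) = orderOf y / q := orderOf_pow_of_dvd hq.ne_zero hqy
    have h3 : orderOf y / q < orderOf y := Nat.div_lt_self hYpos hq.one_lt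
    omega
  have hcqx : ∀ q : ℕ, q.Prime → q ∣ orderOf x → ⁅x, y⁆ ^ q = 1 := by
    intro q hq hqx
    rw [← ham_comm_pow_left x y hcomx q, commutatorElement_eq_one_iff_commute]
    exact hdx q hq hqx
  have hcqy : ∀ q : ℕ, q.Prime → q ∣ orderOf y → ⁅x, y⁆ ^ q = 1 := by
    intro q hq hqy
    rw [← ham_comm_pow_right x y hcomy q, commutatorElement_eq_one_iff_commute]
    exact hdy q hq hqy
  have hoq : ∀ q : ℕ, q.Prime → ⁅x, y⁆ ^ q = 1 → orderOf ⁅x, y⁆ = q := by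
    intro q hq h
    have := orderOf_dvd_of_pow_eq_one h
    rcases (Nat.dvd_prime hq).1 this with h1 | h1
    · exact absurd (orderOf_eq_one_iff.1 h1) hc1
    · exact h1
  have hx1 : orderOf x ≠ 1 := by
    intro h
    rw [orderOf_eq_one_iff] at h
    apply hxy; rw [h]; exact Commute.one_left y
  have hy1 : orderOf y ≠ 1 := by
    intro h
    rw [orderOf_eq_one_iff] at h
    apply hxy; rw [h]; exact Commute.one_right x
  obtain ⟨p, hp, hpx⟩ := Nat.exists_prime_and_dvd hx1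
  have hop : orderOf ⁅x, y⁆ = p := hoq p hp (hcqx p hp hpx)
  have hpx' : ∀ q : ℕ, q.Prime → q ∣ orderOf x → q = p := fun q hq hqx => by
    rw [← hoq q hq (hcqx q hq hqx)]; exact hop
  have hpy' : ∀ q : ℕ, q.Prime → q ∣ orderOf y → q = p := fun q hq hqy => by
    rw [← hoq q hq (hcqy q hq hqy)]; exact hop
  obtain ⟨a, ha⟩ : ∃ a, orderOf x = p ^ a :=
    ⟨_, Nat.eq_prime_pow_of_unique_prime_dvd hXpos.ne' (fun {q} hq hqx => hpx' q hq hqx)⟩
  obtain ⟨b, hb⟩ : ∃ b, orderOf y = p ^ b :=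
    ⟨_, Nat.eq_prime_pow_of_unique_prime_dvd hYpos.ne' (fun {q} hq hqy => hpy' q hq hqy)⟩
  have hb0 : b ≠ 0 := by
    rintro rfl
    rw [pow_zero] at hb
    exact hy1 hb
  have hba : b ≤ a := by
    rw [ha, hb] at hle
    exact (Nat.pow_le_pow_iff_right hp.one_lt).1 hle
  obtain ⟨m, rfl⟩ : ∃ m, b = m + 1 := Nat.exists_eq_succ_of_ne_zero hb0
  have hpy : p ∣ orderOf y := by rw [hb, pow_succ]; exact dvd_mul_left _ _
  have hYN : orderOf y / p = p ^ m := by rw [hb, pow_succ, Nat.mul_div_cancel _ hp.pos]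
  have hcp : ⁅x, y⁆ ^ p = 1 := by rw [← hop]; exact pow_orderOf_eq_one _
  have h1 : ⁅x, y⁆ ∈ Subgroup.zpowers (y ^ (p ^ m)) := by
    have := ham_cyc y ⁅x, y⁆ p hp hpy hcy hcp
    rwa [hYN] at this
  have hoyN : orderOf (y ^ (p ^ m)) = p := by
    rw [orderOf_pow_of_dvd (pow_ne_zero _ hp.ne_zero) ⟨p, by rw [hb, pow_succ]⟩, hb, pow_succ,
      Nat.mul_div_cancel_left _ (pow_pos hp.pos m)]
  have h2 : Subgroup.zpowers ⁅x, y⁆ = Subgroup.zpowers (y ^ (p ^ m)) := by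
    apply Subgroup.eq_of_le_of_card_ge
    · rw [Subgroup.zpowers_le]; exact h1
    · rw [Nat.card_zpowers, Nat.card_zpowers, hop, hoyN]
  have h3 : y ^ (p ^ m) ∈ Subgroup.zpowers x := by
    have : y ^ (p ^ m) ∈ Subgroup.zpowers ⁅x, y⁆ := by rw [h2]; exact Subgroup.mem_zpowers _
    exact (Subgroup.zpowers_le.2 hcx) this
  have h4 : (y ^ (p ^ m)) ^ p = 1 := by
    have := pow_orderOf_eq_one (y ^ (p ^ m))
    rwa [hoyN] at this
  have h5 := ham_cyc x (y ^ (p ^ m)) p hp hpx h3 h4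
  have hXN : orderOf x / p = p ^ (a - (m + 1)) * p ^ m := by
    rw [ha, ← pow_add]
    apply Nat.div_eq_of_eq_mul_left hp.pos
    rw [← pow_succ]; congr 1; omega
  rw [hXN] at h5
  obtain ⟨k, hk⟩ := h5
  have hk' : (x ^ (p ^ (a - (m + 1)) * p ^ m)) ^ k = y ^ (p ^ m) := hk
  obtain ⟨w, hw⟩ : ∃ w, w = (x ^ (p ^ (a - (m + 1)))) ^ (-k) := ⟨_, rfl⟩
  have hwN : w ^ (p ^ m) = (y ^ (p ^ m))⁻¹ := by
    rw [hw, ← hk', pow_mul, ham_zpow_neg_pow]
  have hwx : w ∈ Subgroup.zpowers x := by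
    rw [hw]; exact zpow_mem (pow_mem (Subgroup.mem_zpowers x) _) _
  have hwcx : Commute w x := ham_commute_of_mem_zpowers hwx (Subgroup.mem_zpowers x)
  have hgx : ¬ Commute x (w * y) := by
    intro h
    apply hxy
    have : Commute x (w⁻¹ * (w * y)) := (hwcx.symm.inv_right).mul_right h
    rwa [inv_mul_cancel_left] at this
  have hgord : orderOf y ≤ orderOf (w * y) := by
    have := hmin x (w * y) hgx
    omega
  have hcontra : (w * y) ^ (p ^ m) ≠ 1 := by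
    intro h
    have h1 := orderOf_le_of_pow_eq_one (pow_pos hp.pos m) h
    have : p ^ m < orderOf y := by
      rw [hb, pow_succ]; exact lt_mul_of_one_lt_right (pow_pos hp.pos m) hp.one_lt
    omega
  have hyw := ham_comm_mem hn y w
  have hcw : Commute ⁅y, w⁆ w := ham_commute_of_mem_zpowers hyw.2 (Subgroup.mem_zpowers w)
  have hcy' : Commute ⁅y, w⁆ y := ham_commute_of_mem_zpowers hyw.1 (Subgroup.mem_zpowers y)
  have hpow := ham_mul_pow w y hcw hcy' (p ^ m)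
  rw [hwN, inv_mul_cancel, one_mul] at hpow
  have hywp : ⁅y, w⁆ ^ p = 1 := by
    rw [← ham_comm_pow_left y w hcy' p, commutatorElement_eq_one_iff_commute, hw]
    have h := (hdy p hp hpy).symm
    exact (h.pow_right _).zpow_right _
  have hnd : ¬ p ∣ (p ^ m).choose 2 := by
    rintro ⟨t, ht⟩
    apply hcontra
    rw [hpow, ht, pow_mul, hywp, one_pow]
  have hN2 : p ^ m = 2 := by
    by_contra h
    exact hnd (hp.dvd_choose_pow (by norm_num) (Ne.symm h))
  have hm0 : m ≠ 0 := by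
    rintro rfl
    simp at hN2
  have hp2 : p = 2 := by
    have : p ∣ 2 := by rw [← hN2]; exact dvd_pow_self p hm0
    exact (Nat.prime_dvd_prime_iff_eq hp Nat.prime_two).1 this
  subst hp2
  have hm1 : m = 1 := Nat.pow_right_injective (le_refl 2) (by simpa using hN2)
  subst hm1
  have ha2 : a = 2 := by
    by_contra hne
    have hlt : 2 < a := by omega
    have hcom : Commute (x ^ (2 ^ (a - (1 + 1)))) y := by
      have : 2 ^ (a - (1 + 1)) = 2 * 2 ^ (a - (1 + 1) - 1) := by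
        rw [← pow_succ']; congr 1; omega
      rw [this, pow_mul]
      exact (hdx 2 hp hpx).pow_left _
    have hwy : Commute w y := by rw [hw]; exact hcom.zpow_left _
    have : ⁅y, w⁆ = 1 := by rw [commutatorElement_eq_one_iff_commute]; exact hwy.symm
    apply hcontra; rw [hpow, this, one_pow]
  have hox : orderOf x = 4 := by rw [ha, ha2]; norm_num
  have hoy : orderOf y = 4 := by rw [hb]; norm_num
  have hx4 : x ^ 4 = 1 := by rw [← hox]; exact pow_orderOf_eq_one x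
  have hy4 : y ^ 4 = 1 := by rw [← hoy]; exact pow_orderOf_eq_one y
  have hcx2 : ⁅x, y⁆ = x ^ 2 := by
    have := ham_cyc x ⁅x, y⁆ 2 hp (by rw [hox]; norm_num) hcx hcp
    rw [hox] at this
    rcases ham_two (x ^ (4 / 2)) _ (by rw [← pow_mul]; exact hx4) this with h | h
    · exact absurd h hc1
    · exact h
  have hcy2 : ⁅x, y⁆ = y ^ 2 := by
    have := ham_cyc y ⁅x, y⁆ 2 hp (by rw [hoy]; norm_num) hcy hcp
    rw [hoy] at this
    rcases ham_two (y ^ (4 / 2)) _ (by rw [← pow_mul]; exact hy4) this with h | h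
    · exact absurd h hc1
    · exact h
  refine ⟨hx4, ?_, ?_, ?_⟩
  · rw [← hcx2]; exact hc1
  · rw [← hcx2, ← hcy2]
  · have h6 : x * y * x⁻¹ * y⁻¹ = x ^ 2 := by rw [← commutatorElement_def]; exact hcx2
    have h7 : y * x⁻¹ * y⁻¹ = x := by
      calc y * x⁻¹ * y⁻¹ = x⁻¹ * (x * y * x⁻¹ * y⁻¹) := by group
        _ = x := by rw [h6]; group
    calc y * x * y⁻¹ = (y * x⁻¹ * y⁻¹)⁻¹ := by group
      _ = x⁻¹ := by rw [h7]

lemma ham_pair {G : Type*} [Group G] [Finite G] (hn : ∀ H : Subgroup G, H.Normal)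
    (hna : ∃ x y : G, ¬ Commute x y) :
    ∃ x y : G, x ^ 4 = 1 ∧ x ^ 2 ≠ 1 ∧ y ^ 2 = x ^ 2 ∧ y * x * y⁻¹ = x⁻¹ := by
  classical
  have hex : ∃ n : ℕ, ∃ x y : G, ¬ Commute x y ∧ orderOf x + orderOf y = n := by
    obtain ⟨x, y, h⟩ := hna
    exact ⟨_, x, y, h, rfl⟩
  obtain ⟨x, y, hxy, hsum⟩ := Nat.find_spec hex
  have hmin : ∀ x' y' : G, ¬ Commute x' y' →
      orderOf x + orderOf y ≤ orderOf x' + orderOf y' := by
    intro x' y' h
    rw [hsum]
    exact Nat.find_min' hex ⟨x', y', h, rfl⟩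
  rcases le_total (orderOf y) (orderOf x) with hle | hle
  · exact ⟨x, y, ham_pair_aux hn x y hxy hmin hle⟩
  · refine ⟨y, x, ham_pair_aux hn y x (fun h => hxy h.symm) ?_ hle⟩
    intro x' y' h
    rw [add_comm]; exact hmin x' y' h


/-- the `n`-torsion of a subgroup with commuting elements -/
def hamTor {G : Type*} [Group G] (C : Subgroup G) (hC : ∀ u ∈ C, ∀ v ∈ C, Commute u v) (n : ℕ) :
    Subgroup G where
  carrier := {g | g ∈ C ∧ g ^ n = 1}
  one_mem' := ⟨one_mem C, one_pow n⟩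
  mul_mem' := by
    rintro a b ⟨ha, ha2⟩ ⟨hb, hb2⟩
    exact ⟨mul_mem ha hb, by rw [(hC a ha b hb).mul_pow, ha2, hb2, one_mul]⟩
  inv_mem' := by
    rintro a ⟨ha, ha2⟩
    exact ⟨inv_mem ha, by rw [inv_pow, ha2, inv_one]⟩

lemma mem_hamTor {G : Type*} [Group G] (C : Subgroup G) (hC : ∀ u ∈ C, ∀ v ∈ C, Commute u v)
    (n : ℕ) (g : G) : g ∈ hamTor C hC n ↔ g ∈ C ∧ g ^ n = 1 := Iff.rfl

lemma ham_q8_center : ∀ q : QuaternionGroup 2, q * QuaternionGroup.a 1 = QuaternionGroup.a 1 * q →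
    q * QuaternionGroup.xa 0 = QuaternionGroup.xa 0 * q → q = 1 ∨ q = QuaternionGroup.a 2 := by
  decide

/-- **Dedekind–Baer**: the structure of finite Hamiltonian groups. -/
theorem ham_main {G : Type*} [Group G] [Finite G] (hna : ¬ IsMulCommutative G)
    (hn : ∀ H : Subgroup G, H.Normal) :
    ∃ Q E A : Subgroup G, Nonempty (Q ≃* QuaternionGroup 2) ∧
      ((IsMulCommutative E) ∧ ∀ a ∈ E, a ^ 2 = 1) ∧ IsMulCommutative A ∧ Odd (Nat.card A) ∧
      E ⊓ A = ⊥ ∧ Q ⊓ (E ⊔ A) = ⊥ ∧ Q ⊔ (E ⊔ A) = ⊤ := by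
  classical
  have hex : ∃ x y : G, ¬ Commute x y := by
    by_contra h
    push Not at h
    exact hna ⟨⟨fun a b => (h a b).eq⟩⟩
  obtain ⟨x, y, hx4, hx2, hy2, hyx⟩ := ham_pair hn hex
  have hy4 : y ^ 4 = 1 := by
    have : y ^ 4 = (y ^ 2) ^ 2 := by rw [← pow_mul]
    rw [this, hy2, ← pow_mul]; exact hx4
  have hyne : y ^ 2 ≠ 1 := by rw [hy2]; exact hx2
  have hxy_nc : ¬ Commute y x := by
    intro h
    apply hx2
    have h1 : x = x⁻¹ := by
      calc x = y * x * y⁻¹ := by rw [h.eq, mul_inv_cancel_right]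
        _ = x⁻¹ := hyx
    have h2 : x * x = 1 := by
      calc x * x = x * x⁻¹ := by rw [← h1]
        _ = 1 := mul_inv_cancel x
    rw [pow_two]; exact h2
  have hF1 : y⁻¹ * x⁻¹ * y = x := by
    rw [← hyx]; group
  have hxyx : x * y * x⁻¹ = y⁻¹ := by
    have h1 : y * x⁻¹ * y⁻¹ = x := by
      calc y * x⁻¹ * y⁻¹ = (y * x * y⁻¹)⁻¹ := by group
        _ = x := by rw [hyx, inv_inv]
    have h2 : x * y = y * x⁻¹ := by
      calc x * y = (y * x⁻¹ * y⁻¹) * y := by rw [h1]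
        _ = y * x⁻¹ := by group
    calc x * y * x⁻¹ = y * x⁻¹ * x⁻¹ := by rw [h2]
      _ = y * (x ^ 2)⁻¹ := by group
      _ = y * (y ^ 2)⁻¹ := by rw [hy2]
      _ = y⁻¹ := by group
  have hF2 : x⁻¹ * y⁻¹ * x = y := by
    rw [← hxyx]; group
  obtain ⟨C, hCdef⟩ : ∃ C : Subgroup G, C = Subgroup.centralizer ({x, y} : Set G) := ⟨_, rfl⟩
  have hCx : ∀ g ∈ C, Commute g x := fun g hg => by
    rw [hCdef] at hg
    exact (Subgroup.mem_centralizer_iff.1 hg x (by simp)).symm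
  have hCy : ∀ g ∈ C, Commute g y := fun g hg => by
    rw [hCdef] at hg
    exact (Subgroup.mem_centralizer_iff.1 hg y (by simp)).symm
  have hCmem : ∀ g, Commute g x → Commute g y → g ∈ C := by
    intro g h1 h2
    rw [hCdef, Subgroup.mem_centralizer_iff]
    intro h hh
    rcases hh with rfl | rfl
    · exact h1.eq.symm
    · exact h2.eq.symm
  have hCmem' : ∀ c, c * x * c⁻¹ = x → c * y * c⁻¹ = y → c ∈ C := by
    intro c h1 h2
    exact hCmem c (mul_inv_eq_iff_eq_mul.1 h1) (mul_inv_eq_iff_eq_mul.1 h2)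
  -- no elements of order four in `C`
  have hC4 : ∀ g ∈ C, g ^ 4 = 1 → g ^ 2 = 1 := by
    intro g hg hg4
    by_contra hg2
    have hgx := hCx g hg
    have hgy := hCy g hg
    have hh_nc : ¬ Commute (g * y) x := by
      intro h
      apply hxy_nc
      have : Commute (g⁻¹ * (g * y)) x := (hgx.inv_left).mul_left h
      rwa [inv_mul_cancel_left] at this
    have hcomm : ⁅x, g * y⁆ = x ^ 2 := by
      have h1 : y * x⁻¹ * y⁻¹ = x := by
        calc y * x⁻¹ * y⁻¹ = (y * x * y⁻¹)⁻¹ := by group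
          _ = x := by rw [hyx, inv_inv]
      rw [commutatorElement_def]
      calc x * (g * y) * x⁻¹ * (g * y)⁻¹ = (x * g) * (y * x⁻¹ * y⁻¹) * g⁻¹ := by group
        _ = (g * x) * x * g⁻¹ := by rw [h1, hgx.eq]
        _ = g * x ^ 2 * g⁻¹ := by rw [pow_two, ← mul_assoc]
        _ = x ^ 2 := by rw [(hgx.pow_right 2).eq, mul_inv_cancel_right]
    have hmem : x ^ 2 ∈ Subgroup.zpowers (g * y) := by
      rw [← hcomm]; exact (ham_comm_mem hn x (g * y)).2
    have hh2 : (g * y) ^ 2 = g ^ 2 * x ^ 2 := by rw [hgy.mul_pow, hy2]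
    have hh4 : (g * y) ^ 4 = 1 := by rw [hgy.mul_pow, hg4, hy4, one_mul]
    rcases ham_four (g * y) (x ^ 2) hh4 hmem with h | h | h | h
    · exact hx2 h
    · apply hh_nc; rw [← h]; exact (Commute.refl x).pow_left 2
    · rw [hh2] at h
      apply hg2
      exact mul_eq_right.1 h.symm
    · apply hh_nc
      have h9 : g * y = ((g * y) ^ 3) ^ 3 := by
        rw [← pow_mul, show 3 * 3 = 4 * 2 + 1 from rfl, pow_succ, pow_mul, hh4, one_pow, one_mul]
      rw [h9, ← h]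
      exact ((Commute.refl x).pow_left 2).pow_left 3
  -- `C` is abelian
  have hCcomm : ∀ u ∈ C, ∀ v ∈ C, Commute u v := by
    by_contra hne
    push Not at hne
    obtain ⟨u, hu, v, hv, huv⟩ := hne
    have hnC : ∀ H : Subgroup C, H.Normal := by
      intro H
      have h1 : (H.map C.subtype).Normal := hn _
      have h2 : H = (H.map C.subtype).comap C.subtype :=
        (Subgroup.comap_map_eq_self_of_injective C.subtype_injective H).symm
      rw [h2]; exact h1.comap _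
    obtain ⟨x', y', hx'4, hx'2, -, -⟩ := ham_pair hnC ⟨⟨u, hu⟩, ⟨v, hv⟩, fun h => huv (by
      have := congrArg Subtype.val h.eq
      exact this)⟩
    apply hx'2
    have := hC4 x'.1 x'.2 (by have := congrArg Subtype.val hx'4; simpa using this)
    exact Subtype.ext (by simpa using this)
  obtain ⟨k, m, hm, hkm⟩ := Nat.exists_eq_two_pow_mul_odd (Nat.card_pos (α := G)).ne'
  have hC2m : ∀ g ∈ C, (g ^ m) ^ 2 = 1 := by
    intro g hg
    have hu : (g ^ m) ^ (2 ^ k) = 1 := by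
      rw [← pow_mul, mul_comm, ← hkm]; exact pow_card_eq_one'
    have key : ∀ j : ℕ, ∀ u ∈ C, u ^ (2 ^ j) = 1 → u ^ 2 = 1 := by
      intro j
      induction j with
      | zero => intro u _ h; rw [pow_zero, pow_one] at h; rw [h, one_pow]
      | succ j ih =>
        intro u hu h
        have h1 : (u ^ 2) ^ 2 = 1 :=
          ih (u ^ 2) (pow_mem hu 2) (by rw [← pow_mul, ← pow_succ']; exact h)
        exact hC4 u hu (by rw [show 4 = 2 * 2 from rfl, pow_mul]; exact h1)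
    exact key k (g ^ m) (pow_mem hg m) hu
  obtain ⟨E0, hE0def⟩ : ∃ E0 : Subgroup G, E0 = hamTor C hCcomm 2 := ⟨_, rfl⟩
  obtain ⟨O, hOdef⟩ : ∃ O : Subgroup G, O = hamTor C hCcomm m := ⟨_, rfl⟩
  have hE0 : ∀ g, g ∈ E0 ↔ g ∈ C ∧ g ^ 2 = 1 := fun g => by rw [hE0def]; exact Iff.rfl
  have hO : ∀ g, g ∈ O ↔ g ∈ C ∧ g ^ m = 1 := fun g => by rw [hOdef]; exact Iff.rfl
  obtain ⟨t, ht⟩ := hm
  have hE0O : ∀ g : G, g ^ 2 = 1 → g ^ m = 1 → g = 1 := by
    intro g h2 hgm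
    rw [ht, pow_succ, pow_mul, h2, one_pow, one_mul] at hgm
    exact hgm
  have hdecomp : ∀ g ∈ C, ∃ e ∈ E0, ∃ o ∈ O, g = e * o := by
    intro g hg
    refine ⟨g ^ m, (hE0 _).2 ⟨pow_mem hg m, hC2m g hg⟩, (g ^ (2 * t))⁻¹,
      (hO _).2 ⟨inv_mem (pow_mem hg _), ?_⟩, ?_⟩
    · rw [inv_pow, ← pow_mul, show 2 * t * m = m * 2 * t by ring, pow_mul, pow_mul, hC2m g hg,
        one_pow, inv_one]
    · rw [ht, pow_succ]; group
  have hOodd : Odd (Nat.card O) := by
    rw [← Nat.not_even_iff_odd]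
    intro hev
    obtain ⟨g, hg⟩ := exists_prime_orderOf_dvd_card' (G := O) 2 hev.two_dvd
    have h1 : (g : G) ^ m = 1 := ((hO _).1 g.2).2
    have h2 : g ^ m = 1 := Subtype.ext (by simpa using h1)
    have := orderOf_dvd_of_pow_eq_one h2
    rw [hg, ht] at this
    omega
  have hx2C : x ^ 2 ∈ C := hCmem _ ((Commute.refl x).pow_left 2)
    (by rw [← hy2]; exact (Commute.refl y).pow_left 2)
  have hx2E0 : x ^ 2 ∈ E0 := (hE0 _).2 ⟨hx2C, by rw [← pow_mul]; exact hx4⟩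
  obtain ⟨E, -, hEmax⟩ := Finite.exists_le_maximal
    (p := fun E : Subgroup G => E ≤ E0 ∧ x ^ 2 ∉ E) (a := ⊥)
    ⟨bot_le, by rw [Subgroup.mem_bot]; exact hx2⟩
  have hEle : E ≤ E0 := hEmax.prop.1
  have hxE : x ^ 2 ∉ E := hEmax.prop.2
  have hEalt : ∀ e ∈ E0, e ∈ E ∨ x ^ 2 * e ∈ E := by
    intro e he
    by_contra hcon
    push Not at hcon
    obtain ⟨h1, h2⟩ := hcon
    have he2 : e ^ 2 = 1 := ((hE0 e).1 he).2
    have hlt : E ⊔ Subgroup.zpowers e ≤ E := by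
      refine hEmax.le_of_ge ⟨sup_le hEle (by rw [Subgroup.zpowers_le]; exact he), ?_⟩ le_sup_left
      intro hmem
      have := hn (Subgroup.zpowers e)
      rw [← SetLike.mem_coe, Subgroup.mul_normal] at hmem
      obtain ⟨a, ha, b, hb, hab⟩ := Set.mem_mul.1 hmem
      rcases ham_two e b he2 hb with rfl | rfl
      · rw [mul_one] at hab; rw [← hab] at hxE; exact hxE ha
      · apply h2; rw [← hab, mul_assoc, ← pow_two, he2, mul_one]; exact ha
    exact h1 (hlt ((le_sup_right : Subgroup.zpowers e ≤ E ⊔ Subgroup.zpowers e)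
      (Subgroup.mem_zpowers e)))
  have hinj := hamQ8Hom_injective x y hx4 hy2 hyx hx2
  obtain ⟨φ, hφ⟩ : ∃ φ, φ = hamQ8Hom x y hx4 hy2 hyx := ⟨_, rfl⟩
  rw [← hφ] at hinj
  have hφx : φ (QuaternionGroup.a 1) = x := by
    rw [hφ, hamQ8Hom_a]; exact pow_one x
  have hφy : φ (QuaternionGroup.xa 0) = y := by
    rw [hφ, hamQ8Hom_xa]
    show y * x ^ 0 = y
    rw [pow_zero, mul_one]
  have hφ2 : φ (QuaternionGroup.a 2) = x ^ 2 := by
    rw [hφ, hamQ8Hom_a]; rfl
  have hEC : ∀ g ∈ E, g ∈ C := fun g hg => ((hE0 g).1 (hEle hg)).1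
  have hOC : ∀ g ∈ O, g ∈ C := fun g hg => ((hO g).1 hg).1
  have hEA_C : E ⊔ O ≤ C := sup_le hEC hOC
  refine ⟨φ.range, E, O, ⟨(MonoidHom.ofInjective hinj).symm⟩,
    ⟨?_, fun a ha => ((hE0 a).1 (hEle ha)).2⟩, ?_, hOodd, ?_, ?_, ?_⟩
  · exact ⟨⟨fun a b => Subtype.ext (hCcomm a.1 (hEC _ a.2) b.1 (hEC _ b.2)).eq⟩⟩
  · exact ⟨⟨fun a b => Subtype.ext (hCcomm a.1 (hOC _ a.2) b.1 (hOC _ b.2)).eq⟩⟩
  · rw [eq_bot_iff]
    rintro g ⟨hgE, hgO⟩
    rw [Subgroup.mem_bot]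
    exact hE0O g ((hE0 g).1 (hEle hgE)).2 ((hO g).1 hgO).2
  · rw [eq_bot_iff]
    rintro g ⟨hgQ, hgEO⟩
    rw [Subgroup.mem_bot]
    obtain ⟨q, rfl⟩ := hgQ
    have hgC := hEA_C hgEO
    have hq : q = 1 ∨ q = QuaternionGroup.a 2 := by
      apply ham_q8_center
      · have h := hCx _ hgC
        rw [← hφx] at h
        exact hinj (by rw [map_mul, map_mul]; exact h.eq)
      · have h := hCy _ hgC
        rw [← hφy] at h
        exact hinj (by rw [map_mul, map_mul]; exact h.eq)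
    rcases hq with rfl | rfl
    · exact map_one φ
    · exfalso
      have hgEO' : x ^ 2 ∈ E ⊔ O := by rw [← hφ2]; exact hgEO
      have := hn O
      rw [← SetLike.mem_coe, Subgroup.mul_normal] at hgEO'
      obtain ⟨e, he, o, ho, heo⟩ := Set.mem_mul.1 hgEO'
      have ho1 : o = 1 := by
        have h8 : o = e⁻¹ * x ^ 2 := by rw [← heo, inv_mul_cancel_left]
        have hmem : o ∈ E0 := by rw [h8]; exact mul_mem (inv_mem (hEle he)) hx2E0
        exact hE0O o ((hE0 o).1 hmem).2 ((hO o).1 ho).2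
      rw [ho1, mul_one] at heo
      rw [← heo] at hxE; exact hxE he
  · rw [eq_top_iff]
    intro g _
    have hxQ : x ∈ φ.range := ⟨_, hφx⟩
    have hyQ : y ∈ φ.range := ⟨_, hφy⟩
    have hCsub : C ≤ φ.range ⊔ (E ⊔ O) := by
      intro c hc
      obtain ⟨e, he, o, ho, rfl⟩ := hdecomp c hc
      rcases hEalt e he with h | h
      · exact (le_sup_right : E ⊔ O ≤ φ.range ⊔ (E ⊔ O))
          (mul_mem ((le_sup_left : E ≤ E ⊔ O) h) ((le_sup_right : O ≤ E ⊔ O) ho))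
      · have h8 : e * o = x ^ 2 * ((x ^ 2 * e) * o) := by
          rw [← mul_assoc, ← mul_assoc, ← pow_add, hx4, one_mul]
        rw [h8]
        exact mul_mem ((le_sup_left : φ.range ≤ φ.range ⊔ (E ⊔ O)) (pow_mem hxQ 2))
          ((le_sup_right : E ⊔ O ≤ φ.range ⊔ (E ⊔ O))
            (mul_mem ((le_sup_left : E ≤ E ⊔ O) h) ((le_sup_right : O ≤ E ⊔ O) ho)))
    have hconj : ∀ q c z : G, (q⁻¹ * c) * z * (q⁻¹ * c)⁻¹ = q⁻¹ * (c * z * c⁻¹) * q := by
      intro q c z; group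
    have hgc : ∃ q ∈ φ.range, q⁻¹ * g ∈ C := by
      rcases ham_conj4 hn x hx4 hx2 g with h1 | h1 <;>
        rcases ham_conj4 hn y hy4 hyne g with h2 | h2
      · refine ⟨1, one_mem _, hCmem' _ ?_ ?_⟩
        · rw [hconj, h1]; group
        · rw [hconj, h2]; group
      · refine ⟨x, hxQ, hCmem' _ ?_ ?_⟩
        · rw [hconj, h1]; group
        · rw [hconj, h2]; exact hF2
      · refine ⟨y, hyQ, hCmem' _ ?_ ?_⟩
        · rw [hconj, h1]; exact hF1
        · rw [hconj, h2]; group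
      · refine ⟨x * y, mul_mem hxQ hyQ, hCmem' _ ?_ ?_⟩
        · rw [hconj, h1]
          calc (x * y)⁻¹ * x⁻¹ * (x * y) = y⁻¹ * x⁻¹ * y := by group
            _ = x := hF1
        · rw [hconj, h2]
          calc (x * y)⁻¹ * y⁻¹ * (x * y) = y⁻¹ * (x⁻¹ * y⁻¹ * x) * y := by group
            _ = y := by rw [hF2]; group
    obtain ⟨q, hq, hqc⟩ := hgc
    have h9 : g = q * (q⁻¹ * g) := by rw [mul_inv_cancel_left]
    rw [h9]
    exact mul_mem ((le_sup_left : φ.range ≤ φ.range ⊔ (E ⊔ O)) hq) (hCsub hqc)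

end Cfsg.Agent.Helper29
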