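import Mathlib

set_option autoImplicit false

namespace Cfsg.Agent.Helper29

/-! ### Labellings compatible with an involution -/

section Comb

variable {ι : Type*}

/-- `Sol π a S t`: the points of `S` can be labelled by `t` labels, each label used exactly `a`
times, such that `π` induces an involution of the labels. -/
def Sol (π : ι → ι) (a : ℕ) (S : Finset ι) (t : ℕ) : Prop :=
  ∃ (f : ι → ℕ) (σ : ℕ → ℕ), (∀ j < t, σ j < t) ∧ (∀ j < t, σ (σ j) = j) ∧ (∀ k ∈ S, f k < t) ∧
    (∀ j < t, (S.filter (fun k => f k = j)).card = a) ∧ (∀ k ∈ S, f (π k) = σ (f k))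

theorem sol_zero (π : ι → ι) (a : ℕ) : Sol π a (∅ : Finset ι) 0 :=
  ⟨fun _ => 0, id, fun j hj => absurd hj (Nat.not_lt_zero j), fun j hj => absurd hj (Nat.not_lt_zero j),
    fun k hk => by simp at hk, fun j hj => absurd hj (Nat.not_lt_zero j), fun k hk => by simp at hk⟩

theorem sol_one (π : ι → ι) (a : ℕ) (S : Finset ι) (hS : S.card = a) : Sol π a S 1 := by
  refine ⟨fun _ => 0, id, fun j hj => hj, fun j _ => rfl, fun k _ => Nat.zero_lt_one, ?_, fun k _ => rfl⟩
  intro j hj
  have hj0 : j = 0 := by omega
  subst hj0
  have h : S.filter (fun k => (fun _ : ι => (0 : ℕ)) k = 0) = S :=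
    Finset.filter_true_of_mem (fun k _ => rfl)
  exact (congrArg Finset.card h).trans hS

theorem sol_two [DecidableEq ι] (π : ι → ι) (hπ : ∀ k, π (π k) = k) (a : ℕ) (B : Finset ι)
    (hB : B.card = a) (hd : Disjoint B (B.image π)) : Sol π a (B ∪ B.image π) 2 := by
  have hinj : Function.Injective π := fun x y h => by rw [← hπ x, ← hπ y, h]
  have hn : ∀ k ∈ B.image π, k ∉ B := fun k hk => Finset.disjoint_right.1 hd hk
  refine ⟨fun k => if k ∈ B then 0 else 1, fun j => 1 - j, fun j _ => ?_, fun j hj => ?_,
    fun k _ => ?_, ?_, ?_⟩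
  · show 1 - j < 2
    omega
  · show 1 - (1 - j) = j
    omega
  · show (if k ∈ B then 0 else 1) < 2
    split_ifs <;> omega
  · intro j hj
    have hj' : j = 0 ∨ j = 1 := by omega
    rcases hj' with rfl | rfl
    · have h : (B ∪ B.image π).filter (fun k => (if k ∈ B then 0 else 1) = 0) = B := by
        ext k
        rw [Finset.mem_filter, Finset.mem_union]
        constructor
        · rintro ⟨_, h⟩
          by_contra hk
          rw [if_neg hk] at h
          exact one_ne_zero h
        · intro hk
          exact ⟨Or.inl hk, if_pos hk⟩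
      exact (congrArg Finset.card h).trans hB
    · have h : (B ∪ B.image π).filter (fun k => (if k ∈ B then 0 else 1) = 1) = B.image π := by
        ext k
        rw [Finset.mem_filter, Finset.mem_union]
        constructor
        · rintro ⟨h1 | h1, h⟩
          · rw [if_pos h1] at h
            exact absurd h zero_ne_one
          · exact h1
        · intro hk
          exact ⟨Or.inr hk, if_neg (hn k hk)⟩
      exact (congrArg Finset.card h).trans ((Finset.card_image_of_injective _ hinj).trans hB)
  · intro k hk
    show (if π k ∈ B then 0 else 1) = 1 - (if k ∈ B then 0 else 1)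
    rcases Finset.mem_union.1 hk with h1 | h1
    · have h2 : π k ∉ B := hn _ (Finset.mem_image_of_mem π h1)
      have e1 : (if π k ∈ B then 0 else 1) = 1 := if_neg h2
      have e2 : (if k ∈ B then 0 else 1) = 0 := if_pos h1
      rw [e1, e2]
    · have h2 : k ∉ B := hn k h1
      obtain ⟨k₀, hk₀, rfl⟩ := Finset.mem_image.1 h1
      have e1 : (if π (π k₀) ∈ B then 0 else 1) = 0 := by rw [hπ k₀]; exact if_pos hk₀
      have e2 : (if π k₀ ∈ B then 0 else 1) = 1 := if_neg h2
      rw [e1, e2]

theorem Sol.concat [DecidableEq ι] {π : ι → ι} {a : ℕ} {S₁ S₂ : Finset ι} {t₁ t₂ : ℕ}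
    (h₁ : Sol π a S₁ t₁) (h₂ : Sol π a S₂ t₂) (hd : Disjoint S₁ S₂)
    (hi₁ : ∀ k ∈ S₁, π k ∈ S₁) (hi₂ : ∀ k ∈ S₂, π k ∈ S₂) : Sol π a (S₁ ∪ S₂) (t₁ + t₂) := by
  obtain ⟨f₁, σ₁, a1, a2, a3, a4, a5⟩ := h₁
  obtain ⟨f₂, σ₂, b1, b2, b3, b4, b5⟩ := h₂
  have hn : ∀ k ∈ S₂, k ∉ S₁ := fun k hk => Finset.disjoint_right.1 hd hk
  refine ⟨fun k => if k ∈ S₁ then f₁ k else t₁ + f₂ k,
    fun j => if j < t₁ then σ₁ j else t₁ + σ₂ (j - t₁), ?_, ?_, ?_, ?_, ?_⟩
  · intro j hj
    show (if j < t₁ then σ₁ j else t₁ + σ₂ (j - t₁)) < t₁ + t₂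
    split_ifs with h
    · have := a1 j h
      omega
    · have := b1 (j - t₁) (by omega)
      omega
  · intro j hj
    show (if (if j < t₁ then σ₁ j else t₁ + σ₂ (j - t₁)) < t₁ then
        σ₁ (if j < t₁ then σ₁ j else t₁ + σ₂ (j - t₁))
      else t₁ + σ₂ ((if j < t₁ then σ₁ j else t₁ + σ₂ (j - t₁)) - t₁)) = j
    by_cases h : j < t₁
    · rw [if_pos h, if_pos (a1 j h)]
      exact a2 j h
    · have h3 := b1 (j - t₁) (by omega)
      have h4 : ¬ (t₁ + σ₂ (j - t₁) < t₁) := by omega
      rw [if_neg h, if_neg h4, Nat.add_sub_cancel_left, b2 (j - t₁) (by omega)]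
      omega
  · intro k hk
    show (if k ∈ S₁ then f₁ k else t₁ + f₂ k) < t₁ + t₂
    rcases Finset.mem_union.1 hk with h | h
    · rw [if_pos h]
      have := a3 k h
      omega
    · rw [if_neg (hn k h)]
      have := b3 k h
      omega
  · intro j hj
    by_cases h : j < t₁
    · have e : (S₁ ∪ S₂).filter (fun k => (if k ∈ S₁ then f₁ k else t₁ + f₂ k) = j)
          = S₁.filter (fun k => f₁ k = j) := by
        ext k
        rw [Finset.mem_filter, Finset.mem_filter, Finset.mem_union]
        constructor
        · rintro ⟨h1 | h1, h2⟩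
          · rw [if_pos h1] at h2
            exact ⟨h1, h2⟩
          · rw [if_neg (hn k h1)] at h2
            omega
        · rintro ⟨h1, h2⟩
          exact ⟨Or.inl h1, (if_pos h1).trans h2⟩
      exact (congrArg Finset.card e).trans (a4 j h)
    · have e : (S₁ ∪ S₂).filter (fun k => (if k ∈ S₁ then f₁ k else t₁ + f₂ k) = j)
          = S₂.filter (fun k => f₂ k = j - t₁) := by
        ext k
        rw [Finset.mem_filter, Finset.mem_filter, Finset.mem_union]
        constructor
        · rintro ⟨h1 | h1, h2⟩
          · rw [if_pos h1] at h2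
            have := a3 k h1
            omega
          · rw [if_neg (hn k h1)] at h2
            exact ⟨h1, by omega⟩
        · rintro ⟨h1, h2⟩
          refine ⟨Or.inr h1, ?_⟩
          rw [if_neg (hn k h1)]
          omega
      exact (congrArg Finset.card e).trans (b4 (j - t₁) (by omega))
  · intro k hk
    show (if π k ∈ S₁ then f₁ (π k) else t₁ + f₂ (π k)) =
      (if (if k ∈ S₁ then f₁ k else t₁ + f₂ k) < t₁ then σ₁ (if k ∈ S₁ then f₁ k else t₁ + f₂ k)
        else t₁ + σ₂ ((if k ∈ S₁ then f₁ k else t₁ + f₂ k) - t₁))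
    rcases Finset.mem_union.1 hk with h | h
    · rw [if_pos (hi₁ k h), if_pos h, if_pos (a3 k h)]
      exact a5 k h
    · have h6 : ¬ (t₁ + f₂ k < t₁) := by omega
      rw [if_neg (hn _ (hi₂ k h)), if_neg (hn k h), if_neg h6, Nat.add_sub_cancel_left, b5 k h]

/-- Any involution `π` of a set `S` of size `a * t` admits a compatible labelling. -/
theorem exists_sol (e : ι → ℕ) (he : Function.Injective e) (π : ι → ι) (hπ : ∀ k, π (π k) = k)
    (a : ℕ) (ha : 1 ≤ a) :
    ∀ (t : ℕ) (S : Finset ι), S.card = a * t → (∀ k ∈ S, π k ∈ S) → Sol π a S t := by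
  classical
  have hinj : Function.Injective π := fun x y h => by rw [← hπ x, ← hπ y, h]
  intro t
  induction t using Nat.strong_induction_on with
  | _ t ih =>
    intro S hS hinv
    rcases Nat.eq_zero_or_pos t with rfl | htpos
    · have h0 : S = ∅ := Finset.card_eq_zero.1 (by rw [hS, Nat.mul_zero])
      rw [h0]
      exact sol_zero π a
    obtain ⟨R, hRm⟩ : ∃ R : Finset ι, ∀ k, k ∈ R ↔ k ∈ S ∧ e k < e (π k) :=
      ⟨S.filter (fun k => e k < e (π k)), fun k => Finset.mem_filter⟩
    obtain ⟨Fx, hFm⟩ : ∃ Fx : Finset ι, ∀ k, k ∈ Fx ↔ k ∈ S ∧ π k = k :=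
      ⟨S.filter (fun k => π k = k), fun k => Finset.mem_filter⟩
    have hRS : R ⊆ S := fun k hk => ((hRm k).1 hk).1
    have hFS : Fx ⊆ S := fun k hk => ((hFm k).1 hk).1
    have hR1 : ∀ k ∈ R, e k < e (π k) := fun k hk => ((hRm k).1 hk).2
    have hF1 : ∀ k ∈ Fx, π k = k := fun k hk => ((hFm k).1 hk).2
    have hRimS : R.image π ⊆ S := by
      intro k hk
      obtain ⟨k₀, hk₀, rfl⟩ := Finset.mem_image.1 hk
      exact hinv _ (hRS hk₀)
    have hR2 : ∀ k ∈ R.image π, e (π k) < e k := by
      intro k hk
      obtain ⟨k₀, hk₀, rfl⟩ := Finset.mem_image.1 hk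
      rw [hπ k₀]
      exact hR1 k₀ hk₀
    have hdRR : Disjoint R (R.image π) :=
      Finset.disjoint_left.2 fun k h1 h2 => lt_asymm (hR1 k h1) (hR2 k h2)
    have hdF : Disjoint (R ∪ R.image π) Fx := by
      refine Finset.disjoint_left.2 fun k h1 h2 => ?_
      have h3 := hF1 k h2
      rcases Finset.mem_union.1 h1 with h | h
      · have h4 := hR1 k h
        rw [h3] at h4
        exact lt_irrefl _ h4
      · have h4 := hR2 k h
        rw [h3] at h4
        exact lt_irrefl _ h4
    have hSeq : S = (R ∪ R.image π) ∪ Fx := by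
      apply Finset.Subset.antisymm
      · intro k hk
        rcases lt_trichotomy (e k) (e (π k)) with h | h | h
        · exact Finset.mem_union_left _ (Finset.mem_union_left _ ((hRm k).2 ⟨hk, h⟩))
        · exact Finset.mem_union_right _ ((hFm k).2 ⟨hk, (he h).symm⟩)
        · refine Finset.mem_union_left _ (Finset.mem_union_right _ ?_)
          refine Finset.mem_image.2 ⟨π k, (hRm (π k)).2 ⟨hinv k hk, ?_⟩, hπ k⟩
          rw [hπ k]
          exact h
      · exact Finset.union_subset (Finset.union_subset hRS hRimS) hFS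
    have hcard : a * t = 2 * R.card + Fx.card := by
      have h1 : S.card = ((R ∪ R.image π) ∪ Fx).card := congrArg Finset.card hSeq
      rw [Finset.card_union_of_disjoint hdF, Finset.card_union_of_disjoint hdRR,
        Finset.card_image_of_injective _ hinj, hS] at h1
      omega
    by_cases hcase : a ≤ R.card
    · -- a pair of blocks interchanged by `π`
      obtain ⟨B, hBR, hBc⟩ := Finset.exists_subset_card_eq hcase
      have hdB : Disjoint B (B.image π) :=
        Finset.disjoint_of_subset_left hBR
          (Finset.disjoint_of_subset_right (Finset.image_subset_image hBR) hdRR)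
      have hBS : B ∪ B.image π ⊆ S :=
        Finset.union_subset (hBR.trans hRS) ((Finset.image_subset_image hBR).trans hRimS)
      have hBinv : ∀ k ∈ B ∪ B.image π, π k ∈ B ∪ B.image π := by
        intro k hk
        rcases Finset.mem_union.1 hk with h | h
        · exact Finset.mem_union_right _ (Finset.mem_image_of_mem π h)
        · obtain ⟨k₀, hk₀, rfl⟩ := Finset.mem_image.1 h
          rw [hπ k₀]
          exact Finset.mem_union_left _ hk₀
      have hBcard : (B ∪ B.image π).card = 2 * a := by
        rw [Finset.card_union_of_disjoint hdB, Finset.card_image_of_injective _ hinj, hBc]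
        omega
      have ht2 : 2 ≤ t := by
        by_contra hlt
        have ht1 : t = 1 := by omega
        rw [ht1, Nat.mul_one] at hcard
        omega
      have hS'inv : ∀ k ∈ S \ (B ∪ B.image π), π k ∈ S \ (B ∪ B.image π) := by
        intro k hk
        have hk1 := Finset.mem_sdiff.1 hk
        refine Finset.mem_sdiff.2 ⟨hinv k hk1.1, fun h => hk1.2 ?_⟩
        have h7 := hBinv _ h
        rwa [hπ k] at h7
      have hS'card : (S \ (B ∪ B.image π)).card = a * (t - 2) := by
        have e3 : a * t = a * (t - 2) + 2 * a := by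
          have h5 : t = (t - 2) + 2 := by omega
          calc a * t = a * ((t - 2) + 2) := by rw [← h5]
            _ = a * (t - 2) + 2 * a := by ring
        rw [Finset.card_sdiff_of_subset hBS, hS, hBcard]
        omega
      have hsol' := ih (t - 2) (by omega) _ hS'card hS'inv
      have hsol := (sol_two π hπ a B hBc hdB).concat hsol' Finset.disjoint_sdiff hBinv hS'inv
      rw [Finset.union_sdiff_of_subset hBS] at hsol
      have e2 : 2 + (t - 2) = t := by omega
      rw [e2] at hsol
      exact hsol
    · -- a `π`-invariant block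
      have hcase' : R.card < a := not_le.1 hcase
      have hu : a - 2 * min R.card (a / 2) ≤ Fx.card := by
        rcases Nat.lt_or_ge t 2 with h | h
        · have ht1 : t = 1 := by omega
          rw [ht1, Nat.mul_one] at hcard
          omega
        · have h8 : 2 * a ≤ a * t := by
            calc 2 * a = a * 2 := Nat.mul_comm 2 a
              _ ≤ a * t := Nat.mul_le_mul_left a h
          omega
      obtain ⟨R₁, hR₁R, hR₁c⟩ := Finset.exists_subset_card_eq (Nat.min_le_left R.card (a / 2))
      obtain ⟨F₁, hF₁F, hF₁c⟩ := Finset.exists_subset_card_eq hu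
      have hBS : (R₁ ∪ R₁.image π) ∪ F₁ ⊆ S :=
        Finset.union_subset (Finset.union_subset (hR₁R.trans hRS)
          ((Finset.image_subset_image hR₁R).trans hRimS)) (hF₁F.trans hFS)
      have hBinv : ∀ k ∈ (R₁ ∪ R₁.image π) ∪ F₁, π k ∈ (R₁ ∪ R₁.image π) ∪ F₁ := by
        intro k hk
        rcases Finset.mem_union.1 hk with h | h
        · rcases Finset.mem_union.1 h with h' | h'
          · exact Finset.mem_union_left _ (Finset.mem_union_right _ (Finset.mem_image_of_mem π h'))
          · obtain ⟨k₀, hk₀, rfl⟩ := Finset.mem_image.1 h'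
            rw [hπ k₀]
            exact Finset.mem_union_left _ (Finset.mem_union_left _ hk₀)
        · rw [hF1 k (hF₁F h)]
          exact hk
      have hBcard : ((R₁ ∪ R₁.image π) ∪ F₁).card = a := by
        have d1 : Disjoint R₁ (R₁.image π) :=
          Finset.disjoint_of_subset_left hR₁R
            (Finset.disjoint_of_subset_right (Finset.image_subset_image hR₁R) hdRR)
        have d2 : Disjoint (R₁ ∪ R₁.image π) F₁ :=
          Finset.disjoint_of_subset_left
            (Finset.union_subset_union hR₁R (Finset.image_subset_image hR₁R))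
            (Finset.disjoint_of_subset_right hF₁F hdF)
        rw [Finset.card_union_of_disjoint d2, Finset.card_union_of_disjoint d1,
          Finset.card_image_of_injective _ hinj, hR₁c, hF₁c]
        omega
      have hS'inv : ∀ k ∈ S \ ((R₁ ∪ R₁.image π) ∪ F₁), π k ∈ S \ ((R₁ ∪ R₁.image π) ∪ F₁) := by
        intro k hk
        have hk1 := Finset.mem_sdiff.1 hk
        refine Finset.mem_sdiff.2 ⟨hinv k hk1.1, fun h => hk1.2 ?_⟩
        have h7 := hBinv _ h
        rwa [hπ k] at h7
      have hS'card : (S \ ((R₁ ∪ R₁.image π) ∪ F₁)).card = a * (t - 1) := by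
        have e3 : a * t = a * (t - 1) + a := by
          have h5 : t = (t - 1) + 1 := by omega
          calc a * t = a * ((t - 1) + 1) := by rw [← h5]
            _ = a * (t - 1) + a := by ring
        rw [Finset.card_sdiff_of_subset hBS, hS, hBcard]
        omega
      have hsol' := ih (t - 1) (by omega) _ hS'card hS'inv
      have hsol := (sol_one π a _ hBcard).concat hsol' Finset.disjoint_sdiff hBinv hS'inv
      rw [Finset.union_sdiff_of_subset hBS] at hsol
      have e2 : 1 + (t - 1) = t := by omega
      rw [e2] at hsol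
      exact hsol

end Comb

/-! ### Monomial bases for square roots of scalars -/

section Lin

variable {F V : Type*} [Field F] [AddCommGroup V] [Module F V]

/-- An endomorphism whose square is a scalar is monomial in a suitable basis: it maps every basis
vector to a multiple of a basis vector, along an involution of the index set. -/
theorem monomial_basis [FiniteDimensional F V] (X : V →ₗ[F] V) (z : F) (hX : ∀ v, X (X v) = z • v) :
    ∀ (d : ℕ) (W : Submodule F V), Module.finrank F W = d → (∀ w ∈ W, X w ∈ W) →
      ∃ (ι : Type) (_ : Fintype ι) (b : ι → V) (π : ι → ι) (c : ι → F),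
        LinearIndependent F b ∧ Submodule.span F (Set.range b) = W ∧ (∀ k, π (π k) = k) ∧
        ∀ k, X (b k) = c k • b (π k) := by
  intro d
  induction d using Nat.strong_induction_on with
  | _ d ih =>
    intro W hd hW
    by_cases hsc : ∀ w ∈ W, ∃ c : F, X w = c • w
    · -- every vector of `W` is an eigenvector
      choose! c hc using hsc
      refine ⟨Fin (Module.finrank F W), inferInstance, fun k => (Module.finBasis F W k : V), id,
        fun k => c (Module.finBasis F W k), ?_, ?_, fun k => rfl, fun k => hc _ (Module.finBasis F W k).2⟩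
      · exact (Module.finBasis F W).linearIndependent.map' W.subtype (Submodule.ker_subtype W)
      · have h1 : Set.range (fun k => (Module.finBasis F W k : V))
            = W.subtype '' Set.range (Module.finBasis F W) := by
          rw [← Set.range_comp]
          rfl
        rw [h1, ← Submodule.map_span, (Module.finBasis F W).span_eq, Submodule.map_subtype_top]
    · push Not at hsc
      obtain ⟨v, hvW, hv⟩ := hsc
      have hv0 : v ≠ 0 := by
        rintro rfl
        exact hv 0 (by rw [map_zero, smul_zero])
      have hnot : X v ∉ Submodule.span F {v} := by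
        intro h
        obtain ⟨c, hc⟩ := Submodule.mem_span_singleton.1 h
        exact hv c hc.symm
      obtain ⟨φ, hφ1, hφ2⟩ := Submodule.exists_dual_map_eq_bot_of_notMem hnot inferInstance
      have hφv : φ v = 0 := by
        have h1 : φ v ∈ (Submodule.span F {v}).map φ :=
          Submodule.mem_map_of_mem (Submodule.mem_span_singleton_self v)
        rw [hφ2] at h1
        exact (Submodule.mem_bot F).1 h1
      obtain ⟨β, hβv, hβXv⟩ : ∃ β : V →ₗ[F] F, β v = 0 ∧ β (X v) = 1 :=
        ⟨(φ (X v))⁻¹ • φ, by rw [LinearMap.smul_apply, hφv, smul_zero],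
          by rw [LinearMap.smul_apply, smul_eq_mul, inv_mul_cancel₀ hφ1]⟩
      obtain ⟨ρ, hρ⟩ : ∃ ρ : V →ₗ[F] V, ∀ w, ρ w = β (X w) • v + β w • X v :=
        ⟨(β.comp X).smulRight v + β.smulRight (X v), fun w => rfl⟩
      have hρX : ∀ w, ρ (X w) = X (ρ w) := by
        intro w
        have e1 : ρ (X w) = (z * β w) • v + β (X w) • X v := by
          rw [hρ, hX, map_smul, smul_eq_mul]
        have e2 : X (ρ w) = β (X w) • X v + (β w * z) • v := by
          rw [hρ, map_add, map_smul, map_smul, hX, smul_smul]
        rw [e1, e2, add_comm ((z * β w) • v), mul_comm z]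
      have hρv : ρ v = v := by rw [hρ, hβXv, hβv, one_smul, zero_smul, add_zero]
      have hρXv : ρ (X v) = X v := by rw [hρX, hρv]
      have hρρ : ∀ w, ρ (ρ w) = ρ w := by
        intro w
        have e1 : ρ (ρ w) = ρ (β (X w) • v + β w • X v) := by rw [← hρ w]
        rw [e1, map_add, map_smul, map_smul, hρv, hρXv]
        exact (hρ w).symm
      have hXvW : X v ∈ W := hW v hvW
      have hρW : ∀ w ∈ W, ρ w ∈ W := fun w _ => by
        rw [hρ]
        exact W.add_mem (W.smul_mem _ hvW) (W.smul_mem _ hXvW)
      have hW'inv : ∀ w ∈ W ⊓ LinearMap.ker ρ, X w ∈ W ⊓ LinearMap.ker ρ := by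
        intro w hw
        have hw' := Submodule.mem_inf.1 hw
        refine Submodule.mem_inf.2 ⟨hW w hw'.1, ?_⟩
        rw [LinearMap.mem_ker, hρX, LinearMap.mem_ker.1 hw'.2, map_zero]
      have hlt : W ⊓ LinearMap.ker ρ < W := by
        refine lt_of_le_of_ne inf_le_left fun h => ?_
        have h1 : v ∈ W ⊓ LinearMap.ker ρ := by
          rw [h]
          exact hvW
        have h2 : ρ v = 0 := LinearMap.mem_ker.1 (Submodule.mem_inf.1 h1).2
        rw [hρv] at h2
        exact hv0 h2
      have hd' : Module.finrank F ↥(W ⊓ LinearMap.ker ρ) < d := by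
        rw [← hd]
        exact Submodule.finrank_lt_finrank_of_lt hlt
      obtain ⟨ι', hι', b', π', c', hb', hsp', hπ', hc'⟩ :=
        ih _ hd' (W ⊓ LinearMap.ker ρ) rfl hW'inv
      have hpair : LinearIndependent F ![v, X v] :=
        (LinearIndependent.pair_iff' hv0).2 fun a h => hv a h.symm
      have hfixP : ∀ y ∈ Submodule.span F (Set.range ![v, X v]), ρ y = y := by
        intro y hy
        have h1 : Submodule.span F (Set.range ![v, X v]) ≤ LinearMap.eqLocus ρ LinearMap.id := by
          refine Submodule.span_le.2 ?_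
          rintro _ ⟨i, rfl⟩
          fin_cases i
          · exact hρv
          · exact hρXv
        have h2 := LinearMap.mem_eqLocus.1 (h1 hy)
        rw [LinearMap.id_apply] at h2
        exact h2
      have hdisj : Disjoint (Submodule.span F (Set.range ![v, X v]))
          (Submodule.span F (Set.range b')) := by
        rw [Submodule.disjoint_def]
        intro y hy1 hy2
        have h1 : ρ y = y := hfixP y hy1
        rw [hsp'] at hy2
        have h2 : ρ y = 0 := LinearMap.mem_ker.1 (Submodule.mem_inf.1 hy2).2
        rw [← h1, h2]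
      refine ⟨Fin 2 ⊕ ι', inferInstance, Sum.elim ![v, X v] b',
        Sum.elim (fun i => Sum.inl (![1, 0] i)) (fun k => Sum.inr (π' k)),
        Sum.elim ![1, z] c', ?_, ?_, ?_, ?_⟩
      · exact hpair.sum_type hb' hdisj
      · rw [Set.Sum.elim_range, Submodule.span_union, hsp']
        apply le_antisymm
        · refine sup_le (Submodule.span_le.2 ?_) inf_le_left
          rintro _ ⟨i, rfl⟩
          fin_cases i
          · exact hvW
          · exact hXvW
        · intro w hw
          have h1 : ρ w ∈ Submodule.span F (Set.range ![v, X v]) := by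
            rw [hρ]
            exact Submodule.add_mem _ (Submodule.smul_mem _ _ (Submodule.subset_span ⟨0, rfl⟩))
              (Submodule.smul_mem _ _ (Submodule.subset_span ⟨1, rfl⟩))
          have h2 : w - ρ w ∈ W ⊓ LinearMap.ker ρ := by
            refine Submodule.mem_inf.2 ⟨W.sub_mem hw (hρW w hw), ?_⟩
            rw [LinearMap.mem_ker, map_sub, hρρ, sub_self]
          have h3 : ρ w + (w - ρ w) = w := by abel
          rw [← h3]
          exact Submodule.add_mem_sup h1 h2
      · rintro (i | k)
        · fin_cases i <;> rfl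
        · show Sum.inr (π' (π' k)) = Sum.inr k
          rw [hπ' k]
      · rintro (i | k)
        · fin_cases i
          · show X v = (1 : F) • X v
            rw [one_smul]
          · show X (X v) = z • v
            exact hX v
        · show X (b' k) = c' k • b' (π' k)
          exact hc' k

/-- The spans of the fibres of a labelling of a basis form a direct sum decomposition. -/
theorem decomp_of_basis {ι : Type*} [Fintype ι] (b : ι → V) (hb : LinearIndependent F b)
    (hsp : Submodule.span F (Set.range b) = ⊤) {t : ℕ} (g : ι → Fin t) :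
    iSupIndep (fun j => Submodule.span F (b '' {k | g k = j})) ∧
    (⨆ j, Submodule.span F (b '' {k | g k = j})) = ⊤ ∧
    ∀ j, Module.finrank F (Submodule.span F (b '' {k | g k = j}))
      = (Finset.univ.filter (fun k => g k = j)).card := by
  refine ⟨?_, ?_, ?_⟩
  · intro i
    have h1 : (⨆ j, ⨆ (_ : j ≠ i), Submodule.span F (b '' {k | g k = j}))
        = Submodule.span F (b '' ⋃ j, ⋃ (_ : j ≠ i), {k | g k = j}) := by
      rw [Set.image_iUnion₂, Submodule.span_iUnion₂]
    show Disjoint (Submodule.span F (b '' {k | g k = i}))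
      (⨆ j, ⨆ (_ : j ≠ i), Submodule.span F (b '' {k | g k = j}))
    rw [h1]
    apply hb.disjoint_span_image
    rw [Set.disjoint_iUnion₂_right]
    intro j hj
    rw [Set.disjoint_left]
    intro k hk1 hk2
    exact hj ((show g k = j from hk2).symm.trans (show g k = i from hk1))
  · rw [← Submodule.span_iUnion, ← Set.image_iUnion]
    have h1 : (⋃ j, {k | g k = j}) = Set.univ := by
      ext k
      simp
    rw [h1, Set.image_univ, hsp]
  · intro j
    have hli : LinearIndependent F (fun k : {k // g k = j} => b k) :=
      hb.comp _ Subtype.val_injective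
    have hr : Set.range (fun k : {k // g k = j} => b k) = b '' {k | g k = j} := by
      ext y
      constructor
      · rintro ⟨⟨k, hk⟩, rfl⟩
        exact ⟨k, hk, rfl⟩
      · rintro ⟨k, hk, rfl⟩
        exact ⟨⟨k, hk⟩, rfl⟩
    rw [← hr, finrank_span_eq_card hli, Fintype.card_subtype]

end Lin

end Cfsg.Agent.Helper29
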