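import Mathlib
import Cfsg.Agent.Helper29.KTrans

set_option autoImplicit false

namespace Cfsg.Agent.Helper29

open MulAction

section Jordan

variable {G : Type*} [Group G] {α : Type*} [MulAction G α]

theorem reg_sq [Fintype α] {F : List α} {a : α} (ha : a ∉ F) (hFn : F.Nodup)
    (hG3 : LTr (⊤ : Subgroup G) F 3) (hcard : F.length + 3 < Fintype.card α)
    (N : Subgroup G) (hnorm : ∀ g : G, (∀ f ∈ F, g • f = f) → ∀ n ∈ N, g * n * g⁻¹ ∈ N)
    (hfix : ∀ n ∈ N, ∀ f ∈ F, n • f = f)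
    (hreg : ∀ n ∈ N, n • a = a → n = 1) : ∀ x ∈ N, x ^ 2 = 1 := by
  intro x hx
  by_contra hx2
  have hx1 : x ≠ 1 := by rintro rfl; exact hx2 (one_pow 2)
  have hba : x • a ≠ a := fun h => hx1 (hreg x hx h)
  have hca : x⁻¹ • a ≠ a := fun h => hx1 (inv_eq_one.1 (hreg x⁻¹ (N.inv_mem hx) h))
  have hbc : x • a ≠ x⁻¹ • a := by
    intro h
    apply hx2
    rw [pow_two]
    apply hreg _ (N.mul_mem hx hx)
    rw [mul_smul, h, smul_inv_smul]
  have hbF : x • a ∉ F := notMem_of_fix (hfix x hx) ha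
  have hcF : x⁻¹ • a ∉ F := notMem_of_fix (hfix x⁻¹ (N.inv_mem hx)) ha
  obtain ⟨d, hd⟩ := exists_notMem_list (F ++ [a, x • a, x⁻¹ • a])
    (by simp only [List.length_append, List.length_cons, List.length_nil]; omega)
  simp only [List.mem_append, List.mem_cons, List.not_mem_nil, or_false, not_or] at hd
  obtain ⟨hdF, hda, hdb, hdc⟩ := hd
  obtain ⟨g, -, hgF, hgmap⟩ := hG3 [a, x • a, x⁻¹ • a] [a, x • a, d] rfl rfl
    (by rw [nodup_app]; refine ⟨hFn, ?_, ?_⟩ <;>
      simp [ha, hbF, hcF, Ne.symm hba, Ne.symm hca, hbc])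
    (by rw [nodup_app]; refine ⟨hFn, ?_, ?_⟩ <;>
      simp [ha, hbF, hdF, Ne.symm hba, Ne.symm hda, Ne.symm hdb])
  simp only [List.map_cons, List.map_nil, List.cons.injEq, and_true] at hgmap
  obtain ⟨hga, hgb, hgc⟩ := hgmap
  have hx' : g * x * g⁻¹ = x := by
    have h1 : x⁻¹ * (g * x * g⁻¹) = 1 := by
      apply hreg _ (N.mul_mem (N.inv_mem hx) (hnorm g hgF x hx))
      rw [mul_smul, conj_smul_of_fix hga, hgb, inv_smul_smul]
    exact (inv_mul_eq_one.1 h1).symm
  have hx'' : g * x⁻¹ * g⁻¹ = x⁻¹ := by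
    calc g * x⁻¹ * g⁻¹ = (g * x * g⁻¹)⁻¹ := by group
      _ = x⁻¹ := by rw [hx']
  apply hdc
  rw [← hgc, ← conj_smul_of_fix hga, hx'']

theorem reg_four [Fintype α] {F : List α} {a : α} (ha : a ∉ F) (hFn : F.Nodup)
    (hG4 : LTr (⊤ : Subgroup G) F 4) (hcard : F.length + 4 < Fintype.card α)
    (N : Subgroup G) (hnorm : ∀ g : G, (∀ f ∈ F, g • f = f) → ∀ n ∈ N, g * n * g⁻¹ ∈ N)
    (hfix : ∀ n ∈ N, ∀ f ∈ F, n • f = f) (hN1 : LTr N F 1)
    (hreg : ∀ n ∈ N, n • a = a → n = 1) (hsq : ∀ x ∈ N, x ^ 2 = 1) : False := by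
  obtain ⟨b, hb⟩ := exists_notMem_list (F ++ [a])
    (by simp only [List.length_append, List.length_cons, List.length_nil]; omega)
  simp only [List.mem_append, List.mem_cons, List.not_mem_nil, or_false, not_or] at hb
  obtain ⟨hbF, hba⟩ := hb
  obtain ⟨c, hc⟩ := exists_notMem_list (F ++ [a, b])
    (by simp only [List.length_append, List.length_cons, List.length_nil]; omega)
  simp only [List.mem_append, List.mem_cons, List.not_mem_nil, or_false, not_or] at hc
  obtain ⟨hcF, hca, hcb⟩ := hc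
  have hnodup1 : ∀ z, z ∉ F → (F ++ [z]).Nodup := fun z hz => by
    rw [nodup_app]; exact ⟨hFn, by simp, by simpa using hz⟩
  obtain ⟨x, hx, -, hxa⟩ := hN1 [a] [b] rfl rfl (hnodup1 a ha) (hnodup1 b hbF)
  obtain ⟨y, hy, -, hya⟩ := hN1 [a] [c] rfl rfl (hnodup1 a ha) (hnodup1 c hcF)
  simp only [List.map_cons, List.map_nil, List.cons.injEq, and_true] at hxa hya
  have hxinv : x⁻¹ = x := by
    have := hsq x hx
    rw [pow_two] at this
    exact inv_eq_of_mul_eq_one_left this
  have hd : (x * y) • a = x • c := by rw [mul_smul, hya]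
  have hdF : x • c ∉ F := notMem_of_fix (hfix x hx) hcF
  have hda : x • c ≠ a := by
    intro h
    apply hcb
    have : c = x⁻¹ • a := by rw [← h, inv_smul_smul]
    rw [this, hxinv, hxa]
  have hdb : x • c ≠ b := by
    intro h
    rw [← hxa] at h
    exact hca (MulAction.injective x h)
  have hdc : x • c ≠ c := by
    intro h
    have h1 : y⁻¹ * (x * y) = 1 := by
      apply hreg _ (N.mul_mem (N.inv_mem hy) (N.mul_mem hx hy))
      rw [mul_smul, hd, h, ← hya, inv_smul_smul]
    have h2 : x = 1 := by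
      have h3 := inv_mul_eq_one.1 h1
      have h4 : x * y = 1 * y := by rw [one_mul]; exact h3.symm
      exact mul_right_cancel h4
    apply hba
    rw [← hxa, h2, one_smul]
  obtain ⟨e, he⟩ := exists_notMem_list (F ++ [a, b, c, x • c])
    (by simp only [List.length_append, List.length_cons, List.length_nil]; omega)
  simp only [List.mem_append, List.mem_cons, List.not_mem_nil, or_false, not_or] at he
  obtain ⟨heF, hea, heb, hec, hed⟩ := he
  obtain ⟨g, -, hgF, hgmap⟩ := hG4 [a, b, c, x • c] [a, b, c, e] rfl rfl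
    (by rw [nodup_app]; refine ⟨hFn, ?_, ?_⟩ <;>
      simp [ha, hbF, hcF, hdF, Ne.symm hba, Ne.symm hca, Ne.symm hcb, Ne.symm hda, Ne.symm hdb,
        Ne.symm hdc])
    (by rw [nodup_app]; refine ⟨hFn, ?_, ?_⟩ <;>
      simp [ha, hbF, hcF, heF, Ne.symm hba, Ne.symm hca, Ne.symm hcb, Ne.symm hea, Ne.symm heb,
        Ne.symm hec])
  simp only [List.map_cons, List.map_nil, List.cons.injEq, and_true] at hgmap
  obtain ⟨hga, hgb, hgc, hgd⟩ := hgmap
  have hconj : ∀ z ∈ N, g • z • a = z • a → g * z * g⁻¹ = z := by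
    intro z hz h
    have h1 : z⁻¹ * (g * z * g⁻¹) = 1 := by
      apply hreg _ (N.mul_mem (N.inv_mem hz) (hnorm g hgF z hz))
      rw [mul_smul, conj_smul_of_fix hga, h, inv_smul_smul]
    exact (inv_mul_eq_one.1 h1).symm
  have hgx : g * x * g⁻¹ = x := hconj x hx (by rw [hxa, hgb])
  have hgy : g * y * g⁻¹ = y := hconj y hy (by rw [hya, hgc])
  have hgz : g * (x * y) * g⁻¹ = x * y := by
    calc g * (x * y) * g⁻¹ = (g * x * g⁻¹) * (g * y * g⁻¹) := by group
      _ = x * y := by rw [hgx, hgy]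
  apply hed
  rw [← hgd, ← hd, ← conj_smul_of_fix hga, hgz]

theorem jordan_four [Fintype α] (hfaith : ∀ g : G, (∀ x : α, g • x = x) → g = 1)
    {F : List α} {a : α} (ha : a ∉ F) (hFn : F.Nodup)
    (hG4 : LTr (⊤ : Subgroup G) F 4) (hcard : F.length + 4 < Fintype.card α)
    (N : Subgroup G) (hnorm : ∀ g : G, (∀ f ∈ F, g • f = f) → ∀ n ∈ N, g * n * g⁻¹ ∈ N)
    (hfix : ∀ n ∈ N, ∀ f ∈ F, n • f = f) (hN1 : LTr N F 1)
    (hN' : ∃ n ∈ N, n • a = a ∧ n ≠ 1)
    (hcomm : ∀ x ∈ N, x • a = a → ∀ y ∈ N, y • a = a → x * y = y * x)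
    (hsq : ∀ x ∈ N, x • a = a → x ^ 2 = 1) : False := by
  have hnodup1 : ∀ z, z ∉ F → (F ++ [z]).Nodup := fun z hz => by
    rw [nodup_app]; exact ⟨hFn, by simp, by simpa using hz⟩
  have hGa2 : LTr (⊤ : Subgroup G) (F ++ [a]) 2 :=
    LTr.mono (by norm_num) (hG4.cons_fix a)
      (by simp only [List.length_append, List.length_cons, List.length_nil]; omega)
  have hNa1 : LTr (N ⊓ stabilizer G a) (F ++ [a]) 1 := by
    apply ltr_one_of_two hfaith hGa2
    · intro g hg n hn
      have hga : g • a = a := hg a (by simp)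
      refine Subgroup.mem_inf.2 ⟨hnorm g (fun f hf => hg f (by simp [hf])) n
        (Subgroup.mem_inf.1 hn).1, ?_⟩
      rw [mem_stabilizer_iff, conj_smul_of_fix hga,
        mem_stabilizer_iff.1 (Subgroup.mem_inf.1 hn).2, hga]
    · intro n hn f hf
      rcases List.mem_append.1 hf with hf | hf
      · exact hfix n hn.1 f hf
      · rw [List.mem_singleton] at hf; rw [hf]; exact mem_stabilizer_iff.1 hn.2
    · obtain ⟨n, hn, hna, hn1⟩ := hN'
      exact ⟨n, ⟨hn, mem_stabilizer_iff.2 hna⟩, hn1⟩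
  have hSR : ∀ n ∈ N, n • a = a → ∀ b, b ∉ F → b ≠ a → n • b = b → n = 1 := by
    intro n hn hna b hbF hba hnb
    apply hfaith
    intro x
    by_cases hxF : x ∈ F
    · exact hfix n hn x hxF
    by_cases hxa : x = a
    · rw [hxa]; exact hna
    obtain ⟨h, hh, -, hhb⟩ := hNa1 [b] [x] rfl rfl
      (by rw [nodup_app]; exact ⟨hnodup1 a ha, by simp, by simp [hbF, hba]⟩)
      (by rw [nodup_app]; exact ⟨hnodup1 a ha, by simp, by simp [hxF, hxa]⟩)
    simp only [List.map_cons, List.map_nil, List.cons.injEq, and_true] at hhb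
    rw [← hhb, ← mul_smul, hcomm n hn hna h hh.1 (mem_stabilizer_iff.1 hh.2), mul_smul, hnb]
  have hC : ∀ n ∈ N, ∀ b c, b ∉ F → c ∉ F → b ≠ c → n • b = b → n • c = c → n = 1 := by
    intro n hn b c hbF hcF hbc hnb hnc
    obtain ⟨h, hh, hhF, hhb⟩ := hN1 [b] [a] rfl rfl (hnodup1 b hbF) (hnodup1 a ha)
    simp only [List.map_cons, List.map_nil, List.cons.injEq, and_true] at hhb
    have hb' : h⁻¹ • a = b := by rw [inv_smul_eq_iff, hhb]
    have h1 : h * n * h⁻¹ = 1 := by
      apply hSR _ (N.mul_mem (N.mul_mem hh hn) (N.inv_mem hh)) _ (h • c) (notMem_of_fix hhF hcF)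
      · intro h2
        rw [← hhb] at h2
        exact hbc (MulAction.injective h h2).symm
      · rw [mul_smul, mul_smul, inv_smul_smul, hnc]
      · rw [mul_smul, mul_smul, hb', hnb, hhb]
    exact conj_eq_one_iff.1 h1
  obtain ⟨t, ht, hta, ht1⟩ := hN'
  have htt : t * t = 1 := by rw [← pow_two]; exact hsq t ht hta
  obtain ⟨b, hb⟩ : ∃ b : α, t • b ≠ b := by
    by_contra hc; push Not at hc; exact ht1 (hfaith t hc)
  have hbF : b ∉ F := fun h => hb (hfix t ht b h)
  have hba : b ≠ a := fun h => hb (by rw [h]; exact hta)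
  have hcF : t • b ∉ F := notMem_of_fix (hfix t ht) hbF
  have hca : t • b ≠ a := by
    intro h; apply hba; apply MulAction.injective t; show t • b = t • a; rw [h, hta]
  have htc : t • t • b = b := by rw [← mul_smul, htt, one_smul]
  obtain ⟨d, hd⟩ := exists_notMem_list (F ++ [a, b, t • b])
    (by simp only [List.length_append, List.length_cons, List.length_nil]; omega)
  simp only [List.mem_append, List.mem_cons, List.not_mem_nil, or_false, not_or] at hd
  obtain ⟨hdF, hda, hdb, hdc⟩ := hd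
  have heF : t • d ∉ F := notMem_of_fix (hfix t ht) hdF
  have hea : t • d ≠ a := by
    intro h; apply hda; apply MulAction.injective t; show t • d = t • a; rw [h, hta]
  have heb : t • d ≠ b := by
    intro h; apply hdc; apply MulAction.injective t; show t • d = t • t • b; rw [h, htc]
  have hec : t • d ≠ t • b := fun h => hdb (MulAction.injective t h)
  have hed : t • d ≠ d := fun h => ht1 (hSR t ht hta d hdF hda h)
  obtain ⟨g, -, hgF, hgmap⟩ := hG4 [b, t • b, d, t • d] [b, t • b, d, a] rfl rfl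
    (by rw [nodup_app]; refine ⟨hFn, ?_, ?_⟩ <;>
      simp [hbF, hcF, hdF, heF, Ne.symm hb, Ne.symm hdb, Ne.symm heb, Ne.symm hdc, Ne.symm hec,
        Ne.symm hed])
    (by rw [nodup_app]; refine ⟨hFn, ?_, ?_⟩ <;>
      simp [hbF, hcF, hdF, ha, Ne.symm hb, Ne.symm hdb, hba, Ne.symm hdc, hca, hda])
  simp only [List.map_cons, List.map_nil, List.cons.injEq, and_true] at hgmap
  obtain ⟨hgb, hgc, hgd, hge⟩ := hgmap
  have ht'N : g * t * g⁻¹ ∈ N := hnorm g hgF t ht
  have hu : g * t * g⁻¹ * t = 1 := by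
    apply hC _ (N.mul_mem ht'N ht) b (t • b) hbF hcF (Ne.symm hb)
    · rw [mul_smul, conj_smul_of_fix hgc, htc, hgb]
    · rw [mul_smul, htc, conj_smul_of_fix hgb, hgc]
  have ht' : g * t * g⁻¹ = t := by
    calc g * t * g⁻¹ = g * t * g⁻¹ * (t * t) := by rw [htt, mul_one]
      _ = (g * t * g⁻¹ * t) * t := (mul_assoc _ _ _).symm
      _ = t := by rw [hu, one_mul]
  apply hea
  rw [← hge, ← conj_smul_of_fix hgd, ht']

theorem jordan_aux [Fintype α] (hfaith : ∀ g : G, (∀ x : α, g • x = x) → g = 1) :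
    ∀ k : ℕ, 2 ≤ k → ∀ (F : List α) (N : Subgroup G), LTr (⊤ : Subgroup G) F k →
      F.length + k < Fintype.card α →
      (∀ g : G, (∀ f ∈ F, g • f = f) → ∀ n ∈ N, g * n * g⁻¹ ∈ N) →
      (∀ n ∈ N, ∀ f ∈ F, n • f = f) → (∃ n ∈ N, n ≠ 1) →
      LTr N F (k - 1) ∨ (k = 3 ∧ (∀ x ∈ N, ∀ y ∈ N, x * y = y * x) ∧ ∀ x ∈ N, x ^ 2 = 1) := by
  intro k hk
  induction k, hk using Nat.le_induction with
  | base =>
    intro F N hG hc hnorm hfix hN
    left
    exact ltr_one_of_two hfaith hG N hnorm hfix hN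
  | succ k hk ih =>
    intro F N hG hc hnorm hfix hN
    by_cases hFn : F.Nodup
    swap
    · left
      intro l l' _ _ hn _
      exact absurd (nodup_app.1 hn).1 hFn
    obtain ⟨a, ha⟩ := exists_notMem_list F (by omega)
    have hG2 : LTr (⊤ : Subgroup G) F 2 := LTr.mono (by omega) hG (by omega)
    have hN1 : LTr N F 1 := ltr_one_of_two hfaith hG2 N hnorm hfix hN
    have hG3 : LTr (⊤ : Subgroup G) F 3 := LTr.mono (by omega) hG (by omega)
    by_cases hN' : ∃ n ∈ N ⊓ stabilizer G a, n ≠ 1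
    · have hnorm' : ∀ g : G, (∀ f ∈ F ++ [a], g • f = f) →
          ∀ n ∈ N ⊓ stabilizer G a, g * n * g⁻¹ ∈ N ⊓ stabilizer G a := by
        intro g hg n hn
        have hga : g • a = a := hg a (by simp)
        refine Subgroup.mem_inf.2 ⟨hnorm g (fun f hf => hg f (by simp [hf])) n
          (Subgroup.mem_inf.1 hn).1, ?_⟩
        rw [mem_stabilizer_iff, conj_smul_of_fix hga,
          mem_stabilizer_iff.1 (Subgroup.mem_inf.1 hn).2, hga]
      have hfix' : ∀ n ∈ N ⊓ stabilizer G a, ∀ f ∈ F ++ [a], n • f = f := by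
        intro n hn f hf
        rcases List.mem_append.1 hf with hf | hf
        · exact hfix n hn.1 f hf
        · rw [List.mem_singleton] at hf; rw [hf]; exact mem_stabilizer_iff.1 hn.2
      rcases ih (F ++ [a]) (N ⊓ stabilizer G a) (hG.cons_fix a)
          (by simp only [List.length_append, List.length_cons, List.length_nil]; omega)
          hnorm' hfix' hN' with h | ⟨hk3, hcomm, hsq⟩
      · left
        have h' : LTr N (F ++ [a]) (k - 1) := h.subgroup_mono inf_le_left
        have h2 := LTr.up hN1 h' ha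
        have e : k + 1 - 1 = k - 1 + 1 := by omega
        rw [e]; exact h2
      · exfalso
        subst hk3
        have hG4 : LTr (⊤ : Subgroup G) F 4 := hG
        have hc4 : F.length + 4 < Fintype.card α := hc
        obtain ⟨n, hn, hn1⟩ := hN'
        exact jordan_four hfaith ha hFn hG4 hc4 N hnorm hfix hN1
          ⟨n, hn.1, mem_stabilizer_iff.1 hn.2, hn1⟩
          (fun x hx hxa y hy hya =>
            hcomm x ⟨hx, mem_stabilizer_iff.2 hxa⟩ y ⟨hy, mem_stabilizer_iff.2 hya⟩)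
          (fun x hx hxa => hsq x ⟨hx, mem_stabilizer_iff.2 hxa⟩)
    · have hreg : ∀ n ∈ N, n • a = a → n = 1 := by
        intro n hn hna
        by_contra h1
        exact hN' ⟨n, ⟨hn, mem_stabilizer_iff.2 hna⟩, h1⟩
      have hsq : ∀ x ∈ N, x ^ 2 = 1 := reg_sq ha hFn hG3 (by omega) N hnorm hfix hreg
      by_cases hk3 : k + 1 = 3
      · right
        refine ⟨hk3, ?_, hsq⟩
        intro x hx y hy
        have h1 := hsq x hx
        have h2 := hsq y hy
        have h3 := hsq (x * y) (N.mul_mem hx hy)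
        rw [pow_two] at h1 h2 h3
        calc x * y = x * (x * y * (x * y)) * y := by rw [h3, mul_one]
          _ = (x * x) * y * x * (y * y) := by group
          _ = y * x := by rw [h1, h2, one_mul, mul_one]
      · exfalso
        have hG4 : LTr (⊤ : Subgroup G) F 4 := LTr.mono (by omega) hG (by omega)
        exact reg_four ha hFn hG4 (by omega) N hnorm hfix hN1 hreg hsq

end Jordan

end Cfsg.Agent.Helper29
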