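import Mathlib
import Cfsg.Agent.Helper29.KTrans

set_option autoImplicit false

namespace Cfsg.Agent.Helper29

open MulAction

open scoped Pointwise

section KPrim

variable {G : Type*} [Group G] {α : Type*} [MulAction G α]

theorem block_trivial' (s : Set α)
    (hp : IsPreprimitive (fixingSubgroup G s) (SubMulAction.ofFixingSubgroup G s))
    (B : Set α) (hB : IsBlock (fixingSubgroup G s) B) (hBs : ∀ x ∈ B, x ∉ s) :
    B.Subsingleton ∨ ∀ x, x ∉ s → x ∈ B := by
  have h1 : IsBlock (fixingSubgroup G s)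
      (Subtype.val ⁻¹' B : Set (SubMulAction.ofFixingSubgroup G s)) :=
    hB.subtype_val_preimage
  rcases hp.isTrivialBlock_of_isBlock h1 with h | h
  · left
    intro x hx y hy
    have := @h ⟨x, hBs x hx⟩ hx ⟨y, hBs y hy⟩ hy
    exact congrArg Subtype.val this
  · right
    intro x hx
    have : (⟨x, hx⟩ : SubMulAction.ofFixingSubgroup G s) ∈
        (Subtype.val ⁻¹' B : Set (SubMulAction.ofFixingSubgroup G s)) := by rw [h]; trivial
    exact this

theorem prim_trans (hfaith : ∀ g : G, (∀ x : α, g • x = x) → g = 1) (s : Set α)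
    (hp : IsPreprimitive (fixingSubgroup G s) (SubMulAction.ofFixingSubgroup G s))
    (H : Subgroup G) [H.Normal] (h₀ : ∃ h ∈ H, h ≠ 1 ∧ ∀ f ∈ s, h • f = f) :
    ∀ x y : α, x ∉ s → y ∉ s → ∃ h ∈ H, (∀ f ∈ s, h • f = f) ∧ h • x = y := by
  obtain ⟨h, hH, h1, hs⟩ := h₀
  obtain ⟨z, hz⟩ : ∃ z : α, h • z ≠ z := by
    by_contra hc; push Not at hc; exact h1 (hfaith h hc)
  have hzs : z ∉ s := fun hzs => hz (hs z hzs)
  have hfp : fixedPoints (H.subgroupOf (fixingSubgroup G s))
      (SubMulAction.ofFixingSubgroup G s) ≠ Set.univ := by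
    intro heq
    have hmem : (⟨z, hzs⟩ : SubMulAction.ofFixingSubgroup G s) ∈
        fixedPoints (H.subgroupOf (fixingSubgroup G s)) (SubMulAction.ofFixingSubgroup G s) := by
      rw [heq]; trivial
    have h2 := hmem ⟨⟨h, (mem_fixingSubgroup_iff G).2 hs⟩, Subgroup.mem_subgroupOf.2 hH⟩
    exact hz (congrArg Subtype.val h2)
  have hpt : IsPretransitive (H.subgroupOf (fixingSubgroup G s))
      (SubMulAction.ofFixingSubgroup G s) :=
    IsQuasiPreprimitive.isPretransitive_of_normal hfp
  intro x y hx hy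
  obtain ⟨m, hm⟩ := hpt.exists_smul_eq (⟨x, hx⟩ : SubMulAction.ofFixingSubgroup G s) ⟨y, hy⟩
  exact ⟨((m : fixingSubgroup G s) : G), Subgroup.mem_subgroupOf.1 m.2,
    (mem_fixingSubgroup_iff G).1 (m : fixingSubgroup G s).2, congrArg Subtype.val hm⟩

theorem encard_setOf_mem {F : List α} (hF : F.Nodup) :
    ({x | x ∈ F} : Set α).encard = F.length := by
  classical
  have : ({x | x ∈ F} : Set α) = ↑F.toFinset := by ext x; simp
  rw [this, Set.encard_coe_eq_coe_finsetCard, List.toFinset_card_of_nodup hF]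

theorem prim_fix [Fintype α] {k : ℕ} (hG : IsMultiplyPreprimitive G α k)
    (hkn : k ≤ Fintype.card α) {F : List α} (hF : F.Nodup) (hlen : F.length + 1 ≤ k) :
    IsPreprimitive (fixingSubgroup G {x | x ∈ F})
      (SubMulAction.ofFixingSubgroup G {x | x ∈ F}) := by
  have h1 : IsMultiplyPreprimitive G α (F.length + 1) :=
    isMultiplyPreprimitive_of_le G α hG hlen
      (by rw [ENat.card_eq_coe_fintype_card]; exact_mod_cast hkn)
  exact IsMultiplyPreprimitive.isPreprimitive_ofFixingSubgroup G (F.length + 1)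
    (s := {x | x ∈ F}) (by rw [encard_setOf_mem hF]; rfl)

theorem ltr_fix_of [Fintype α] {k : ℕ} (hGk : LTr (⊤ : Subgroup G) ([] : List α) k)
    (hkn : k ≤ Fintype.card α) {F : List α} {j : ℕ} (hlen : F.length + j ≤ k) :
    LTr (⊤ : Subgroup G) F j :=
  LTr.of_nil (LTr.mono hlen hGk (by simpa using hkn))

/-- The pointwise stabiliser of a list of points. -/
def fixL (G : Type*) [Group G] {α : Type*} [MulAction G α] (F : List α) : Subgroup G :=
  fixingSubgroup G {x | x ∈ F}

theorem mem_fixL {F : List α} {g : G} : g ∈ fixL G F ↔ ∀ f ∈ F, g • f = f :=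
  mem_fixingSubgroup_iff G

theorem ltr_one_normal (hfaith : ∀ g : G, (∀ x : α, g • x = x) → g = 1) {F : List α}
    (hG : LTr (⊤ : Subgroup G) F 2) (H : Subgroup G) [hHn : H.Normal]
    (h₀ : ∃ h ∈ H, h ≠ 1 ∧ ∀ f ∈ F, h • f = f) : LTr H F 1 := by
  have h1 : LTr (H ⊓ fixL G F) F 1 := by
    apply ltr_one_of_two hfaith hG
    · intro g hg n hn
      refine Subgroup.mem_inf.2 ⟨hHn.conj_mem n (Subgroup.mem_inf.1 hn).1 g,
        mem_fixL.2 fun f hf => ?_⟩
      rw [mul_smul, mul_smul, inv_smul_eq_iff.2 (hg f hf).symm,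
        mem_fixL.1 (Subgroup.mem_inf.1 hn).2 f hf, hg f hf]
    · intro n hn f hf
      exact mem_fixL.1 (Subgroup.mem_inf.1 hn).2 f hf
    · obtain ⟨h, hh, h1, hF⟩ := h₀
      exact ⟨h, Subgroup.mem_inf.2 ⟨hh, mem_fixL.2 hF⟩, h1⟩
  exact h1.subgroup_mono inf_le_left

theorem three_point [Fintype α] (hfaith : ∀ g : G, (∀ x : α, g • x = x) → g = 1) {k : ℕ}
    (hkn : k ≤ Fintype.card α) (hG : IsMultiplyPreprimitive G α k)
    (hnt : ¬ IsMultiplyPretransitive G α (Fintype.card α - 1)) (H : Subgroup G) [hHn : H.Normal]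
    (F₁ : List α) (a b : α) (hFn : (F₁ ++ [a, b]).Nodup) (hlen : F₁.length + 3 ≤ k)
    (h₀ : ∃ h ∈ H, h ≠ 1 ∧ ∀ f ∈ F₁ ++ [a], h • f = f) :
    ∃ h ∈ H, h ≠ 1 ∧ ∀ f ∈ F₁ ++ [a, b], h • f = f := by
  by_contra hno
  have hno' : ∀ h ∈ H, (∀ f ∈ F₁, h • f = f) → h • a = a → h • b = b → h = 1 := by
    intro h hh hF ha hb
    by_contra h1
    exact hno ⟨h, hh, h1, by
      intro f hf
      simp only [List.mem_append, List.mem_cons, List.not_mem_nil, or_false] at hf
      rcases hf with hf | hf | hf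
      · exact hF f hf
      · rw [hf]; exact ha
      · rw [hf]; exact hb⟩
  have hGt : IsMultiplyPretransitive G α k := IsMultiplyPreprimitive.isMultiplyPretransitive G α k
  have hGk : LTr (⊤ : Subgroup G) ([] : List α) k := ltr_of_pretrans k hGt
  have hFn' := hFn
  rw [nodup_app] at hFn
  obtain ⟨hF₁n, hab', hFab⟩ := hFn
  have haF : a ∉ F₁ := hFab a (by simp)
  have hbF : b ∉ F₁ := hFab b (by simp)
  have hab : a ≠ b := by simpa using hab'
  have hG3 : LTr (⊤ : Subgroup G) F₁ 3 := ltr_fix_of hGk hkn hlen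
  have hG2 : LTr (⊤ : Subgroup G) F₁ 2 := ltr_fix_of hGk hkn (by omega)
  have hGa2 : LTr (⊤ : Subgroup G) (F₁ ++ [a]) 2 :=
    ltr_fix_of hGk hkn (by simp only [List.length_append, List.length_cons, List.length_nil]; omega)
  have hnt' : Fintype.card α - 1 ≤ k → False := fun h =>
    hnt (isMultiplyPretransitive_of_le (n := k) h (by simpa using hkn))
  have hpair : ∀ a' b' : α, a' ∉ F₁ → b' ∉ F₁ → a' ≠ b' → ∀ h ∈ H, (∀ f ∈ F₁, h • f = f) →
      h • a' = a' → h • b' = b' → h = 1 := by
    intro a' b' ha' hb' hab'' h hh hF h1 h2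
    obtain ⟨g, -, hgF, hgmap⟩ := hG2 [a', b'] [a, b] rfl rfl
      (by rw [nodup_app]; refine ⟨hF₁n, ?_, ?_⟩ <;> simp [ha', hb', hab''])
      (by rw [nodup_app]; refine ⟨hF₁n, ?_, ?_⟩ <;> simp [haF, hbF, hab])
    simp only [List.map_cons, List.map_nil, List.cons.injEq, and_true] at hgmap
    obtain ⟨hga, hgb⟩ := hgmap
    have hga' : g⁻¹ • a = a' := by rw [inv_smul_eq_iff, hga]
    have hgb' : g⁻¹ • b = b' := by rw [inv_smul_eq_iff, hgb]
    have h3 : g * h * g⁻¹ = 1 := by
      apply hno' _ (hHn.conj_mem h hh g)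
      · intro f hf
        rw [mul_smul, mul_smul, inv_smul_eq_iff.2 (hgF f hf).symm, hF f hf, hgF f hf]
      · rw [mul_smul, mul_smul, hga', h1, hga]
      · rw [mul_smul, mul_smul, hgb', h2, hgb]
    exact conj_eq_one_iff.1 h3
  have hHa1 : LTr H (F₁ ++ [a]) 1 := ltr_one_normal hfaith hGa2 H h₀
  by_cases hinv : ∃ t ∈ H, t ≠ 1 ∧ t ^ 2 = 1 ∧ ∀ f ∈ F₁ ++ [a], t • f = f
  · obtain ⟨t, ht, ht1, htt', htF⟩ := hinv
    have htt : t * t = 1 := by rw [← pow_two]; exact htt'
    have htF₁ : ∀ f ∈ F₁, t • f = f := fun f hf => htF f (by simp [hf])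
    have hta : t • a = a := htF a (by simp)
    obtain ⟨b', hb'⟩ : ∃ b' : α, t • b' ≠ b' := by
      by_contra hc; push Not at hc; exact ht1 (hfaith t hc)
    have hb'F : b' ∉ F₁ := fun h => hb' (htF₁ b' h)
    have hb'a : b' ≠ a := fun h => hb' (by rw [h]; exact hta)
    have hc'F : t • b' ∉ F₁ := notMem_of_fix htF₁ hb'F
    have hc'a : t • b' ≠ a := by
      intro h; apply hb'a; apply MulAction.injective t; show t • b' = t • a; rw [h, hta]
    have htc : t • t • b' = b' := by rw [← mul_smul, htt, one_smul]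
    by_cases hc : F₁.length + 3 < Fintype.card α
    · obtain ⟨d, hd⟩ := exists_notMem_list (F₁ ++ [a, b', t • b'])
        (by simp only [List.length_append, List.length_cons, List.length_nil]; omega)
      simp only [List.mem_append, List.mem_cons, List.not_mem_nil, or_false, not_or] at hd
      obtain ⟨hdF, hda, hdb, hdc⟩ := hd
      obtain ⟨g, -, hgF, hgmap⟩ := hG3 [b', t • b', d] [b', t • b', a] rfl rfl
        (by rw [nodup_app]; refine ⟨hF₁n, ?_, ?_⟩ <;>
          simp [hb'F, hc'F, hdF, Ne.symm hb', Ne.symm hdb, Ne.symm hdc])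
        (by rw [nodup_app]; refine ⟨hF₁n, ?_, ?_⟩ <;>
          simp [hb'F, hc'F, haF, Ne.symm hb', hb'a, hc'a])
      simp only [List.map_cons, List.map_nil, List.cons.injEq, and_true] at hgmap
      obtain ⟨hgb, hgc, hgd⟩ := hgmap
      have hu : g * t * g⁻¹ * t = 1 := by
        apply hpair b' (t • b') hb'F hc'F (Ne.symm hb') _ (H.mul_mem (hHn.conj_mem t ht g) ht)
        · intro f hf
          rw [mul_smul, htF₁ f hf, mul_smul, mul_smul, inv_smul_eq_iff.2 (hgF f hf).symm,
            htF₁ f hf, hgF f hf]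
        · rw [mul_smul, conj_smul_of_fix hgc, htc, hgb]
        · rw [mul_smul, htc, conj_smul_of_fix hgb, hgc]
      have ht' : g * t * g⁻¹ = t := by
        calc g * t * g⁻¹ = g * t * g⁻¹ * (t * t) := by rw [htt, mul_one]
          _ = (g * t * g⁻¹ * t) * t := (mul_assoc _ _ _).symm
          _ = t := by rw [hu, one_mul]
      have htd : t • d = d := by
        have h1 : (g * t * g⁻¹) • a = a := by rw [ht', hta]
        rw [mul_smul, mul_smul, inv_smul_eq_iff.2 hgd.symm] at h1
        apply MulAction.injective g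
        show g • t • d = g • d
        rw [h1, hgd]
      exact ht1 (hpair a d haF hdF (Ne.symm hda) t ht htF₁ hta htd)
    · exact hnt' (by omega)
  · have hinv' : ∀ t ∈ H, (∀ f ∈ F₁ ++ [a], t • f = f) → t ^ 2 = 1 → t = 1 := by
      intro t ht htF ht2
      by_contra ht1
      exact hinv ⟨t, ht, ht1, ht2, htF⟩
    obtain ⟨c, hc⟩ := exists_notMem_list (F₁ ++ [a, b])
      (by simp only [List.length_append, List.length_cons, List.length_nil]; omega)
    simp only [List.mem_append, List.mem_cons, List.not_mem_nil, or_false, not_or] at hc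
    obtain ⟨hcF, hca, hcb⟩ := hc
    have hnda : (F₁ ++ [a]).Nodup := by
      rw [nodup_app]; exact ⟨hF₁n, by simp, by simpa using haF⟩
    obtain ⟨h, hh, hhF, hhb⟩ := hHa1 [b] [c] rfl rfl
      (by rw [nodup_app]; exact ⟨hnda, by simp, by simp [hbF, Ne.symm hab]⟩)
      (by rw [nodup_app]; exact ⟨hnda, by simp, by simp [hcF, hca]⟩)
    simp only [List.map_cons, List.map_nil, List.cons.injEq, and_true] at hhb
    have hhF₁ : ∀ f ∈ F₁, h • f = f := fun f hf => hhF f (by simp [hf])
    have hha : h • a = a := hhF a (by simp)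
    have huniq : ∀ h₁ ∈ H, ∀ h₂ ∈ H, (∀ f ∈ F₁, h₁ • f = f) → (∀ f ∈ F₁, h₂ • f = f) →
        h₁ • a = a → h₂ • a = a → h₁ • b = h₂ • b → h₁ = h₂ := by
      intro h₁ hh₁ h₂ hh₂ hF1 hF2 ha1 ha2 hb12
      have : h₂⁻¹ * h₁ = 1 := by
        apply hno' _ (H.mul_mem (H.inv_mem hh₂) hh₁)
        · intro f hf; rw [mul_smul, hF1 f hf, inv_smul_eq_iff, hF2 f hf]
        · rw [mul_smul, ha1, inv_smul_eq_iff, ha2]
        · rw [mul_smul, hb12, inv_smul_smul]
      exact (inv_mul_eq_one.1 this).symm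
    have hh2 : h ^ 2 ≠ 1 := by
      intro h2
      have := hinv' h hh hhF h2
      rw [this, one_smul] at hhb
      exact hcb hhb.symm
    have hinvF₁ : ∀ f ∈ F₁, h⁻¹ • f = f := fun f hf => by rw [inv_smul_eq_iff, hhF₁ f hf]
    have hinva : h⁻¹ • a = a := by rw [inv_smul_eq_iff, hha]
    have hc'F : h⁻¹ • b ∉ F₁ := notMem_of_fix hinvF₁ hbF
    have hc'a : h⁻¹ • b ≠ a := by
      intro h1
      rw [inv_smul_eq_iff, hha] at h1
      exact hab h1.symm
    have hc'b : h⁻¹ • b ≠ b := by
      intro h1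
      rw [inv_smul_eq_iff, hhb] at h1
      exact hcb h1.symm
    have hc'c : h⁻¹ • b ≠ c := by
      intro h1
      apply hh2
      rw [pow_two]
      apply hno' _ (H.mul_mem hh hh)
      · intro f hf; rw [mul_smul, hhF₁ f hf, hhF₁ f hf]
      · rw [mul_smul, hha, hha]
      · rw [mul_smul, hhb, ← h1, smul_inv_smul]
    have hprim := prim_fix hG hkn (F := F₁ ++ [a, b]) hFn'
      (by simp only [List.length_append, List.length_cons, List.length_nil]; omega)
    have hB : IsBlock (fixingSubgroup G {x | x ∈ F₁ ++ [a, b]}) ({c, h⁻¹ • b} : Set α) := by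
      rw [isBlock_iff_smul_eq_of_mem]
      intro g x hx hgx
      have hg := (mem_fixingSubgroup_iff G).1 g.2
      have hgF : ∀ f ∈ F₁, (g : G) • f = f := fun f hf => hg f (by simp [hf])
      have hga : (g : G) • a = a := hg a (by simp)
      have hgb : (g : G) • b = b := hg b (by simp)
      have hcN : (g : G) * h * (g : G)⁻¹ ∈ H := hHn.conj_mem h hh g
      have hcF : ∀ f ∈ F₁, ((g : G) * h * (g : G)⁻¹) • f = f := by
        intro f hf
        rw [mul_smul, mul_smul, inv_smul_eq_iff.2 (hgF f hf).symm, hhF₁ f hf, hgF f hf]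
      have hca' : ((g : G) * h * (g : G)⁻¹) • a = a := by rw [conj_smul_of_fix hga, hha, hga]
      have hcb' : ((g : G) * h * (g : G)⁻¹) • b = (g : G) • c := by
        rw [conj_smul_of_fix hgb, hhb]
      have hcib : ((g : G) * h * (g : G)⁻¹)⁻¹ • b = (g : G) • h⁻¹ • b := by
        have : ((g : G) * h * (g : G)⁻¹)⁻¹ = (g : G) * h⁻¹ * (g : G)⁻¹ := by group
        rw [this, conj_smul_of_fix hgb]
      have hgB : g • ({c, h⁻¹ • b} : Set α) = {(g : G) • c, (g : G) • h⁻¹ • b} := by
        rw [Set.smul_set_insert, Set.smul_set_singleton]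
        rfl
      have hcase : (g : G) * h * (g : G)⁻¹ = h ∨ (g : G) * h * (g : G)⁻¹ = h⁻¹ := by
        rcases hx with hx | hx
        · rw [hx] at hgx
          rcases hgx with h1 | h1
          · left
            exact huniq _ hcN _ hh hcF hhF₁ hca' hha (by rw [hcb', hhb]; exact h1)
          · right
            exact huniq _ hcN _ (H.inv_mem hh) hcF hinvF₁ hca' hinva (by rw [hcb']; exact h1)
        · rw [hx] at hgx
          rcases hgx with h1 | h1
          · right
            have h2 : ((g : G) * h * (g : G)⁻¹)⁻¹ = h :=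
              huniq _ (H.inv_mem hcN) _ hh (fun f hf => by rw [inv_smul_eq_iff, hcF f hf]) hhF₁
                (by rw [inv_smul_eq_iff, hca']) hha (by rw [hcib, hhb]; exact h1)
            exact inv_eq_iff_eq_inv.1 h2
          · left
            have h2 : ((g : G) * h * (g : G)⁻¹)⁻¹ = h⁻¹ :=
              huniq _ (H.inv_mem hcN) _ (H.inv_mem hh)
                (fun f hf => by rw [inv_smul_eq_iff, hcF f hf]) hinvF₁
                (by rw [inv_smul_eq_iff, hca']) hinva (by rw [hcib]; exact h1)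
            exact inv_injective h2
      rw [hgB]
      rcases hcase with h1 | h1
      · have e1 : (g : G) • c = c := by rw [← hcb', h1, hhb]
        have e2 : (g : G) • h⁻¹ • b = h⁻¹ • b := by rw [← hcib, h1]
        rw [e1, e2]
      · have e1 : (g : G) • c = h⁻¹ • b := by rw [← hcb', h1]
        have e2 : (g : G) • h⁻¹ • b = c := by rw [← hcib, h1, inv_inv, hhb]
        rw [e1, e2, Set.pair_comm]
    rcases block_trivial' _ hprim _ hB (by
        intro x hx
        rcases hx with hx | hx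
        · rw [hx]; simp [hcF, hca, hcb]
        · rw [hx]; simp [hc'F, hc'a, hc'b]) with hsub | hall
    · exact hc'c (hsub (Set.mem_insert_of_mem _ rfl) (Set.mem_insert _ _))
    · apply hnt'
      have hall' : ∀ x : α, x ∈ F₁ ++ [a, b, c, h⁻¹ • b] := by
        intro x
        by_cases hx : x ∈ F₁ ++ [a, b]
        · simp only [List.mem_append, List.mem_cons, List.not_mem_nil, or_false] at hx ⊢
          tauto
        · have := hall x hx
          simp only [List.mem_append, List.mem_cons, List.not_mem_nil, or_false]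
          rcases this with h1 | h1
          · right; right; right; left; exact h1
          · right; right; right; right; exact h1
      have hcard : Fintype.card α ≤ F₁.length + 4 := by
        by_contra hlt
        obtain ⟨x, hx⟩ := exists_notMem_list (F₁ ++ [a, b, c, h⁻¹ • b])
          (by simp only [List.length_append, List.length_cons, List.length_nil]; omega)
        exact hx (hall' x)
      omega

theorem nonreg_all [Fintype α] (hfaith : ∀ g : G, (∀ x : α, g • x = x) → g = 1) {k : ℕ}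
    (hkn : k ≤ Fintype.card α) (hG : IsMultiplyPreprimitive G α k)
    (hnt : ¬ IsMultiplyPretransitive G α (Fintype.card α - 1)) (H : Subgroup G) [hHn : H.Normal]
    (hnr : ∃ a : α, ∃ h ∈ H, h ≠ 1 ∧ h • a = a) :
    ∀ n : ℕ, ∀ F : List α, F.length = n + 1 → F.Nodup → F.length + 1 ≤ k →
      ∃ h ∈ H, h ≠ 1 ∧ ∀ f ∈ F, h • f = f := by
  have hGt : IsMultiplyPretransitive G α k := IsMultiplyPreprimitive.isMultiplyPretransitive G α k
  have hGk : LTr (⊤ : Subgroup G) ([] : List α) k := ltr_of_pretrans k hGt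
  intro n
  induction n with
  | zero =>
    intro F hlen hFn hk
    obtain ⟨a', rfl⟩ := List.length_eq_one_iff.1 hlen
    obtain ⟨a, h, hh, h1, ha⟩ := hnr
    have hG1 : LTr (⊤ : Subgroup G) ([] : List α) 1 :=
      LTr.mono (by simp at hk; omega) hGk (by simpa using hkn)
    obtain ⟨g, -, -, hg⟩ := hG1 [a] [a'] rfl rfl (by simp) (by simp)
    simp only [List.map_cons, List.map_nil, List.cons.injEq, and_true] at hg
    refine ⟨g * h * g⁻¹, hHn.conj_mem h hh g, fun h2 => h1 (conj_eq_one_iff.1 h2), ?_⟩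
    intro f hf
    rw [List.mem_singleton] at hf
    rw [hf, mul_smul, mul_smul, inv_smul_eq_iff.2 hg.symm, ha, hg]
  | succ n ih =>
    intro F hlen hFn hk
    rcases List.eq_nil_or_concat F with rfl | ⟨F₀, b, rfl⟩
    · simp at hlen
    rw [List.concat_eq_append] at hlen hFn hk ⊢
    rcases List.eq_nil_or_concat F₀ with rfl | ⟨F₁, a, rfl⟩
    · simp at hlen
    rw [List.concat_eq_append] at hlen hFn hk ⊢
    have e : F₁ ++ [a] ++ [b] = F₁ ++ [a, b] := by simp
    rw [e] at hFn hk ⊢
    have hFn0 : (F₁ ++ [a]).Nodup := by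
      rw [nodup_app] at hFn ⊢
      exact ⟨hFn.1, by simp, fun z hz => hFn.2.2 z (by simp at hz; simp [hz])⟩
    have h₀ := ih (F₁ ++ [a]) (by simp at hlen ⊢; omega) hFn0 (by simp at hk ⊢; omega)
    exact three_point hfaith hkn hG hnt H F₁ a b hFn (by simp at hk; omega) h₀

theorem kprim_aux [Fintype α] (hfaith : ∀ g : G, (∀ x : α, g • x = x) → g = 1) (k : ℕ)
    (hkn : k ≤ Fintype.card α) (hG : IsMultiplyPreprimitive G α k)
    (hnt : ¬ IsMultiplyPretransitive G α (Fintype.card α - 1))
    (H : Subgroup G) [hHn : H.Normal] (hnr : ∃ a : α, ∃ h ∈ H, h ≠ 1 ∧ h • a = a) :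
    LTr H ([] : List α) k := by
  have key : ∀ j : ℕ, ∀ F : List α, F.Nodup → F.length + j = k → LTr H F j := by
    intro j
    induction j with
    | zero =>
      intro F _ _ l l' hl hl' _ _
      rw [List.length_eq_zero_iff] at hl hl'
      subst hl hl'
      exact ⟨1, H.one_mem, fun f _ => one_smul _ f, rfl⟩
    | succ j ih =>
      intro F hFn hlen
      obtain ⟨a, ha⟩ := exists_notMem_list F (by omega)
      have hFa : (F ++ [a]).Nodup := by
        rw [nodup_app]; exact ⟨hFn, by simp, by simpa using ha⟩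
      have h2 : LTr H (F ++ [a]) j := ih (F ++ [a]) hFa
        (by simp only [List.length_append, List.length_cons, List.length_nil]; omega)
      have h₀ : ∃ h ∈ H, h ≠ 1 ∧ ∀ f ∈ F, h • f = f := by
        rcases Nat.eq_zero_or_pos F.length with h0 | h0
        · rw [List.length_eq_zero_iff] at h0
          subst h0
          obtain ⟨a, h, hh, h1, -⟩ := hnr
          exact ⟨h, hh, h1, by simp⟩
        · exact nonreg_all hfaith hkn hG hnt H hnr (F.length - 1) F (by omega) hFn (by omega)
      have hprim := prim_fix hG hkn hFn (by omega)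
      have h1 : LTr H F 1 := by
        intro l l' hl hl' hn hn'
        obtain ⟨x, rfl⟩ := List.length_eq_one_iff.1 hl
        obtain ⟨y, rfl⟩ := List.length_eq_one_iff.1 hl'
        have hx : x ∉ F := (nodup_app.1 hn).2.2 x (by simp)
        have hy : y ∉ F := (nodup_app.1 hn').2.2 y (by simp)
        obtain ⟨h, hh, hF, hxy⟩ := prim_trans hfaith _ hprim H h₀ x y hx hy
        exact ⟨h, hh, hF, by simp [hxy]⟩
      exact LTr.up h1 h2 ha
  exact key k [] List.nodup_nil (by simp)

end KPrim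

end Cfsg.Agent.Helper29
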