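import Mathlib

set_option autoImplicit false

namespace Cfsg.Agent.Helper29

/-- `(Fin (m+1) → T) ≃* T × (Fin m → T)`. -/
def finSuccMulEquiv (m : ℕ) (T : Type*) [Mul T] : (Fin (m + 1) → T) ≃* T × (Fin m → T) where
  toFun f := (f 0, Fin.tail f)
  invFun p := Fin.cons p.1 p.2
  left_inv f := Fin.cons_self_tail f
  right_inv p := by
    ext <;> simp [Fin.tail]
  map_mul' f g := rfl

/-- Internal direct product of two disjoint normal subgroups. -/
theorem nonempty_sup_mulEquiv_prod {G : Type*} [Group G] (M K : Subgroup G) [hM : M.Normal]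
    [hK : K.Normal] (hd : Disjoint M K) : Nonempty (↥(M ⊔ K) ≃* M × K) := by
  have comm : ∀ (m : M) (k : K), Commute (M.subtype m) (K.subtype k) := fun m k =>
    Subgroup.commute_of_normal_of_disjoint M K hM hK hd m k m.2 k.2
  have hinj : Function.Injective (MonoidHom.noncommCoprod M.subtype K.subtype comm) :=
    (MonoidHom.noncommCoprod_injective _ _ comm).2
      ⟨M.subtype_injective, K.subtype_injective, by
        rw [Subgroup.range_subtype, Subgroup.range_subtype]
        exact hd⟩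
  have hrange : (MonoidHom.noncommCoprod M.subtype K.subtype comm).range = M ⊔ K := by
    rw [MonoidHom.noncommCoprod_range, Subgroup.range_subtype, Subgroup.range_subtype]
  exact ⟨(MulEquiv.subgroupCongr hrange.symm).trans (MonoidHom.ofInjective hinj).symm⟩

/-- A minimal normal subgroup `N` of a finite group is a direct power of a simple group, which
can be taken to be a normal subgroup of `N`. -/
theorem minNormal_structure {H : Type*} [Group H] [Finite H] (N : Subgroup H) [N.Normal]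
    (hN : N ≠ ⊥) (hmin : ∀ M : Subgroup H, M.Normal → M ≤ N → M = ⊥ ∨ M = N) :
    ∃ (T₀ : Subgroup N) (m : ℕ), T₀.Normal ∧ IsSimpleGroup T₀ ∧ 0 < m ∧
      Nonempty (N ≃* (Fin m → T₀)) := by
  classical
  have : Nontrivial N := (Subgroup.nontrivial_iff_ne_bot N).2 hN
  obtain ⟨φ, hφ⟩ : ∃ φ : H → (N ≃* N), ∀ h (x : N), ((φ h x : N) : H) = h * x * h⁻¹ :=
    ⟨fun h => MulAut.conjNormal h, fun h x => MulAut.conjNormal_apply h x⟩
  have hφmul : ∀ g h (x : N), φ g (φ h x) = φ (g * h) x := by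
    intro g h x
    apply Subtype.ext
    rw [hφ, hφ, hφ]
    group
  have hinv : ∀ M : Subgroup N, (∀ h : H, ∀ x ∈ M, φ h x ∈ M) → M = ⊥ ∨ M = ⊤ := by
    intro M hM
    have hnorm : (M.map N.subtype).Normal := by
      refine ⟨fun x hx h => ?_⟩
      obtain ⟨y, hy, rfl⟩ := Subgroup.mem_map.1 hx
      exact Subgroup.mem_map.2 ⟨φ h y, hM h y hy, hφ h y⟩
    rcases hmin _ hnorm (Subgroup.map_subtype_le M) with h | h
    · left
      exact (Subgroup.map_eq_bot_iff_of_injective M N.subtype_injective).1 h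
    · right
      rw [eq_top_iff]
      intro x _
      have hx : (x : H) ∈ M.map N.subtype := by
        rw [h]
        exact x.2
      obtain ⟨y, hy, hyx⟩ := Subgroup.mem_map.1 hx
      have hyx' : y = x := Subtype.ext hyx
      rw [← hyx']
      exact hy
  -- a normal subgroup of `N` of minimal order
  obtain ⟨T₀, ⟨hT₀n, hT₀ne⟩, hT₀min⟩ := Set.exists_min_image {K : Subgroup N | K.Normal ∧ K ≠ ⊥}
    (fun K => Nat.card K) (Set.toFinite _) ⟨⊤, ⟨fun _ _ _ => Subgroup.mem_top _⟩, top_ne_bot⟩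
  have hmin' : ∀ K : Subgroup N, K.Normal → K ≠ ⊥ → Nat.card T₀ ≤ Nat.card K :=
    fun K h1 h2 => hT₀min K ⟨h1, h2⟩
  obtain ⟨T, hTdef⟩ : ∃ T : H → Subgroup N, ∀ h, T h = T₀.map ((φ h : N ≃* N) : N →* N) :=
    ⟨_, fun _ => rfl⟩
  have hTn : ∀ h, (T h).Normal := fun h => by
    rw [hTdef]
    exact hT₀n.map _ (φ h).surjective
  have hTc : ∀ h, Nat.card (T h) = Nat.card T₀ := fun h => by
    rw [hTdef]
    exact Subgroup.card_map_of_injective (φ h).injective
  have hTmin : ∀ h (K : Subgroup N), K.Normal → K ≠ ⊥ → K ≤ T h → K = T h := by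
    intro h K hKn hKne hle
    exact Subgroup.eq_of_le_of_card_ge hle (by rw [hTc h]; exact hmin' K hKn hKne)
  have hTiso : ∀ h, Nonempty (T h ≃* T₀) := fun h =>
    ⟨(((φ h).subgroupMap T₀).trans (MulEquiv.subgroupCongr (hTdef h).symm)).symm⟩
  -- a maximal direct product of copies
  obtain ⟨M, ⟨hMn, m, ⟨e⟩⟩, hMmax⟩ := Set.exists_max_image
    {M : Subgroup N | M.Normal ∧ ∃ m : ℕ, Nonempty (M ≃* (Fin m → T₀))}
    (fun M => Nat.card M) (Set.toFinite _)
    ⟨T₀, hT₀n, 1, ⟨(MulEquiv.funUnique (Fin 1) T₀).symm⟩⟩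
  have hall : ∀ h, T h ≤ M := by
    intro h
    by_contra hnot
    have := hMn
    have := hTn h
    have hK : M ⊓ T h = ⊥ := by
      by_contra hK
      have h1 := hTmin h _ inferInstance hK inf_le_right
      apply hnot
      rw [← h1]
      exact inf_le_left
    have hd : Disjoint M (T h) := disjoint_iff.2 hK
    obtain ⟨e'⟩ := nonempty_sup_mulEquiv_prod M (T h) hd
    obtain ⟨e''⟩ := hTiso h
    have hgood : (M ⊔ T h) ∈ {M : Subgroup N | M.Normal ∧ ∃ m : ℕ, Nonempty (M ≃* (Fin m → T₀))} :=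
      ⟨inferInstance, m + 1, ⟨e'.trans ((MulEquiv.prodCongr e e'').trans
        (MulEquiv.prodComm.trans (finSuccMulEquiv m T₀).symm))⟩⟩
    have hc := hMmax _ hgood
    have heq := Subgroup.eq_of_le_of_card_ge (le_sup_left : M ≤ M ⊔ T h) hc
    apply hnot
    rw [heq]
    exact le_sup_right
  have hSinv : ∀ g : H, ∀ x ∈ ⨆ h, T h, φ g x ∈ ⨆ h, T h := by
    intro g
    have hle : (⨆ h, T h) ≤ (⨆ h, T h).comap ((φ g : N ≃* N) : N →* N) := by
      refine iSup_le fun h => ?_
      intro x hx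
      rw [hTdef] at hx
      obtain ⟨y, hy, rfl⟩ := Subgroup.mem_map.1 hx
      rw [Subgroup.mem_comap]
      have h3 : ((φ g : N ≃* N) : N →* N) (((φ h : N ≃* N) : N →* N) y) = φ (g * h) y :=
        hφmul g h y
      rw [h3]
      refine Subgroup.mem_iSup_of_mem (g * h) ?_
      rw [hTdef]
      exact Subgroup.mem_map_of_mem _ hy
    exact fun x hx => hle hx
  have hStop : (⨆ h, T h) = ⊤ := by
    rcases hinv _ hSinv with h0 | h1
    · exfalso
      have h2 : T 1 ≤ (⨆ h, T h) := le_iSup T 1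
      rw [h0, le_bot_iff] at h2
      have h3 : Nat.card (T 1) = Nat.card T₀ := hTc 1
      rw [h2, Subgroup.card_bot] at h3
      exact hT₀ne (Subgroup.card_eq_one.1 h3.symm)
    · exact h1
  have hMtop : M = ⊤ := by
    rw [eq_top_iff, ← hStop]
    exact iSup_le hall
  have e₁ : N ≃* (Fin m → T₀) :=
    Subgroup.topEquiv.symm.trans ((MulEquiv.subgroupCongr hMtop.symm).trans e)
  have hm : 0 < m := by
    rcases Nat.eq_zero_or_pos m with rfl | h
    · exfalso
      have : Subsingleton N := e₁.toEquiv.subsingleton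
      exact not_subsingleton N inferInstance
    · exact h
  have hsimple : IsSimpleGroup T₀ := by
    have : Nontrivial T₀ := (Subgroup.nontrivial_iff_ne_bot T₀).2 hT₀ne
    refine ⟨fun K hK => ?_⟩
    by_contra hcon
    push Not at hcon
    obtain ⟨hK0, hK1⟩ := hcon
    obtain ⟨i₀, -⟩ : ∃ i : Fin m, True := ⟨⟨0, hm⟩, trivial⟩
    have hnorm₁ : (K.map (MonoidHom.mulSingle (fun _ : Fin m => T₀) i₀)).Normal := by
      refine ⟨fun x hx g => ?_⟩
      obtain ⟨k, hk, rfl⟩ := Subgroup.mem_map.1 hx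
      refine Subgroup.mem_map.2 ⟨g i₀ * k * (g i₀)⁻¹, hK.conj_mem k hk (g i₀), ?_⟩
      funext i
      by_cases hi : i = i₀
      · subst hi
        simp
      · simp [Pi.mulSingle_eq_of_ne hi]
    have hnorm₂ : ((K.map (MonoidHom.mulSingle (fun _ : Fin m => T₀) i₀)).map
        e₁.symm.toMonoidHom).Normal := hnorm₁.map _ e₁.symm.surjective
    have hcard : Nat.card ((K.map (MonoidHom.mulSingle (fun _ : Fin m => T₀) i₀)).map
        e₁.symm.toMonoidHom) = Nat.card K := by
      rw [Subgroup.card_map_of_injective e₁.symm.injective,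
        Subgroup.card_map_of_injective (Pi.mulSingle_injective (M := fun _ : Fin m => ↥T₀) i₀)]
    have hne : ((K.map (MonoidHom.mulSingle (fun _ : Fin m => T₀) i₀)).map
        e₁.symm.toMonoidHom) ≠ ⊥ := by
      intro h
      rw [h, Subgroup.card_bot] at hcard
      exact hK0 (Subgroup.card_eq_one.1 hcard.symm)
    have h5 := hmin' _ hnorm₂ hne
    rw [hcard] at h5
    exact hK1 (Subgroup.eq_top_of_le_card K h5)
  exact ⟨T₀, m, hT₀n, hsimple, hm, ⟨e₁⟩⟩

end Cfsg.Agent.Helper29
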