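import Mathlib
import Cfsg.Agent.Helper17.CharP

set_option autoImplicit false

namespace Cfsg.Agent.Helper29

open scoped commutatorElement

section RankTwo

variable {X : Type*} [Group X]

/-- fiber counting: if `φ` separates the cosets of `W'` in `W`, then `|W| ≤ |β| * |W'|`. -/
theorem rt_card_le_of_fiber [Finite X] {β : Type*} [Finite β] (W W' : Subgroup X) (hle : W' ≤ W)
    (φ : ↥W → β) (hφ : ∀ y y' : ↥W, φ y = φ y' → (y : X)⁻¹ * (y' : X) ∈ W') :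
    Nat.card W ≤ Nat.card β * Nat.card W' := by
  have hinj : W'.relIndex W ≤ Nat.card β := by
    let ψ : (↥W ⧸ W'.subgroupOf W) → β := fun q => φ q.out
    have hψ : Function.Injective ψ := by
      intro q q' hq
      have h1 : ((q.out : ↥W) : X)⁻¹ * ((q'.out : ↥W) : X) ∈ W' := hφ _ _ hq
      have h2 : (QuotientGroup.mk q.out : ↥W ⧸ W'.subgroupOf W) = QuotientGroup.mk q'.out :=
        QuotientGroup.eq.2 (Subgroup.mem_subgroupOf.2 h1)
      have e1 : (QuotientGroup.mk q.out : ↥W ⧸ W'.subgroupOf W) = q := Quotient.out_eq' q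
      have e2 : (QuotientGroup.mk q'.out : ↥W ⧸ W'.subgroupOf W) = q' := Quotient.out_eq' q'
      rw [← e1, ← e2]; exact h2
    exact Nat.card_le_card_of_injective ψ hψ
  have e1 : Nat.card ↥W' * W'.relIndex W = Nat.card ↥W := by
    have := Subgroup.relIndex_mul_relIndex ⊥ W' W bot_le hle
    rwa [Subgroup.relIndex_bot_left, Subgroup.relIndex_bot_left] at this
  calc Nat.card ↥W = Nat.card ↥W' * W'.relIndex W := e1.symm
    _ ≤ Nat.card ↥W' * Nat.card β := Nat.mul_le_mul_left _ hinj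
    _ = Nat.card β * Nat.card ↥W' := Nat.mul_comm _ _

theorem rt_two_mul_card_le_of_lt [Finite X] {A B : Subgroup X} (h : A < B) :
    2 * Nat.card A ≤ Nat.card B := by
  obtain ⟨k, hk⟩ := Subgroup.card_dvd_of_le h.le
  have hB : 0 < Nat.card B := Nat.card_pos
  have hA : 0 < Nat.card A := Nat.card_pos
  have hk2 : 2 ≤ k := by
    by_contra hlt
    have hk1 : k = 0 ∨ k = 1 := by omega
    rcases hk1 with rfl | rfl
    · simp at hk; omega
    · have : A = B := Subgroup.eq_of_le_of_card_ge h.le (by rw [hk]; simp)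
      exact h.ne this
  calc 2 * Nat.card A = Nat.card A * 2 := Nat.mul_comm _ _
    _ ≤ Nat.card A * k := Nat.mul_le_mul_left _ hk2
    _ = Nat.card B := hk.symm

theorem rt_index_dvd_card_of_stabilizer_le {Γ Y : Type*} [Group Γ] [Finite Γ] [MulAction Γ Y]
    [Finite Y] (T : Subgroup Γ) (h : ∀ x : Y, MulAction.stabilizer Γ x ≤ T) :
    T.index ∣ Nat.card Y := by
  classical
  have e := MulAction.selfEquivSigmaOrbitsQuotientStabilizer Γ Y
  have : Finite (Quotient (MulAction.orbitRel Γ Y)) := Quotient.finite _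
  haveI := Fintype.ofFinite (Quotient (MulAction.orbitRel Γ Y))
  rw [Nat.card_congr e, Nat.card_sigma]
  apply Finset.dvd_sum
  intro ω _
  exact Subgroup.index_dvd_of_le (h _)

/-- a subgroup acting freely by conjugation on a set: its order divides the size of the set -/
theorem rt_card_dvd_of_free_conj [Finite X] (Z : Subgroup X) (S : Set X)
    (hinv : ∀ z ∈ Z, ∀ x ∈ S, z * x * z⁻¹ ∈ S)
    (hfree : ∀ z ∈ Z, ∀ x ∈ S, z * x * z⁻¹ = x → z = 1) :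
    Nat.card Z ∣ Nat.card S := by
  classical
  letI : MulAction ↥Z ↥S :=
    { smul := fun z x => ⟨(z : X) * (x : X) * (z : X)⁻¹, hinv z.1 z.2 x.1 x.2⟩
      one_smul := fun x => Subtype.ext (by
        show ((1 : ↥Z) : X) * (x : X) * ((1 : ↥Z) : X)⁻¹ = x
        simp)
      mul_smul := fun a b x => Subtype.ext (by
        show ((a * b : ↥Z) : X) * (x : X) * ((a * b : ↥Z) : X)⁻¹
          = (a : X) * ((b : X) * (x : X) * (b : X)⁻¹) * (a : X)⁻¹
        simp [mul_assoc]) }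
  have hst : ∀ x : ↥S, MulAction.stabilizer ↥Z x ≤ ⊥ := by
    intro x z hz
    have h1 : z • x = x := MulAction.mem_stabilizer_iff.1 hz
    have h2 : (z : X) * (x : X) * (z : X)⁻¹ = x := congrArg Subtype.val h1
    have h3 := hfree z.1 z.2 x.1 x.2 h2
    rw [Subgroup.mem_bot]
    exact Subtype.ext h3
  have := rt_index_dvd_card_of_stabilizer_le (⊥ : Subgroup ↥Z) hst
  rwa [Subgroup.index_bot] at this

theorem rt_mem_sup_zpowers (R : Subgroup X) (a : X) (hcomm : ∀ r ∈ R, a * r = r * a)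
    (hsq : a ^ 2 ∈ R) : ∀ y ∈ R ⊔ Subgroup.zpowers a, y ∈ R ∨ a⁻¹ * y ∈ R := by
  let T : Subgroup X :=
    { carrier := {y | y ∈ R ∨ a⁻¹ * y ∈ R}
      one_mem' := Or.inl R.one_mem
      mul_mem' := by
        rintro y y' (hy | hy) (hy' | hy')
        · exact Or.inl (R.mul_mem hy hy')
        · refine Or.inr ?_
          have h2 : a⁻¹ * y = y * a⁻¹ := (Commute.inv_left (show Commute a y from hcomm y hy)).eq
          have h1 : a⁻¹ * (y * y') = y * (a⁻¹ * y') := by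
            rw [← mul_assoc, h2, mul_assoc]
          rw [h1]; exact R.mul_mem hy hy'
        · refine Or.inr ?_
          have h1 : a⁻¹ * (y * y') = (a⁻¹ * y) * y' := by group
          rw [h1]; exact R.mul_mem hy hy'
        · refine Or.inl ?_
          have h2 : a * (a⁻¹ * y) = (a⁻¹ * y) * a := hcomm _ hy
          have h1 : y * y' = (a⁻¹ * y) * a ^ 2 * (a⁻¹ * y') := by
            calc y * y' = (a * (a⁻¹ * y)) * (a * (a⁻¹ * y')) := by group
              _ = ((a⁻¹ * y) * a) * (a * (a⁻¹ * y')) := by rw [h2]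
              _ = (a⁻¹ * y) * a ^ 2 * (a⁻¹ * y') := by group
          rw [h1]; exact R.mul_mem (R.mul_mem hy hsq) hy'
      inv_mem' := by
        rintro y (hy | hy)
        · exact Or.inl (R.inv_mem hy)
        · refine Or.inr ?_
          have h2 : a * (a⁻¹ * y) = (a⁻¹ * y) * a := hcomm _ hy
          have h3 : a⁻¹ * (a⁻¹ * y)⁻¹ = (a⁻¹ * y)⁻¹ * a⁻¹ :=
            (Commute.inv_inv (show Commute a (a⁻¹ * y) from h2)).eq
          have h1 : a⁻¹ * y⁻¹ = (a⁻¹ * y)⁻¹ * (a ^ 2)⁻¹ := by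
            calc a⁻¹ * y⁻¹ = (a⁻¹ * (a⁻¹ * y)⁻¹) * a⁻¹ := by group
              _ = ((a⁻¹ * y)⁻¹ * a⁻¹) * a⁻¹ := by rw [h3]
              _ = (a⁻¹ * y)⁻¹ * (a ^ 2)⁻¹ := by group
          rw [h1]; exact R.mul_mem (R.inv_mem hy) (R.inv_mem hsq) }
  intro y hy
  have hle : R ⊔ Subgroup.zpowers a ≤ T := by
    refine sup_le (fun r hr => Or.inl hr) ((Subgroup.zpowers_le).2 (Or.inr ?_))
    rw [inv_mul_cancel]; exact R.one_mem
  exact hle hy

theorem rt_comm_mul_right (a y y' : X) (h : Commute y ⁅a, y'⁆) :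
    ⁅a, y * y'⁆ = ⁅a, y⁆ * ⁅a, y'⁆ := by
  have h1 : ⁅a, y * y'⁆ = ⁅a, y⁆ * (y * ⁅a, y'⁆) * y⁻¹ := by
    simp only [commutatorElement_def]; group
  rw [h1, h.eq]; group

theorem rt_comm_inv_right (a y : X) (h : Commute y ⁅a, y⁆) : ⁅a, y⁻¹⁆ = ⁅a, y⁆⁻¹ := by
  have h1 : ⁅a, y⁻¹⁆ = y⁻¹ * (⁅a, y⁆⁻¹ * y) := by
    simp only [commutatorElement_def]; group
  rw [h1, ← h.inv_right.eq]; group

theorem rt_mul_sq (a b : X) (h : Commute a ⁅b, a⁆) :
    (a * b) ^ 2 = ⁅b, a⁆ * a ^ 2 * b ^ 2 := by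
  have h1 : (a * b) ^ 2 = (a * ⁅b, a⁆) * a * b * b := by
    simp only [commutatorElement_def, pow_two]; group
  rw [h1, h.eq]; simp only [pow_two]; group

theorem rt_comm_sq (x y : X) (h : Commute x ⁅x, y⁆) : ⁅x, y⁆ ^ 2 = ⁅x ^ 2, y⁆ := by
  have h1 : ⁅x ^ 2, y⁆ = (x * ⁅x, y⁆) * x⁻¹ * ⁅x, y⁆ := by
    simp only [commutatorElement_def, pow_two]; group
  rw [h1, h.eq, mul_inv_cancel_right, pow_two]

/-- the key selection step: an element of `W` outside `R` whose square lies in `Z₂` -/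
theorem rt_exists_sq_mem [Finite X] (H Z₁ Z₂ : Subgroup X)
    (hZcen : ∀ z ∈ Z₁, ∀ h ∈ H, z * h = h * z)
    (hidx : ∀ a ∈ Z₁, ∀ b ∈ Z₁, a ∉ Z₂ → b ∉ Z₂ → a * b ∈ Z₂)
    (hsq : ∀ x ∈ H, x ^ 2 ∈ Z₁)
    (hcomm : ∀ x ∈ H, ∀ y ∈ H, ⁅x, y⁆ ∈ Z₁)
    (W : Subgroup X) (hW : W ≤ H) (R : Set X) (hR : 4 * R.ncard < Nat.card W) :
    ∃ w ∈ W, w ∉ R ∧ w ^ 2 ∈ Z₂ := by
  classical
  have hWn : (W : Set X).ncard = Nat.card W := (Nat.card_coe_set_eq (W : Set X)).symm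
  obtain ⟨a, haW, haR⟩ : ∃ a, a ∈ (W : Set X) ∧ a ∉ R :=
    Set.exists_mem_notMem_of_ncard_lt_ncard (by rw [hWn]; omega) (Set.toFinite R)
  by_cases ha2 : a ^ 2 ∈ Z₂
  · exact ⟨a, haW, haR, ha2⟩
  have haH : a ∈ H := hW haW
  have hcc : ∀ x ∈ H, ∀ y ∈ H, ∀ h ∈ H, Commute h ⁅x, y⁆ := fun x hx y hy h hh =>
    (hZcen _ (hcomm x hx y hy) h hh).symm
  let C₁ : Subgroup X :=
    { carrier := {y | y ∈ W ∧ ⁅a, y⁆ ∈ Z₂}
      one_mem' := ⟨W.one_mem, by
        show ⁅a, (1 : X)⁆ ∈ Z₂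
        rw [commutatorElement_one_right]; exact Z₂.one_mem⟩
      mul_mem' := by
        rintro y y' ⟨hy, hy2⟩ ⟨hy', hy2'⟩
        refine ⟨W.mul_mem hy hy', ?_⟩
        show ⁅a, y * y'⁆ ∈ Z₂
        rw [rt_comm_mul_right a y y' (hcc a haH y' (hW hy') y (hW hy))]
        exact Z₂.mul_mem hy2 hy2'
      inv_mem' := by
        rintro y ⟨hy, hy2⟩
        refine ⟨W.inv_mem hy, ?_⟩
        show ⁅a, y⁻¹⁆ ∈ Z₂
        rw [rt_comm_inv_right a y (hcc a haH y (hW hy) y (hW hy))]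
        exact Z₂.inv_mem hy2 }
  have hC₁mem : ∀ y, y ∈ C₁ ↔ y ∈ W ∧ ⁅a, y⁆ ∈ Z₂ := fun y => Iff.rfl
  have hC₁W : C₁ ≤ W := fun y hy => ((hC₁mem y).1 hy).1
  have hcard1 : Nat.card W ≤ Nat.card Bool * Nat.card C₁ := by
    refine rt_card_le_of_fiber W C₁ hC₁W (fun y => decide (⁅a, (y : X)⁆ ∈ Z₂)) ?_
    intro y y' hyy
    have hiff : ⁅a, (y : X)⁆ ∈ Z₂ ↔ ⁅a, (y' : X)⁆ ∈ Z₂ := decide_eq_decide.1 hyy
    refine (hC₁mem _).2 ⟨W.mul_mem (W.inv_mem y.2) y'.2, ?_⟩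
    have e1 : ⁅a, (y : X)⁻¹ * (y' : X)⁆ = ⁅a, (y : X)⁆⁻¹ * ⁅a, (y' : X)⁆ := by
      rw [rt_comm_mul_right a _ _ (hcc a haH _ (hW y'.2) _ (H.inv_mem (hW y.2))),
        rt_comm_inv_right a _ (hcc a haH _ (hW y.2) _ (hW y.2))]
    rw [e1]
    by_cases h1 : ⁅a, (y : X)⁆ ∈ Z₂
    · exact Z₂.mul_mem (Z₂.inv_mem h1) (hiff.1 h1)
    · have h2 : ⁅a, (y' : X)⁆ ∉ Z₂ := fun h => h1 (hiff.2 h)
      exact hidx _ (Z₁.inv_mem (hcomm a haH _ (hW y.2))) _ (hcomm a haH _ (hW y'.2))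
        (fun h => h1 (by simpa using Z₂.inv_mem h)) h2
  have hbool : Nat.card Bool = 2 := by simp
  rw [hbool] at hcard1
  have hbad : (R ∪ (fun r => a⁻¹ * r) '' R).ncard ≤ 2 * R.ncard := by
    have h1 := Set.ncard_union_le R ((fun r => a⁻¹ * r) '' R)
    have h2 : ((fun r => a⁻¹ * r) '' R).ncard ≤ R.ncard := Set.ncard_image_le (Set.toFinite R)
    omega
  have hC₁n : (C₁ : Set X).ncard = Nat.card C₁ := (Nat.card_coe_set_eq (C₁ : Set X)).symm
  obtain ⟨b, hbC, hbbad⟩ : ∃ b, b ∈ (C₁ : Set X) ∧ b ∉ (R ∪ (fun r => a⁻¹ * r) '' R) :=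
    Set.exists_mem_notMem_of_ncard_lt_ncard (by rw [hC₁n]; omega) (Set.toFinite _)
  have hbW : b ∈ W := ((hC₁mem b).1 hbC).1
  have hbZ : ⁅a, b⁆ ∈ Z₂ := ((hC₁mem b).1 hbC).2
  have hbR : b ∉ R := fun h => hbbad (Or.inl h)
  have habR : a * b ∉ R := fun h => hbbad (Or.inr ⟨a * b, h, inv_mul_cancel_left a b⟩)
  by_cases hb2 : b ^ 2 ∈ Z₂
  · exact ⟨b, hbW, hbR, hb2⟩
  refine ⟨a * b, W.mul_mem haW hbW, habR, ?_⟩
  rw [rt_mul_sq a b (hcc b (hW hbW) a haH a haH), mul_assoc]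
  refine Z₂.mul_mem ?_ (hidx _ (hsq a haH) _ (hsq b (hW hbW)) ha2 hb2)
  rw [← commutatorElement_inv]
  exact Z₂.inv_mem hbZ

/-- In a group `H` with a central subgroup `C` of index at least `64` such that all squares and
commutators lie in a subgroup `Z₁ ≤ C` of exponent two and order at most `4`, there is an
elementary abelian subgroup of order at least `8`. -/
theorem rt_exists_ea8 [Finite X] (H C Z₁ : Subgroup X) (hCH : C ≤ H)
    (hcen : ∀ c ∈ C, ∀ h ∈ H, c * h = h * c) (hZC : Z₁ ≤ C) (hZ2 : ∀ z ∈ Z₁, z ^ 2 = 1)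
    (hsq : ∀ x ∈ H, x ^ 2 ∈ Z₁) (hcomm : ∀ x ∈ H, ∀ y ∈ H, ⁅x, y⁆ ∈ Z₁)
    (hcard : 64 * Nat.card C ≤ Nat.card H) (hZ4 : Nat.card Z₁ ≤ 4) :
    ∃ E : Subgroup X, E ≤ H ∧ (∀ a ∈ E, ∀ b ∈ E, a * b = b * a) ∧ (∀ a ∈ E, a ^ 2 = 1) ∧
      8 ≤ Nat.card E := by
  classical
  have hCpos : 0 < Nat.card C := Nat.card_pos
  by_cases hZ1 : Z₁ = ⊥
  · refine ⟨H, le_rfl, fun a ha b hb => ?_, fun a ha => ?_, by omega⟩
    · have := hcomm a ha b hb
      rw [hZ1, Subgroup.mem_bot] at this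
      exact commutatorElement_eq_one_iff_mul_comm.1 this
    · have := hsq a ha
      rwa [hZ1, Subgroup.mem_bot] at this
  haveI : Fact (Nat.Prime 2) := ⟨Nat.prime_two⟩
  have hZp : IsPGroup 2 ↥Z₁ := by
    intro z
    refine ⟨1, ?_⟩
    apply Subtype.ext
    have := hZ2 z.1 z.2
    simpa using this
  obtain ⟨k, hk⟩ := IsPGroup.iff_card.1 hZp
  have hk1 : 1 ≤ k := by
    by_contra h0
    have : k = 0 := by omega
    rw [this, pow_zero] at hk
    exact hZ1 (Subgroup.card_eq_one.1 hk)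
  obtain ⟨K, hK⟩ := Sylow.exists_subgroup_card_pow_prime 2 (G := ↥Z₁) (n := k - 1)
    (by rw [hk]; exact pow_dvd_pow 2 (by omega))
  have hKidx : K.index = 2 := by
    have h1 := K.card_mul_index
    rw [hK, hk] at h1
    have h2 : (2:ℕ) ^ k = 2 ^ (k - 1) * 2 := by
      rw [← pow_succ]; congr 1; omega
    rw [h2] at h1
    exact Nat.eq_of_mul_eq_mul_left (by positivity) h1
  obtain ⟨Z₂, hZ₂def⟩ : ∃ Z₂ : Subgroup X, Z₂ = K.map Z₁.subtype := ⟨_, rfl⟩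
  have hZ₂Z₁ : Z₂ ≤ Z₁ := by rw [hZ₂def]; exact Subgroup.map_subtype_le K
  have hmemZ₂ : ∀ (a : X) (ha : a ∈ Z₁), a ∈ Z₂ ↔ (⟨a, ha⟩ : ↥Z₁) ∈ K := by
    intro a ha
    rw [hZ₂def]
    constructor
    · rintro ⟨y, hy, hya⟩
      have : y = ⟨a, ha⟩ := Subtype.ext hya
      rwa [← this]
    · intro h
      exact ⟨⟨a, ha⟩, h, rfl⟩
  have hidx : ∀ a ∈ Z₁, ∀ b ∈ Z₁, a ∉ Z₂ → b ∉ Z₂ → a * b ∈ Z₂ := by
    intro a ha b hb ha2 hb2
    rw [hmemZ₂ _ (Z₁.mul_mem ha hb)]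
    rw [hmemZ₂ a ha] at ha2
    rw [hmemZ₂ b hb] at hb2
    exact (Subgroup.mul_mem_iff_of_index_two hKidx (a := ⟨a, ha⟩) (b := ⟨b, hb⟩)).2
      ⟨fun h => absurd h ha2, fun h => absurd h hb2⟩
  have hZ₂card : 2 * Nat.card Z₂ = Nat.card Z₁ := by
    have h1 : Nat.card Z₂ = Nat.card K := by
      rw [hZ₂def]; exact Subgroup.card_map_of_injective Z₁.subtype_injective
    have h2 := K.card_mul_index
    rw [hKidx] at h2
    omega
  have hZ₂pos : 0 < Nat.card Z₂ := Nat.card_pos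
  have hZ₁H : Z₁ ≤ H := hZC.trans hCH
  have hZcen : ∀ z ∈ Z₁, ∀ h ∈ H, z * h = h * z := fun z hz h hh => hcen z (hZC hz) h hh
  have hCn : (C : Set X).ncard = Nat.card C := (Nat.card_coe_set_eq (C : Set X)).symm
  obtain ⟨x₁, hx₁H, hx₁C, hx₁2⟩ := rt_exists_sq_mem H Z₁ Z₂ hZcen hidx hsq hcomm H le_rfl
    (C : Set X) (by rw [hCn]; omega)
  have hx₁C' : x₁ ∉ C := hx₁C
  obtain ⟨W, hWdef⟩ : ∃ W : Subgroup X, W = H ⊓ Subgroup.centralizer {x₁} := ⟨_, rfl⟩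
  have hWH : W ≤ H := by rw [hWdef]; exact inf_le_left
  have hWx : ∀ y ∈ W, x₁ * y = y * x₁ := by
    intro y hy
    rw [hWdef] at hy
    exact (Subgroup.mem_centralizer_iff.1 (Subgroup.mem_inf.1 hy).2) x₁ (Set.mem_singleton x₁)
  have hcc : ∀ x ∈ H, ∀ y ∈ H, ∀ h ∈ H, Commute h ⁅x, y⁆ := fun x hx y hy h hh =>
    (hZcen _ (hcomm x hx y hy) h hh).symm
  have hHW : Nat.card H ≤ Nat.card Z₁ * Nat.card W := by
    refine rt_card_le_of_fiber H W hWH
      (fun y => (⟨⁅x₁, (y : X)⁆, hcomm x₁ hx₁H y y.2⟩ : ↥Z₁)) ?_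
    intro y y' hyy
    have h0 : ⁅x₁, (y : X)⁆ = ⁅x₁, (y' : X)⁆ := congrArg Subtype.val hyy
    have e1 : ⁅x₁, (y : X)⁻¹ * (y' : X)⁆ = ⁅x₁, (y : X)⁆⁻¹ * ⁅x₁, (y' : X)⁆ := by
      rw [rt_comm_mul_right x₁ _ _ (hcc x₁ hx₁H _ y'.2 _ (H.inv_mem y.2)),
        rt_comm_inv_right x₁ _ (hcc x₁ hx₁H _ y.2 _ y.2)]
    rw [h0, inv_mul_cancel] at e1
    have e2 : x₁ * ((y : X)⁻¹ * (y' : X)) = (y : X)⁻¹ * (y' : X) * x₁ :=
      commutatorElement_eq_one_iff_mul_comm.1 e1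
    rw [hWdef]
    refine Subgroup.mem_inf.2 ⟨H.mul_mem (H.inv_mem y.2) y'.2, ?_⟩
    refine Subgroup.mem_centralizer_iff.2 fun h hh => ?_
    rw [Set.mem_singleton_iff.1 hh]; exact e2
  have hZ4' : Nat.card H ≤ 4 * Nat.card W := le_trans hHW (Nat.mul_le_mul_right _ hZ4)
  have hRn : ((C : Set X) ∪ (fun c => x₁ * c) '' (C : Set X)).ncard ≤ 2 * Nat.card C := by
    have h1 := Set.ncard_union_le (C : Set X) ((fun c => x₁ * c) '' (C : Set X))
    have h2 : ((fun c => x₁ * c) '' (C : Set X)).ncard ≤ (C : Set X).ncard :=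
      Set.ncard_image_le (Set.toFinite _)
    omega
  obtain ⟨w, hwW, hwR, hw2⟩ := rt_exists_sq_mem H Z₁ Z₂ hZcen hidx hsq hcomm W hWH
    ((C : Set X) ∪ (fun c => x₁ * c) '' (C : Set X)) (by omega)
  have hwH : w ∈ H := hWH hwW
  have hwC : w ∉ C := fun h => hwR (Or.inl h)
  have hwC' : x₁⁻¹ * w ∉ C := fun h => hwR (Or.inr ⟨x₁⁻¹ * w, h, mul_inv_cancel_left x₁ w⟩)
  have hxw : x₁ * w = w * x₁ := hWx w hwW
  -- the abelian subgroup `T`
  obtain ⟨S₀, hS₀def⟩ : ∃ S₀ : Set X, S₀ = {s | s ∈ Z₁ ∨ s = x₁ ∨ s = w} := ⟨_, rfl⟩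
  have hS₀mem : ∀ s, s ∈ S₀ ↔ s ∈ Z₁ ∨ s = x₁ ∨ s = w := by
    intro s; rw [hS₀def]; exact Iff.rfl
  have hS₀H : ∀ s ∈ S₀, s ∈ H := by
    intro s hs
    rcases (hS₀mem s).1 hs with hs | hs | hs
    · exact hZ₁H hs
    · rw [hs]; exact hx₁H
    · rw [hs]; exact hwH
  have hS₀c : ∀ s ∈ S₀, ∀ s' ∈ S₀, s * s' = s' * s := by
    intro s hs s' hs'
    rcases (hS₀mem s).1 hs with hs1 | hs1 | hs1
    · exact hZcen s hs1 s' (hS₀H s' hs')
    · rcases (hS₀mem s').1 hs' with hs2 | hs2 | hs2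
      · exact (hZcen s' hs2 s (hS₀H s hs)).symm
      · rw [hs1, hs2]
      · rw [hs1, hs2]; exact hxw
    · rcases (hS₀mem s').1 hs' with hs2 | hs2 | hs2
      · exact (hZcen s' hs2 s (hS₀H s hs)).symm
      · rw [hs1, hs2]; exact hxw.symm
      · rw [hs1, hs2]
  obtain ⟨T, hTdef⟩ : ∃ T : Subgroup X, T = Subgroup.closure S₀ := ⟨_, rfl⟩
  have hTH : T ≤ H := by rw [hTdef]; exact (Subgroup.closure_le H).2 hS₀H
  have hTc : ∀ t ∈ T, ∀ t' ∈ T, t * t' = t' * t := by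
    have h1 : T ≤ Subgroup.centralizer S₀ := by
      rw [hTdef]
      refine (Subgroup.closure_le _).2 fun s hs => ?_
      exact Subgroup.mem_centralizer_iff.2 fun s' hs' => hS₀c s' hs' s hs
    have h2 : T ≤ Subgroup.centralizer (T : Set X) := by
      intro t ht
      have ht' : t ∈ Subgroup.closure S₀ := by rw [← hTdef]; exact ht
      refine (Subgroup.closure_le (Subgroup.centralizer (T : Set X))).2 (fun s hs => ?_) ht'
      refine Subgroup.mem_centralizer_iff.2 fun t ht => ?_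
      exact ((Subgroup.mem_centralizer_iff.1 (h1 ht)) s hs).symm
    intro t ht t' ht'
    exact ((Subgroup.mem_centralizer_iff.1 (h2 ht')) t ht)
  have hTsq : ∀ t ∈ T, t ^ 2 ∈ Z₂ := by
    intro t ht
    have ht' : t ∈ Subgroup.closure S₀ := by rw [← hTdef]; exact ht
    refine Subgroup.closure_induction (p := fun t _ => t ^ 2 ∈ Z₂) ?_ ?_ ?_ ?_ ht'
    · intro s hs
      rcases (hS₀mem s).1 hs with hs | hs | hs
      · rw [hZ2 s hs]; exact Z₂.one_mem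
      · rw [hs]; exact hx₁2
      · rw [hs]; exact hw2
    · rw [one_pow]; exact Z₂.one_mem
    · intro a b ha hb iha ihb
      have haT : a ∈ T := by rw [hTdef]; exact ha
      have hbT : b ∈ T := by rw [hTdef]; exact hb
      rw [(show Commute a b from hTc a haT b hbT).mul_pow]
      exact Z₂.mul_mem iha ihb
    · intro a ha iha
      rw [inv_pow]; exact Z₂.inv_mem iha
  have hZ₁T : Z₁ ≤ T := by
    intro z hz
    rw [hTdef]; exact Subgroup.subset_closure ((hS₀mem z).2 (Or.inl hz))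
  have hx₁T : x₁ ∈ T := by
    rw [hTdef]; exact Subgroup.subset_closure ((hS₀mem x₁).2 (Or.inr (Or.inl rfl)))
  have hwT : w ∈ T := by
    rw [hTdef]; exact Subgroup.subset_closure ((hS₀mem w).2 (Or.inr (Or.inr rfl)))
  have hlt1 : Z₁ < Z₁ ⊔ Subgroup.zpowers x₁ := by
    refine lt_of_le_of_ne le_sup_left fun h => hx₁C' (hZC ?_)
    have h1 : x₁ ∈ Z₁ ⊔ Subgroup.zpowers x₁ := Subgroup.mem_sup_right (Subgroup.mem_zpowers x₁)
    rw [← h] at h1; exact h1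
  have hsup : ∀ y ∈ C ⊔ Subgroup.zpowers x₁, y ∈ C ∨ x₁⁻¹ * y ∈ C :=
    rt_mem_sup_zpowers C x₁ (fun r hr => (hcen r hr x₁ hx₁H).symm) (hZC (hZ₂Z₁ hx₁2))
  have hlt2 : Z₁ ⊔ Subgroup.zpowers x₁ < T := by
    refine lt_of_le_of_ne (sup_le hZ₁T ((Subgroup.zpowers_le).2 hx₁T)) fun h => ?_
    have h1 : w ∈ Z₁ ⊔ Subgroup.zpowers x₁ := by rw [h]; exact hwT
    have h2 : w ∈ C ⊔ Subgroup.zpowers x₁ := (sup_le_sup_right hZC _) h1
    rcases hsup w h2 with h3 | h3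
    · exact hwC h3
    · exact hwC' h3
  have hc1 := rt_two_mul_card_le_of_lt hlt1
  have hc2 := rt_two_mul_card_le_of_lt hlt2
  let E : Subgroup X :=
    { carrier := {t | t ∈ T ∧ t ^ 2 = 1}
      one_mem' := ⟨T.one_mem, one_pow 2⟩
      mul_mem' := by
        rintro a b ⟨ha, ha2⟩ ⟨hb, hb2⟩
        refine ⟨T.mul_mem ha hb, ?_⟩
        show (a * b) ^ 2 = 1
        rw [(show Commute a b from hTc a ha b hb).mul_pow, ha2, hb2, one_mul]
      inv_mem' := by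
        rintro a ⟨ha, ha2⟩
        refine ⟨T.inv_mem ha, ?_⟩
        show a⁻¹ ^ 2 = 1
        rw [inv_pow, ha2, inv_one] }
  have hEmem : ∀ t, t ∈ E ↔ t ∈ T ∧ t ^ 2 = 1 := fun t => Iff.rfl
  have hET : E ≤ T := fun t ht => ((hEmem t).1 ht).1
  have hTE : Nat.card T ≤ Nat.card Z₂ * Nat.card E := by
    refine rt_card_le_of_fiber T E hET (fun t => (⟨(t : X) ^ 2, hTsq t t.2⟩ : ↥Z₂)) ?_
    intro t t' htt
    have h0 : (t : X) ^ 2 = (t' : X) ^ 2 := congrArg Subtype.val htt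
    refine (hEmem _).2 ⟨T.mul_mem (T.inv_mem t.2) t'.2, ?_⟩
    rw [(show Commute (t : X)⁻¹ (t' : X) from hTc _ (T.inv_mem t.2) _ t'.2).mul_pow, inv_pow, h0,
      inv_mul_cancel]
  refine ⟨E, hET.trans hTH, fun a ha b hb => hTc a ((hEmem a).1 ha).1 b ((hEmem b).1 hb).1,
    fun a ha => ((hEmem a).1 ha).2, ?_⟩
  have h8 : 8 * Nat.card Z₂ ≤ Nat.card Z₂ * Nat.card E := by omega
  by_contra hlt
  have h7 : Nat.card E ≤ 7 := by omega
  have : Nat.card Z₂ * Nat.card E ≤ Nat.card Z₂ * 7 := Nat.mul_le_mul_left _ h7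
  omega

/-- an element `g` with `g ^ 9 = 1` normalizing a `2`-group whose elementary abelian subgroups
have order at most `4`: `g ^ 3` centralizes the `2`-group. -/
theorem rt_nine_centralizes [Finite X] (g : X) (hg : g ^ 9 = 1) (P : Subgroup X)
    (hP : IsPGroup 2 P) (hgP : ∀ x ∈ P, g * x * g⁻¹ ∈ P)
    (hrank : ∀ V : Subgroup X, V ≤ P → (∀ a ∈ V, ∀ b ∈ V, a * b = b * a) →
      (∀ a ∈ V, a ^ 2 = 1) → Nat.card V ≤ 4) :
    ∀ x ∈ P, g ^ 3 * x = x * g ^ 3 := by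
  classical
  by_contra hcon
  push Not at hcon
  obtain ⟨e, he⟩ : ∃ e : X, e = g ^ 3 := ⟨_, rfl⟩
  rw [← he] at hcon
  have he3 : e ^ 3 = 1 := by rw [he, ← pow_mul]; exact hg
  have hge : Commute g e := by rw [he]; exact (Commute.refl g).pow_right 3
  have hcop : (orderOf e).Coprime 2 :=
    Nat.Coprime.coprime_dvd_left (orderOf_dvd_of_pow_eq_one he3) (by norm_num)
  haveI : Fact (Nat.Prime 2) := ⟨Nat.prime_two⟩
  obtain ⟨H, ⟨hHP, hHg, hHe⟩, hmin⟩ := Set.exists_min_image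
    {H : Subgroup X | H ≤ P ∧ (∀ x ∈ H, g * x * g⁻¹ ∈ H) ∧ ∃ x ∈ H, e * x ≠ x * e}
    (fun H => Nat.card H) (Set.toFinite _) ⟨P, le_rfl, hgP, hcon⟩
  have hmin' : ∀ K : Subgroup X, K ≤ H → (∀ x ∈ K, g * x * g⁻¹ ∈ K) → K ≠ H →
      ∀ x ∈ K, e * x = x * e := by
    intro K hKH hKg hKne
    by_contra hK
    push Not at hK
    have h1 := hmin K ⟨hKH.trans hHP, hKg, hK⟩
    exact hKne (Subgroup.eq_of_le_of_card_ge hKH h1)
  have hH2 : IsPGroup 2 H := hP.to_le hHP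
  have hpow : ∀ (k : ℕ), ∀ x ∈ H, g ^ k * x * (g ^ k)⁻¹ ∈ H := by
    intro k
    induction k with
    | zero => intro x hx; simpa using hx
    | succ k ih =>
      intro x hx
      have h1 : g ^ (k + 1) * x * (g ^ (k + 1))⁻¹ = g ^ k * (g * x * g⁻¹) * (g ^ k)⁻¹ := by
        rw [pow_succ]; group
      rw [h1]; exact ih _ (hHg x hx)
  have hHe1 : ∀ x ∈ H, e * x * e⁻¹ ∈ H := by
    intro x hx; rw [he]; exact hpow 3 x hx
  have hgN : g ∈ Subgroup.normalizer (H : Set X) := by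
    rw [Subgroup.mem_normalizer_iff]
    intro x
    constructor
    · exact hHg x
    · intro hx
      have h1 := hpow 8 _ hx
      have h2 : g ^ 8 * (g * x * g⁻¹) * (g ^ 8)⁻¹ = g ^ 9 * x * (g ^ 9)⁻¹ := by group
      rw [h2, hg] at h1
      simpa using h1
  have hHne : H ≠ ⊥ := by
    intro hbot
    obtain ⟨x, hx, hxe⟩ := hHe
    rw [hbot, Subgroup.mem_bot] at hx
    rw [hx] at hxe
    simp at hxe
  obtain ⟨na, hna⟩ := IsPGroup.iff_card.1 hH2
  have hna1 : 1 ≤ na := by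
    by_contra h0
    have : na = 0 := by omega
    rw [this, pow_zero] at hna
    exact hHne (Subgroup.card_eq_one.1 hna)
  obtain ⟨M, hM⟩ := Sylow.exists_subgroup_card_pow_prime 2 (G := ↥H) (n := na - 1)
    (by rw [hna]; exact pow_dvd_pow 2 (by omega))
  have hMidx : M.index = 2 := by
    have h1 := M.card_mul_index
    rw [hM, hna] at h1
    have h2 : (2:ℕ) ^ na = 2 ^ (na - 1) * 2 := by
      rw [← pow_succ]; congr 1; omega
    rw [h2] at h1
    exact Nat.eq_of_mul_eq_mul_left (by positivity) h1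
  -- the subgroup generated by squares
  obtain ⟨K, hKdef⟩ : ∃ K : Subgroup X, K = Subgroup.closure {y | ∃ x ∈ H, y = x ^ 2} :=
    ⟨_, rfl⟩
  have hKH : K ≤ H := by
    rw [hKdef]
    refine (Subgroup.closure_le H).2 ?_
    rintro y ⟨x, hx, rfl⟩
    exact H.pow_mem hx 2
  have hsqK : ∀ x ∈ H, x ^ 2 ∈ K := fun x hx => by
    rw [hKdef]; exact Subgroup.subset_closure ⟨x, hx, rfl⟩
  have hKg : ∀ x ∈ K, g * x * g⁻¹ ∈ K := by
    intro x hx
    have hx' : x ∈ Subgroup.closure {y | ∃ x ∈ H, y = x ^ 2} := by rw [← hKdef]; exact hx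
    refine Subgroup.closure_induction (p := fun x _ => g * x * g⁻¹ ∈ K) ?_ ?_ ?_ ?_ hx'
    · rintro y ⟨x, hx, rfl⟩
      have : g * x ^ 2 * g⁻¹ = (g * x * g⁻¹) ^ 2 := by rw [conj_pow]
      rw [this]; exact hsqK _ (hHg x hx)
    · simp [K.one_mem]
    · intro a b _ _ ha hb
      have : g * (a * b) * g⁻¹ = (g * a * g⁻¹) * (g * b * g⁻¹) := by group
      rw [this]; exact K.mul_mem ha hb
    · intro a _ ha
      have : g * a⁻¹ * g⁻¹ = (g * a * g⁻¹)⁻¹ := by group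
      rw [this]; exact K.inv_mem ha
  have hKne : K ≠ H := by
    intro hKH'
    have h1 : K ≤ M.map H.subtype := by
      rw [hKdef]
      refine (Subgroup.closure_le _).2 ?_
      rintro y ⟨x, hx, rfl⟩
      exact ⟨(⟨x, hx⟩ : ↥H) ^ 2, Subgroup.sq_mem_of_index_two hMidx _, by simp⟩
    have h2 : Nat.card H ≤ Nat.card (M.map H.subtype) := by
      rw [hKH'] at h1; exact Subgroup.card_le_of_le h1
    rw [Subgroup.card_map_of_injective H.subtype_injective, hM, hna] at h2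
    have : (2:ℕ) ^ (na - 1) < 2 ^ na := Nat.pow_lt_pow_right (by norm_num) (by omega)
    omega
  have hKe : ∀ x ∈ K, e * x = x * e := hmin' K hKH hKg hKne
  -- the commutator subgroup with `e`
  have hgenH : ∀ h ∈ H, h * e * h⁻¹ * e⁻¹ ∈ H := by
    intro h hh
    have : h * e * h⁻¹ * e⁻¹ = h * (e * h⁻¹ * e⁻¹) := by group
    rw [this]; exact H.mul_mem hh (hHe1 _ (H.inv_mem hh))
  obtain ⟨L, hLdef⟩ : ∃ L : Subgroup X,
      L = Subgroup.closure {u | ∃ h ∈ H, u = h * e * h⁻¹ * e⁻¹} := ⟨_, rfl⟩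
  have hLH : L ≤ H := by
    rw [hLdef]
    refine (Subgroup.closure_le H).2 ?_
    rintro u ⟨h, hh, rfl⟩
    exact hgenH h hh
  have hLgen : ∀ h ∈ H, h * e * h⁻¹ * e⁻¹ ∈ L := fun h hh => by
    rw [hLdef]; exact Subgroup.subset_closure ⟨h, hh, rfl⟩
  have hLg : ∀ x ∈ L, g * x * g⁻¹ ∈ L := by
    intro x hx
    have hx' : x ∈ Subgroup.closure {u | ∃ h ∈ H, u = h * e * h⁻¹ * e⁻¹} := by
      rw [← hLdef]; exact hx
    refine Subgroup.closure_induction (p := fun x _ => g * x * g⁻¹ ∈ L) ?_ ?_ ?_ ?_ hx'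
    · rintro u ⟨h, hh, rfl⟩
      have : g * (h * e * h⁻¹ * e⁻¹) * g⁻¹ = (g * h * g⁻¹) * e * (g * h * g⁻¹)⁻¹ * e⁻¹ := by
        rw [he]; group
      rw [this]; exact hLgen _ (hHg h hh)
    · simp [L.one_mem]
    · intro a b _ _ ha hb
      have : g * (a * b) * g⁻¹ = (g * a * g⁻¹) * (g * b * g⁻¹) := by group
      rw [this]; exact L.mul_mem ha hb
    · intro a _ ha
      have : g * a⁻¹ * g⁻¹ = (g * a * g⁻¹)⁻¹ := by group
      rw [this]; exact L.inv_mem ha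
  have hLeq : L = H := by
    by_contra hne
    have hLe := hmin' L hLH hLg hne
    obtain ⟨x, hx, hxe⟩ := hHe
    apply hxe
    have hu : x * e * x⁻¹ * e⁻¹ ∈ L := hLgen x hx
    have h1 : Commute (x * e * x⁻¹ * e⁻¹) e := (hLe _ hu).symm
    exact (Cfsg.Agent.Helper17.comm_of_coprime_comm (p := 2) e x hcop h1
      (Cfsg.Agent.Helper17.isPGroup_mem_pow hH2 (hLH hu))).symm
  -- induction principle over the generators of `H = L`
  have hind : ∀ (p : X → Prop), (∀ h ∈ H, p (h * e * h⁻¹ * e⁻¹)) → p 1 →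
      (∀ a ∈ H, ∀ b ∈ H, p a → p b → p (a * b)) → (∀ a ∈ H, p a → p a⁻¹) → ∀ x ∈ H, p x := by
    intro p hgen h1 hmul hinv x hx
    have hx' : x ∈ Subgroup.closure {u | ∃ h ∈ H, u = h * e * h⁻¹ * e⁻¹} := by
      rw [← hLdef, hLeq]; exact hx
    refine Subgroup.closure_induction (p := fun x _ => p x) ?_ h1 ?_ ?_ hx'
    · rintro u ⟨h, hh, rfl⟩
      exact hgen h hh
    · intro a b ha hb iha ihb
      exact hmul a (hLH (by rw [hLdef]; exact ha)) b (hLH (by rw [hLdef]; exact hb)) iha ihb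
    · intro a ha iha
      exact hinv a (hLH (by rw [hLdef]; exact ha)) iha
  have hcommK : ∀ x ∈ H, ∀ y ∈ H, ⁅x, y⁆ ∈ K := by
    intro x hx y hy
    have : ⁅x, y⁆ = (x * y) ^ 2 * (y⁻¹ * x⁻¹ * y) ^ 2 * (y⁻¹) ^ 2 := by
      rw [commutatorElement_def]; simp only [pow_two]; group
    rw [this]
    exact K.mul_mem (K.mul_mem (hsqK _ (H.mul_mem hx hy))
      (hsqK _ (H.mul_mem (H.mul_mem (H.inv_mem hy) (H.inv_mem hx)) hy))) (hsqK _ (H.inv_mem hy))
  have hKnorm : ∀ k ∈ K, ∀ h ∈ H, h⁻¹ * k * h ∈ K := by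
    intro k hk h hh
    have : h⁻¹ * k * h = k * ⁅k⁻¹, h⁻¹⁆ := by rw [commutatorElement_def]; group
    rw [this]
    exact K.mul_mem hk (hcommK _ (H.inv_mem (hKH hk)) _ (H.inv_mem hh))
  have hKcen : ∀ k ∈ K, ∀ h ∈ H, Commute h k := by
    intro k hk
    refine hind (fun y => Commute y k) ?_ (Commute.one_left k) ?_ ?_
    · intro h hh
      have h1 : e⁻¹ * k = k * e⁻¹ := (Commute.inv_left (show Commute e k from hKe k hk)).eq
      have h2 : e * (h⁻¹ * k * h) = (h⁻¹ * k * h) * e := hKe _ (hKnorm k hk h hh)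
      show (h * e * h⁻¹ * e⁻¹) * k = k * (h * e * h⁻¹ * e⁻¹)
      calc (h * e * h⁻¹ * e⁻¹) * k = h * e * h⁻¹ * (e⁻¹ * k) := by group
        _ = h * e * h⁻¹ * (k * e⁻¹) := by rw [h1]
        _ = h * (e * (h⁻¹ * k * h)) * h⁻¹ * e⁻¹ := by group
        _ = h * ((h⁻¹ * k * h) * e) * h⁻¹ * e⁻¹ := by rw [h2]
        _ = k * (h * e * h⁻¹ * e⁻¹) := by group
    · intro a _ b _ ha hb
      exact ha.mul_left hb
    · intro a _ ha
      exact ha.inv_left
  -- the centralizer of `e` in `H`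
  obtain ⟨C, hCdef⟩ : ∃ C : Subgroup X, C = H ⊓ Subgroup.centralizer {e} := ⟨_, rfl⟩
  have hCmem : ∀ c, c ∈ C ↔ c ∈ H ∧ e * c = c * e := by
    intro c
    rw [hCdef, Subgroup.mem_inf, Subgroup.mem_centralizer_iff]
    constructor
    · rintro ⟨h1, h2⟩; exact ⟨h1, h2 e (Set.mem_singleton e)⟩
    · rintro ⟨h1, h2⟩
      exact ⟨h1, fun h hh => by rw [Set.mem_singleton_iff.1 hh]; exact h2⟩
  have hCH : C ≤ H := fun c hc => ((hCmem c).1 hc).1
  have hCcen : ∀ c ∈ C, ∀ h ∈ H, c * h = h * c := by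
    intro c hc
    obtain ⟨hcH, hce⟩ := (hCmem c).1 hc
    refine hind (fun y => Commute c y) ?_ (Commute.one_right c) ?_ ?_
    · intro h hh
      have hk : ⁅c, h⁆ ∈ K := hcommK c hcH h hh
      have hkh : c * h * c⁻¹ = ⁅c, h⁆ * h := by rw [commutatorElement_def]; group
      have e1 : c * e * c⁻¹ = e := by rw [← hce]; group
      have e2 : e * ⁅c, h⁆⁻¹ * e⁻¹ = ⁅c, h⁆⁻¹ := by
        have := (Commute.inv_right (show Commute e ⁅c, h⁆ from hKe _ hk)).eq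
        rw [this]; group
      have e3 : ⁅c, h⁆ * (h * e * h⁻¹ * e⁻¹) * ⁅c, h⁆⁻¹ = h * e * h⁻¹ * e⁻¹ := by
        have := (hKcen _ hk _ (hgenH h hh)).eq
        rw [← this]; group
      have key : c * (h * e * h⁻¹ * e⁻¹) * c⁻¹ = h * e * h⁻¹ * e⁻¹ := by
        calc c * (h * e * h⁻¹ * e⁻¹) * c⁻¹
            = (c * h * c⁻¹) * (c * e * c⁻¹) * (c * h * c⁻¹)⁻¹ * (c * e * c⁻¹)⁻¹ := by group
          _ = (c * h * c⁻¹) * e * (c * h * c⁻¹)⁻¹ * e⁻¹ := by rw [e1]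
          _ = (⁅c, h⁆ * h) * e * (⁅c, h⁆ * h)⁻¹ * e⁻¹ := by rw [hkh]
          _ = ⁅c, h⁆ * (h * e * h⁻¹ * e⁻¹) * (e * ⁅c, h⁆⁻¹ * e⁻¹) := by group
          _ = ⁅c, h⁆ * (h * e * h⁻¹ * e⁻¹) * ⁅c, h⁆⁻¹ := by rw [e2]
          _ = h * e * h⁻¹ * e⁻¹ := e3
      exact mul_inv_eq_iff_eq_mul.1 key
    · intro a _ b _ ha hb
      exact ha.mul_right hb
    · intro a _ ha
      exact ha.inv_right
  have hcomm2 : ∀ x ∈ H, ∀ y ∈ H, ⁅x, y⁆ ^ 2 = 1 := by
    intro x hx y hy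
    have hc : Commute x ⁅x, y⁆ := hKcen _ (hcommK x hx y hy) x hx
    rw [rt_comm_sq x y hc]
    exact commutatorElement_eq_one_iff_mul_comm.2 (hKcen _ (hsqK x hx) y hy).eq.symm
  have hsq4 : ∀ x ∈ H, (x ^ 2) ^ 2 = 1 := by
    refine hind (fun y => (y ^ 2) ^ 2 = 1) ?_ (by simp) ?_ ?_
    · intro h hh
      have hh' : e * h⁻¹ * e⁻¹ ∈ H := hHe1 _ (H.inv_mem hh)
      have hu : h * e * h⁻¹ * e⁻¹ = h * (e * h⁻¹ * e⁻¹) := by group
      have h'sq : (e * h⁻¹ * e⁻¹) ^ 2 = (h ^ 2)⁻¹ := by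
        rw [conj_pow, hKe _ (hsqK _ (H.inv_mem hh)), inv_pow]; group
      have hc : Commute h ⁅e * h⁻¹ * e⁻¹, h⁆ := hKcen _ (hcommK _ hh' h hh) h hh
      show ((h * e * h⁻¹ * e⁻¹) ^ 2) ^ 2 = 1
      rw [hu, rt_mul_sq h _ hc, h'sq, mul_inv_cancel_right]
      exact hcomm2 _ hh' h hh
    · intro a haH b hbH ha hb
      have hc : Commute a ⁅b, a⁆ := hKcen _ (hcommK b hbH a haH) a haH
      have hc1 : Commute ⁅b, a⁆ (a ^ 2) := hKcen _ (hsqK a haH) _ (hKH (hcommK b hbH a haH))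
      have hc2 : Commute (⁅b, a⁆ * a ^ 2) (b ^ 2) :=
        hKcen _ (hsqK b hbH) _ (H.mul_mem (hKH (hcommK b hbH a haH)) (H.pow_mem haH 2))
      show ((a * b) ^ 2) ^ 2 = 1
      rw [rt_mul_sq a b hc, hc2.mul_pow, hc1.mul_pow, hcomm2 b hbH a haH]
      have ha' : (a ^ 2) ^ 2 = 1 := ha
      have hb' : (b ^ 2) ^ 2 = 1 := hb
      rw [ha', hb']
      simp
    · intro a _ ha
      have ha' : (a ^ 2) ^ 2 = 1 := ha
      show ((a⁻¹) ^ 2) ^ 2 = 1
      rw [inv_pow, inv_pow, ha', inv_one]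
  let Z₁ : Subgroup X :=
    { carrier := {c | c ∈ C ∧ c ^ 2 = 1}
      one_mem' := ⟨C.one_mem, one_pow 2⟩
      mul_mem' := by
        rintro a b ⟨ha, ha2⟩ ⟨hb, hb2⟩
        refine ⟨C.mul_mem ha hb, ?_⟩
        show (a * b) ^ 2 = 1
        rw [(show Commute a b from hCcen a ha b (hCH hb)).mul_pow, ha2, hb2, one_mul]
      inv_mem' := by
        rintro a ⟨ha, ha2⟩
        refine ⟨C.inv_mem ha, ?_⟩
        show a⁻¹ ^ 2 = 1
        rw [inv_pow, ha2, inv_one] }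
  have hZmem : ∀ z, z ∈ Z₁ ↔ z ∈ C ∧ z ^ 2 = 1 := fun z => Iff.rfl
  have hZC : Z₁ ≤ C := fun z hz => ((hZmem z).1 hz).1
  have hZ2 : ∀ z ∈ Z₁, z ^ 2 = 1 := fun z hz => ((hZmem z).1 hz).2
  have hKC : K ≤ C := fun k hk => (hCmem k).2 ⟨hKH hk, hKe k hk⟩
  have hsqZ : ∀ x ∈ H, x ^ 2 ∈ Z₁ := fun x hx => (hZmem _).2 ⟨hKC (hsqK x hx), hsq4 x hx⟩
  have hcommZ : ∀ x ∈ H, ∀ y ∈ H, ⁅x, y⁆ ∈ Z₁ := fun x hx y hy =>
    (hZmem _).2 ⟨hKC (hcommK x hx y hy), hcomm2 x hx y hy⟩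
  have hZ4 : Nat.card Z₁ ≤ 4 :=
    hrank Z₁ ((hZC.trans hCH).trans hHP) (fun a ha b hb => hCcen a (hZC ha) b (hCH (hZC hb))) hZ2
  -- counting modulo 9
  have hcard : 64 * Nat.card C ≤ Nat.card H := by
    have hgo : orderOf g = 9 := by
      have h9 : orderOf g ∣ 9 := orderOf_dvd_of_pow_eq_one hg
      have h3 : ¬ orderOf g ∣ 3 := by
        intro h
        have h3' : g ^ 3 = 1 := orderOf_dvd_iff_pow_eq_one.1 h
        obtain ⟨x, hx, hxe⟩ := hHe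
        apply hxe
        rw [he, h3']; simp
      have hle : orderOf g ≤ 9 := Nat.le_of_dvd (by norm_num) h9
      have hpos : 0 < orderOf g := orderOf_pos g
      obtain ⟨m, hm⟩ : ∃ m, m = orderOf g := ⟨_, rfl⟩
      rw [← hm] at h9 h3 hle hpos ⊢
      interval_cases m <;> omega
    have hZcard : Nat.card (Subgroup.zpowers g) = 9 := by rw [Nat.card_zpowers, hgo]
    have hzN : Subgroup.zpowers g ≤ Subgroup.normalizer (H : Set X) :=
      (Subgroup.zpowers_le).2 hgN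
    have hzC : ∀ z ∈ Subgroup.zpowers g, Commute e z := by
      intro z hz
      obtain ⟨j, rfl⟩ := Subgroup.mem_zpowers_iff.1 hz
      exact (hge.symm).zpow_right j
    have hdvd : Nat.card (Subgroup.zpowers g) ∣
        Nat.card ({x | x ∈ H ∧ ¬ (e * x = x * e)} : Set X) := by
      refine rt_card_dvd_of_free_conj (Subgroup.zpowers g) _ ?_ ?_
      · rintro z hz x ⟨hxH, hxe⟩
        refine ⟨(Subgroup.mem_normalizer_iff.1 (hzN hz) x).1 hxH, fun h => hxe ?_⟩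
        have hez := hzC z hz
        have h1 : Commute e (z⁻¹ * (z * x * z⁻¹) * z) :=
          ((hez.inv_right).mul_right h).mul_right hez
        have h2 : z⁻¹ * (z * x * z⁻¹) * z = x := by group
        rw [h2] at h1
        exact h1
      · rintro z hz x ⟨hxH, hxe⟩ hzx
        by_contra hz1
        apply hxe
        obtain ⟨j, rfl⟩ := Subgroup.mem_zpowers_iff.1 hz
        have h9 : g ^ (9 : ℤ) = 1 := by exact_mod_cast hg
        have hj : g ^ j = g ^ (j % 9) := zpow_eq_zpow_emod j h9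
        obtain ⟨k, hk⟩ := Int.eq_ofNat_of_zero_le (Int.emod_nonneg j (by norm_num : (9:ℤ) ≠ 0))
        have hk9 : k < 9 := by
          have := Int.emod_lt_of_pos j (by norm_num : (0:ℤ) < 9)
          omega
        rw [hk, zpow_natCast] at hj
        rw [hj] at hz1 hzx
        have hcz : Commute (g ^ k) x := mul_inv_eq_iff_eq_mul.1 hzx
        have hex : ∃ m, (g ^ k) ^ m = e := by
          rw [he]
          interval_cases k
          · exact absurd (pow_zero g) hz1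
          · exact ⟨3, by rw [← pow_mul]⟩
          · exact ⟨6, by rw [← pow_mul]; exact pow_eq_pow_mod _ hg⟩
          · exact ⟨1, by rw [← pow_mul]⟩
          · exact ⟨3, by rw [← pow_mul]; exact pow_eq_pow_mod _ hg⟩
          · exact ⟨6, by rw [← pow_mul]; exact pow_eq_pow_mod _ hg⟩
          · exact ⟨2, by rw [← pow_mul]; exact pow_eq_pow_mod _ hg⟩
          · exact ⟨3, by rw [← pow_mul]; exact pow_eq_pow_mod _ hg⟩
          · exact ⟨6, by rw [← pow_mul]; exact pow_eq_pow_mod _ hg⟩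
        obtain ⟨m, hm⟩ := hex
        rw [← hm]
        exact (hcz.pow_left m).eq
    have hHCS : Nat.card H = Nat.card C +
        Nat.card ({x | x ∈ H ∧ ¬ (e * x = x * e)} : Set X) := by
      have h1 : (H : Set X) = (C : Set X) ∪ {x | x ∈ H ∧ ¬ (e * x = x * e)} := by
        ext x
        constructor
        · intro hx
          by_cases hxe : e * x = x * e
          · exact Or.inl ((hCmem x).2 ⟨hx, hxe⟩)
          · exact Or.inr ⟨hx, hxe⟩
        · rintro (hx | hx)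
          · exact ((hCmem x).1 hx).1
          · exact hx.1
      have h2 : Disjoint (C : Set X) {x | x ∈ H ∧ ¬ (e * x = x * e)} := by
        rw [Set.disjoint_left]
        intro x hx hxS
        exact hxS.2 ((hCmem x).1 hx).2
      have h3 := Set.ncard_union_eq h2 (Set.toFinite _) (Set.toFinite _)
      rw [← h1] at h3
      exact h3
    have hSpos : 0 < Nat.card ({x | x ∈ H ∧ ¬ (e * x = x * e)} : Set X) := by
      obtain ⟨x, hx, hxe⟩ := hHe
      haveI : Nonempty ↥({x | x ∈ H ∧ ¬ (e * x = x * e)} : Set X) := ⟨⟨x, hx, hxe⟩⟩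
      exact Nat.card_pos
    obtain ⟨nc, hnc⟩ := IsPGroup.iff_card.1 (hH2.to_le hCH)
    obtain ⟨s, hs⟩ := hdvd
    rw [hZcard] at hs
    rw [hna, hnc, hs] at hHCS
    rw [hs] at hSpos
    rw [hna, hnc]
    have hca : nc < na := by
      by_contra hle
      have : 2 ^ na ≤ 2 ^ nc := Nat.pow_le_pow_right (by norm_num) (by omega)
      omega
    obtain ⟨m, hm⟩ : ∃ m, na = nc + m := ⟨na - nc, by omega⟩
    have hm1 : 1 ≤ m := by omega
    rw [hm, pow_add] at hHCS ⊢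
    have h9 : 9 ∣ 2 ^ nc * (2 ^ m - 1) := by
      refine ⟨s, ?_⟩
      have : 1 ≤ 2 ^ m := Nat.one_le_two_pow
      rw [Nat.mul_sub, mul_one]; omega
    have h9' : 9 ∣ 2 ^ m - 1 := by
      refine Nat.Coprime.dvd_of_dvd_mul_left ?_ h9
      exact Nat.Coprime.pow_right nc (by norm_num)
    have hm6 : 6 ≤ m := by
      by_contra hlt
      have hm5 : m ≤ 5 := by omega
      interval_cases m <;> norm_num at h9'
    calc 64 * 2 ^ nc = 2 ^ nc * 2 ^ 6 := by ring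
      _ ≤ 2 ^ nc * 2 ^ m := Nat.mul_le_mul_left _ (Nat.pow_le_pow_right (by norm_num) hm6)
  obtain ⟨E, hEH, hEc, hE2, hE8⟩ := rt_exists_ea8 H C Z₁ hCH hCcen hZC hZ2 hsqZ hcommZ hcard hZ4
  have := hrank E (hEH.trans hHP) hEc hE2
  omega

end RankTwo

end Cfsg.Agent.Helper29
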