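import Mathlib

set_option autoImplicit false

namespace Cfsg.Agent.Helper29.Steiner

variable {α : Type*} [Fintype α] [DecidableEq α]

omit [Fintype α] in
theorem st_triple_card {x y z : α} (hxy : x ≠ y) (hzx : z ≠ x) (hzy : z ≠ y) :
    ({x, y, z} : Finset α).card = 3 := by
  rw [Finset.card_insert_of_notMem, Finset.card_insert_of_notMem, Finset.card_singleton]
  · simpa using hzy.symm
  · simp [hxy, hzx.symm]

/-- Any two distinct points lie in exactly five blocks. -/
theorem st_pair (Bf : Finset (Finset α)) (h6 : ∀ b ∈ Bf, b.card = 6)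
    (h3 : ∀ s : Finset α, s.card = 3 → ∃! b, b ∈ Bf ∧ s ⊆ b)
    (hα : Fintype.card α = 22) (x y : α) (hxy : x ≠ y) :
    (Bf.filter (fun d => x ∈ d ∧ y ∈ d)).card = 5 := by
  set P := Bf.filter (fun d => x ∈ d ∧ y ∈ d) with hP
  have hdisj : (P : Set (Finset α)).PairwiseDisjoint (fun d => d \ {x, y}) := by
    intro d hd d' hd' hne
    show Disjoint (d \ {x, y}) (d' \ {x, y})
    rw [Finset.disjoint_left]
    intro z hz hz'
    apply hne
    have hd1 := Finset.mem_filter.mp (Finset.mem_coe.mp hd)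
    have hd1' := Finset.mem_filter.mp (Finset.mem_coe.mp hd')
    rw [Finset.mem_sdiff] at hz hz'
    have hzx : z ≠ x := by intro h; apply hz.2; simp [h]
    have hzy : z ≠ y := by intro h; apply hz.2; simp [h]
    obtain ⟨e, -, he⟩ := h3 _ (st_triple_card hxy hzx hzy)
    have h1 : d = e := he d ⟨hd1.1, by
      intro w hw
      simp only [Finset.mem_insert, Finset.mem_singleton] at hw
      rcases hw with rfl | rfl | rfl
      exacts [hd1.2.1, hd1.2.2, hz.1]⟩
    have h2 : d' = e := he d' ⟨hd1'.1, by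
      intro w hw
      simp only [Finset.mem_insert, Finset.mem_singleton] at hw
      rcases hw with rfl | rfl | rfl
      exacts [hd1'.2.1, hd1'.2.2, hz'.1]⟩
    rw [h1, h2]
  have hunion : P.biUnion (fun d => d \ {x, y}) = Finset.univ \ {x, y} := by
    ext z
    simp only [Finset.mem_biUnion, Finset.mem_sdiff, Finset.mem_univ, true_and]
    constructor
    · rintro ⟨d, -, -, hz⟩
      exact hz
    · intro hz
      have hzx : z ≠ x := by intro h; apply hz; simp [h]
      have hzy : z ≠ y := by intro h; apply hz; simp [h]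
      obtain ⟨e, ⟨heB, hsub⟩, -⟩ := h3 _ (st_triple_card hxy hzx hzy)
      refine ⟨e, ?_, hsub (by simp), hz⟩
      rw [hP, Finset.mem_filter]
      exact ⟨heB, hsub (by simp), hsub (by simp)⟩
  have hcount := Finset.card_biUnion hdisj
  rw [hunion] at hcount
  have hterm : ∀ d ∈ P, (d \ {x, y}).card = 4 := by
    intro d hd
    have hd1 := Finset.mem_filter.mp hd
    rw [Finset.card_sdiff_of_subset (by
      intro w hw
      simp only [Finset.mem_insert, Finset.mem_singleton] at hw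
      rcases hw with rfl | rfl
      exacts [hd1.2.1, hd1.2.2]), h6 d hd1.1, Finset.card_pair hxy]
  rw [Finset.sum_congr rfl hterm, Finset.sum_const, smul_eq_mul] at hcount
  have h20 : (Finset.univ \ ({x, y} : Finset α)).card = 20 := by
    rw [Finset.card_sdiff_of_subset (Finset.subset_univ _), Finset.card_univ, hα,
      Finset.card_pair hxy]
  omega

/-- Every point lies in exactly 21 blocks. -/
theorem st_point (Bf : Finset (Finset α)) (h6 : ∀ b ∈ Bf, b.card = 6)
    (h3 : ∀ s : Finset α, s.card = 3 → ∃! b, b ∈ Bf ∧ s ⊆ b)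
    (hα : Fintype.card α = 22) (x : α) :
    (Bf.filter (fun d => x ∈ d)).card = 21 := by
  set Q := Bf.filter (fun d => x ∈ d) with hQ
  have key := Finset.sum_card_bipartiteAbove_eq_sum_card_bipartiteBelow
    (s := Q) (t := Finset.univ \ {x}) (r := fun (d : Finset α) (y : α) => y ∈ d)
  have h1 : ∀ d ∈ Q, ((Finset.univ \ {x}).bipartiteAbove (fun (d : Finset α) (y : α) => y ∈ d) d).card
      = 5 := by
    intro d hd
    have hd1 := Finset.mem_filter.mp hd
    have : (Finset.univ \ {x}).bipartiteAbove (fun (d : Finset α) (y : α) => y ∈ d) d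
        = d \ {x} := by
      ext y
      simp [Finset.bipartiteAbove, and_comm]
    rw [this, Finset.card_sdiff_of_subset (by simpa using hd1.2), h6 d hd1.1,
      Finset.card_singleton]
  have h2 : ∀ y ∈ Finset.univ \ ({x} : Finset α),
      (Q.bipartiteBelow (fun (d : Finset α) (y : α) => y ∈ d) y).card = 5 := by
    intro y hy
    have hyx : x ≠ y := by
      intro h
      simp [h] at hy
    have : Q.bipartiteBelow (fun (d : Finset α) (y : α) => y ∈ d) y
        = Bf.filter (fun d => x ∈ d ∧ y ∈ d) := by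
      ext d
      simp [Finset.bipartiteBelow, hQ, and_assoc]
    rw [this]
    exact st_pair Bf h6 h3 hα x y hyx
  rw [Finset.sum_congr rfl h1, Finset.sum_congr rfl h2, Finset.sum_const, Finset.sum_const,
    smul_eq_mul, smul_eq_mul, Finset.card_sdiff_of_subset (Finset.subset_univ _),
    Finset.card_univ, hα, Finset.card_singleton] at key
  omega

/-- There are exactly 77 blocks. -/
theorem st_card (Bf : Finset (Finset α)) (h6 : ∀ b ∈ Bf, b.card = 6)
    (h3 : ∀ s : Finset α, s.card = 3 → ∃! b, b ∈ Bf ∧ s ⊆ b)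
    (hα : Fintype.card α = 22) : Bf.card = 77 := by
  have key := Finset.sum_card_bipartiteAbove_eq_sum_card_bipartiteBelow
    (s := Bf) (t := (Finset.univ : Finset α)) (r := fun (d : Finset α) (y : α) => y ∈ d)
  have h1 : ∀ d ∈ Bf, ((Finset.univ : Finset α).bipartiteAbove
      (fun (d : Finset α) (y : α) => y ∈ d) d).card = 6 := by
    intro d hd
    have : (Finset.univ : Finset α).bipartiteAbove (fun (d : Finset α) (y : α) => y ∈ d) d
        = d := by
      ext y
      simp [Finset.bipartiteAbove]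
    rw [this, h6 d hd]
  have h2 : ∀ y ∈ (Finset.univ : Finset α),
      (Bf.bipartiteBelow (fun (d : Finset α) (y : α) => y ∈ d) y).card = 21 := by
    intro y _
    exact st_point Bf h6 h3 hα y
  rw [Finset.sum_congr rfl h1, Finset.sum_congr rfl h2, Finset.sum_const, Finset.sum_const,
    smul_eq_mul, smul_eq_mul, Finset.card_univ, hα] at key
  omega

/-- `∑_d |d ∩ b| = 21 |b|`. -/
theorem st_sum1 (Bf : Finset (Finset α)) (h6 : ∀ b ∈ Bf, b.card = 6)
    (h3 : ∀ s : Finset α, s.card = 3 → ∃! b, b ∈ Bf ∧ s ⊆ b)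
    (hα : Fintype.card α = 22) (b : Finset α) :
    ∑ d ∈ Bf, (d ∩ b).card = 21 * b.card := by
  have key := Finset.sum_card_bipartiteAbove_eq_sum_card_bipartiteBelow
    (s := Bf) (t := b) (r := fun (d : Finset α) (y : α) => y ∈ d)
  have h1 : ∀ d ∈ Bf, (b.bipartiteAbove (fun (d : Finset α) (y : α) => y ∈ d) d).card
      = (d ∩ b).card := by
    intro d _
    congr 1
    ext y
    simp [Finset.bipartiteAbove, and_comm]
  have h2 : ∀ y ∈ b, (Bf.bipartiteBelow (fun (d : Finset α) (y : α) => y ∈ d) y).card = 21 := by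
    intro y _
    exact st_point Bf h6 h3 hα y
  rw [Finset.sum_congr rfl h1, Finset.sum_congr rfl h2, Finset.sum_const, smul_eq_mul] at key
  rw [key, mul_comm]

/-- `∑_{d ∋ a} |d ∩ b| = 5 |b|` when `a ∉ b`. -/
theorem st_sum1' (Bf : Finset (Finset α)) (h6 : ∀ b ∈ Bf, b.card = 6)
    (h3 : ∀ s : Finset α, s.card = 3 → ∃! b, b ∈ Bf ∧ s ⊆ b)
    (hα : Fintype.card α = 22) (a : α) (b : Finset α) (ha : a ∉ b) :
    ∑ d ∈ Bf.filter (fun d => a ∈ d), (d ∩ b).card = 5 * b.card := by
  have key := Finset.sum_card_bipartiteAbove_eq_sum_card_bipartiteBelow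
    (s := Bf.filter (fun d => a ∈ d)) (t := b) (r := fun (d : Finset α) (y : α) => y ∈ d)
  have h1 : ∀ d ∈ Bf.filter (fun d => a ∈ d),
      (b.bipartiteAbove (fun (d : Finset α) (y : α) => y ∈ d) d).card = (d ∩ b).card := by
    intro d _
    congr 1
    ext y
    simp [Finset.bipartiteAbove, and_comm]
  have h2 : ∀ y ∈ b, ((Bf.filter (fun d => a ∈ d)).bipartiteBelow
      (fun (d : Finset α) (y : α) => y ∈ d) y).card = 5 := by
    intro y hy
    have hay : a ≠ y := by
      intro h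
      exact ha (h ▸ hy)
    have : (Bf.filter (fun d => a ∈ d)).bipartiteBelow (fun (d : Finset α) (y : α) => y ∈ d) y
        = Bf.filter (fun d => a ∈ d ∧ y ∈ d) := by
      ext d
      simp [Finset.bipartiteBelow, and_assoc]
    rw [this]
    exact st_pair Bf h6 h3 hα a y hay
  rw [Finset.sum_congr rfl h1, Finset.sum_congr rfl h2, Finset.sum_const, smul_eq_mul] at key
  rw [key, mul_comm]

/-- `∑_d |d ∩ b| |d ∩ c| = 5 |b| |c| + 16 |b ∩ c|`. -/
theorem st_sum2 (Bf : Finset (Finset α)) (h6 : ∀ b ∈ Bf, b.card = 6)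
    (h3 : ∀ s : Finset α, s.card = 3 → ∃! b, b ∈ Bf ∧ s ⊆ b)
    (hα : Fintype.card α = 22) (b c : Finset α) :
    ∑ d ∈ Bf, (d ∩ b).card * (d ∩ c).card = 5 * (b.card * c.card) + 16 * (b ∩ c).card := by
  have key := Finset.sum_card_bipartiteAbove_eq_sum_card_bipartiteBelow
    (s := Bf) (t := b ×ˢ c) (r := fun (d : Finset α) (p : α × α) => p.1 ∈ d ∧ p.2 ∈ d)
  have h1 : ∀ d ∈ Bf, ((b ×ˢ c).bipartiteAbove
      (fun (d : Finset α) (p : α × α) => p.1 ∈ d ∧ p.2 ∈ d) d).card
      = (d ∩ b).card * (d ∩ c).card := by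
    intro d _
    rw [← Finset.card_product]
    congr 1
    ext p
    simp only [Finset.bipartiteAbove, Finset.mem_filter, Finset.mem_product, Finset.mem_inter]
    tauto
  have h2 : ∀ p ∈ b ×ˢ c, (Bf.bipartiteBelow
      (fun (d : Finset α) (p : α × α) => p.1 ∈ d ∧ p.2 ∈ d) p).card
      = if p.1 = p.2 then 21 else 5 := by
    intro p _
    by_cases hp : p.1 = p.2
    · rw [if_pos hp]
      have : Bf.bipartiteBelow (fun (d : Finset α) (p : α × α) => p.1 ∈ d ∧ p.2 ∈ d) p
          = Bf.filter (fun d => p.1 ∈ d) := by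
        ext d
        simp [Finset.bipartiteBelow, ← hp]
      rw [this]
      exact st_point Bf h6 h3 hα _
    · rw [if_neg hp]
      exact st_pair Bf h6 h3 hα _ _ hp
  rw [Finset.sum_congr rfl h1, Finset.sum_congr rfl h2] at key
  rw [key, Finset.sum_product]
  have h3' : ∀ x ∈ b, ∑ y ∈ c, (if x = y then 21 else 5 : ℕ)
      = 5 * c.card + if x ∈ c then 16 else 0 := by
    intro x _
    have : ∀ y ∈ c, (if x = y then 21 else 5 : ℕ) = 5 + if x = y then 16 else 0 := by
      intro y _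
      split_ifs <;> rfl
    rw [Finset.sum_congr rfl this, Finset.sum_add_distrib, Finset.sum_const, smul_eq_mul,
      Finset.sum_ite_eq, mul_comm]
  rw [Finset.sum_congr rfl h3', Finset.sum_add_distrib, Finset.sum_const, smul_eq_mul,
    ← Finset.sum_filter, Finset.sum_const, smul_eq_mul, Finset.filter_mem_eq_inter]
  ring

omit [Fintype α] in
/-- Distinct blocks share at most two points. -/
theorem st_le_two (Bf : Finset (Finset α))
    (h3 : ∀ s : Finset α, s.card = 3 → ∃! b, b ∈ Bf ∧ s ⊆ b)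
    {b d : Finset α} (hb : b ∈ Bf) (hd : d ∈ Bf) (hne : d ≠ b) : (d ∩ b).card ≤ 2 := by
  by_contra hcon
  obtain ⟨s, hs, hcard⟩ := Finset.exists_subset_card_eq (show 3 ≤ (d ∩ b).card by omega)
  obtain ⟨e, -, he⟩ := h3 s hcard
  have h1 : d = e := he d ⟨hd, fun w hw => (Finset.mem_inter.mp (hs hw)).1⟩
  have h2 : b = e := he b ⟨hb, fun w hw => (Finset.mem_inter.mp (hs hw)).2⟩
  exact hne (h1.trans h2.symm)

/-- Distinct blocks share zero or two points. -/
theorem st_zero_or_two (Bf : Finset (Finset α)) (h6 : ∀ b ∈ Bf, b.card = 6)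
    (h3 : ∀ s : Finset α, s.card = 3 → ∃! b, b ∈ Bf ∧ s ⊆ b)
    (hα : Fintype.card α = 22) {b d : Finset α} (hb : b ∈ Bf) (hd : d ∈ Bf) (hne : d ≠ b) :
    (d ∩ b).card = 0 ∨ (d ∩ b).card = 2 := by
  have s1 := st_sum1 Bf h6 h3 hα b
  have s2 := st_sum2 Bf h6 h3 hα b b
  rw [h6 b hb] at s1
  rw [Finset.inter_self, h6 b hb] at s2
  have hz1 : ∑ d ∈ Bf, ((d ∩ b).card : ℤ) = 126 := by exact_mod_cast s1
  have hz2 : ∑ d ∈ Bf, ((d ∩ b).card : ℤ) * ((d ∩ b).card : ℤ) = 276 := by exact_mod_cast s2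
  have hz3 : ∑ d ∈ Bf, ((d ∩ b).card : ℤ) * (2 - ((d ∩ b).card : ℤ)) = -24 := by
    have : ∀ d ∈ Bf, ((d ∩ b).card : ℤ) * (2 - ((d ∩ b).card : ℤ))
        = 2 * ((d ∩ b).card : ℤ) - ((d ∩ b).card : ℤ) * ((d ∩ b).card : ℤ) := by
      intro d _
      ring
    rw [Finset.sum_congr rfl this, Finset.sum_sub_distrib, ← Finset.mul_sum, hz1, hz2]
    norm_num
  have hz4 := Finset.add_sum_erase Bf
    (fun d => ((d ∩ b).card : ℤ) * (2 - ((d ∩ b).card : ℤ))) hb
  simp only [Finset.inter_self, h6 b hb] at hz4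
  rw [hz3] at hz4
  have hz5 : ∑ d ∈ Bf.erase b, ((d ∩ b).card : ℤ) * (2 - ((d ∩ b).card : ℤ)) = 0 := by
    push_cast at hz4
    linarith
  have hnn : ∀ d ∈ Bf.erase b, 0 ≤ ((d ∩ b).card : ℤ) * (2 - ((d ∩ b).card : ℤ)) := by
    intro d hd
    have hd' := Finset.mem_erase.mp hd
    have := st_le_two Bf h3 hb hd'.2 hd'.1
    have h2 : ((d ∩ b).card : ℤ) ≤ 2 := by exact_mod_cast this
    have h0 : (0 : ℤ) ≤ ((d ∩ b).card : ℤ) := by positivity
    nlinarith
  have := (Finset.sum_eq_zero_iff_of_nonneg hnn).mp hz5 d (Finset.mem_erase.mpr ⟨hne, hd⟩)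
  rcases mul_eq_zero.mp this with h | h
  · left
    exact_mod_cast h
  · right
    have : ((d ∩ b).card : ℤ) = 2 := by linarith
    exact_mod_cast this

/-- The indicator of disjointness from a block in terms of the intersection size. -/
theorem st_disj_ind (Bf : Finset (Finset α)) (h6 : ∀ b ∈ Bf, b.card = 6)
    (h3 : ∀ s : Finset α, s.card = 3 → ∃! b, b ∈ Bf ∧ s ⊆ b)
    (hα : Fintype.card α = 22) {b d : Finset α} (hb : b ∈ Bf) (hd : d ∈ Bf) (hne : d ≠ b) :
    (2 : ℤ) * (if Disjoint b d then 1 else 0) = 2 - ((d ∩ b).card : ℤ) := by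
  rcases st_zero_or_two Bf h6 h3 hα hb hd hne with h | h
  · have : Disjoint b d := by
      rw [Finset.disjoint_iff_inter_eq_empty, Finset.inter_comm]
      exact Finset.card_eq_zero.mp h
    rw [if_pos this, h]
    norm_num
  · have : ¬ Disjoint b d := by
      intro hdis
      rw [Finset.disjoint_iff_inter_eq_empty, Finset.inter_comm] at hdis
      rw [hdis] at h
      simp at h
    rw [if_neg this, h]
    norm_num

/-- Every block is disjoint from exactly 16 others. -/
theorem st_deg (Bf : Finset (Finset α)) (h6 : ∀ b ∈ Bf, b.card = 6)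
    (h3 : ∀ s : Finset α, s.card = 3 → ∃! b, b ∈ Bf ∧ s ⊆ b)
    (hα : Fintype.card α = 22) {b : Finset α} (hb : b ∈ Bf) :
    (Bf.filter (fun d => d ≠ b ∧ Disjoint b d)).card = 16 := by
  have hfil : Bf.filter (fun d => d ≠ b ∧ Disjoint b d)
      = (Bf.erase b).filter (fun d => Disjoint b d) := by
    ext d
    simp only [Finset.mem_filter, Finset.mem_erase]
    tauto
  have s0 := st_card Bf h6 h3 hα
  have s1 := st_sum1 Bf h6 h3 hα b
  rw [h6 b hb] at s1
  have hz1 : ∑ d ∈ Bf, ((d ∩ b).card : ℤ) = 126 := by exact_mod_cast s1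
  have hsum : ∑ d ∈ Bf.erase b, (2 : ℤ) * (if Disjoint b d then 1 else 0)
      = ∑ d ∈ Bf.erase b, (2 - ((d ∩ b).card : ℤ)) := by
    apply Finset.sum_congr rfl
    intro d hd
    have hd' := Finset.mem_erase.mp hd
    exact st_disj_ind Bf h6 h3 hα hb hd'.2 hd'.1
  have hfull : ∑ d ∈ Bf, (2 - ((d ∩ b).card : ℤ)) = 2 * 77 - 126 := by
    rw [Finset.sum_sub_distrib, hz1, Finset.sum_const, s0]
    simp
  have hz4 := Finset.add_sum_erase Bf (fun d => (2 - ((d ∩ b).card : ℤ))) hb
  simp only [Finset.inter_self, h6 b hb] at hz4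
  rw [hfull] at hz4
  rw [← Finset.mul_sum, Finset.sum_boole] at hsum
  rw [hfil]
  have : (2 : ℤ) * ((Bf.erase b).filter (fun d => Disjoint b d)).card = 32 := by
    rw [hsum]
    push_cast at hz4
    linarith
  have h2 : 2 * ((Bf.erase b).filter (fun d => Disjoint b d)).card = 32 := by exact_mod_cast this
  omega

/-- Two distinct blocks have `2 |b ∩ c|` common "disjoint neighbours". -/
theorem st_common (Bf : Finset (Finset α)) (h6 : ∀ b ∈ Bf, b.card = 6)
    (h3 : ∀ s : Finset α, s.card = 3 → ∃! b, b ∈ Bf ∧ s ⊆ b)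
    (hα : Fintype.card α = 22) {b c : Finset α} (hb : b ∈ Bf) (hc : c ∈ Bf) (hne : b ≠ c) :
    (Bf.filter (fun d => (d ≠ b ∧ Disjoint b d) ∧ (d ≠ c ∧ Disjoint c d))).card
      = 2 * (b ∩ c).card := by
  have hfil : Bf.filter (fun d => (d ≠ b ∧ Disjoint b d) ∧ (d ≠ c ∧ Disjoint c d))
      = ((Bf.erase b).erase c).filter (fun d => Disjoint b d ∧ Disjoint c d) := by
    ext d
    simp only [Finset.mem_filter, Finset.mem_erase]
    tauto
  have s0 := st_card Bf h6 h3 hα
  have s1 := st_sum1 Bf h6 h3 hα b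
  have s1c := st_sum1 Bf h6 h3 hα c
  have s2 := st_sum2 Bf h6 h3 hα b c
  rw [h6 b hb] at s1
  rw [h6 c hc] at s1c
  rw [h6 b hb, h6 c hc] at s2
  have hz1 : ∑ d ∈ Bf, ((d ∩ b).card : ℤ) = 126 := by exact_mod_cast s1
  have hz1c : ∑ d ∈ Bf, ((d ∩ c).card : ℤ) = 126 := by exact_mod_cast s1c
  have hz2 : ∑ d ∈ Bf, ((d ∩ b).card : ℤ) * ((d ∩ c).card : ℤ)
      = 180 + 16 * ((b ∩ c).card : ℤ) := by exact_mod_cast s2
  set g : Finset α → ℤ := fun d => (2 - ((d ∩ b).card : ℤ)) * (2 - ((d ∩ c).card : ℤ)) with hg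
  have hgsum : ∑ d ∈ Bf, g d = 16 * ((b ∩ c).card : ℤ) - 16 := by
    have : ∀ d ∈ Bf, g d = 4 - 2 * ((d ∩ b).card : ℤ) - 2 * ((d ∩ c).card : ℤ)
        + ((d ∩ b).card : ℤ) * ((d ∩ c).card : ℤ) := by
      intro d _
      rw [hg]
      ring
    rw [Finset.sum_congr rfl this, Finset.sum_add_distrib, Finset.sum_sub_distrib,
      Finset.sum_sub_distrib, ← Finset.mul_sum, ← Finset.mul_sum, hz1, hz1c, hz2,
      Finset.sum_const, s0]
    simp
    ring
  have hc' : c ∈ Bf.erase b := Finset.mem_erase.mpr ⟨fun h => hne h.symm, hc⟩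
  have e1 := Finset.add_sum_erase Bf g hb
  have e2 := Finset.add_sum_erase (Bf.erase b) g hc'
  have gb : g b = 4 * ((b ∩ c).card : ℤ) - 8 := by
    rw [hg]
    simp only [Finset.inter_self, h6 b hb]
    push_cast
    ring
  have gc : g c = 4 * ((b ∩ c).card : ℤ) - 8 := by
    rw [hg]
    simp only [Finset.inter_self, h6 c hc, Finset.inter_comm c b]
    push_cast
    ring
  have hE : ∑ d ∈ (Bf.erase b).erase c, g d = 8 * ((b ∩ c).card : ℤ) := by
    linarith
  have hsum : ∑ d ∈ (Bf.erase b).erase c, (4 : ℤ) * (if Disjoint b d ∧ Disjoint c d then 1 else 0)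
      = ∑ d ∈ (Bf.erase b).erase c, g d := by
    apply Finset.sum_congr rfl
    intro d hd
    have hd' := Finset.mem_erase.mp hd
    have hd'' := Finset.mem_erase.mp hd'.2
    have i1 := st_disj_ind Bf h6 h3 hα hb hd''.2 hd''.1
    have i2 := st_disj_ind Bf h6 h3 hα hc hd''.2 hd'.1
    rw [hg]
    show _ = (2 - ((d ∩ b).card : ℤ)) * (2 - ((d ∩ c).card : ℤ))
    rw [← i1, ← i2]
    by_cases hdb : Disjoint b d <;> by_cases hdc : Disjoint c d <;> simp [hdb, hdc]
  rw [← Finset.mul_sum, Finset.sum_boole, hE] at hsum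
  rw [hfil]
  have h2 : 4 * (((Bf.erase b).erase c).filter (fun d => Disjoint b d ∧ Disjoint c d)).card
      = 8 * (b ∩ c).card := by exact_mod_cast hsum
  omega

/-- A point off a block lies in exactly six blocks disjoint from it. -/
theorem st_point_block (Bf : Finset (Finset α)) (h6 : ∀ b ∈ Bf, b.card = 6)
    (h3 : ∀ s : Finset α, s.card = 3 → ∃! b, b ∈ Bf ∧ s ⊆ b)
    (hα : Fintype.card α = 22) {b : Finset α} (hb : b ∈ Bf) (a : α) (ha : a ∉ b) :
    (Bf.filter (fun d => a ∈ d ∧ Disjoint b d)).card = 6 := by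
  have hfil : Bf.filter (fun d => a ∈ d ∧ Disjoint b d)
      = (Bf.filter (fun d => a ∈ d)).filter (fun d => Disjoint b d) := by
    rw [Finset.filter_filter]
  have s0 := st_point Bf h6 h3 hα a
  have s1 := st_sum1' Bf h6 h3 hα a b ha
  rw [h6 b hb] at s1
  have hz1 : ∑ d ∈ Bf.filter (fun d => a ∈ d), ((d ∩ b).card : ℤ) = 30 := by exact_mod_cast s1
  have hsum : ∑ d ∈ Bf.filter (fun d => a ∈ d), (2 : ℤ) * (if Disjoint b d then 1 else 0)
      = ∑ d ∈ Bf.filter (fun d => a ∈ d), (2 - ((d ∩ b).card : ℤ)) := by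
    apply Finset.sum_congr rfl
    intro d hd
    have hd' := Finset.mem_filter.mp hd
    have hne : d ≠ b := by
      intro h
      exact ha (h ▸ hd'.2)
    exact st_disj_ind Bf h6 h3 hα hb hd'.1 hne
  rw [Finset.sum_sub_distrib, hz1, Finset.sum_const, s0, ← Finset.mul_sum, Finset.sum_boole]
    at hsum
  rw [hfil]
  have : (2 : ℤ) * ((Bf.filter (fun d => a ∈ d)).filter (fun d => Disjoint b d)).card = 12 := by
    rw [hsum]
    norm_num
  have h2 : 2 * ((Bf.filter (fun d => a ∈ d)).filter (fun d => Disjoint b d)).card = 12 := by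
    exact_mod_cast this
  omega

/-- Counting a subtype of `Option (α ⊕ β)` by the three kinds of element. -/
theorem st_card_option_sum {α β : Type*} [Finite α] [Finite β] (P : Option (α ⊕ β) → Prop) :
    Nat.card {u // P u} = Nat.card {x : Unit // P none}
      + Nat.card {a : α // P (some (Sum.inl a))} + Nat.card {b : β // P (some (Sum.inr b))} := by
  classical
  haveI := Fintype.ofFinite α
  haveI := Fintype.ofFinite β
  simp only [Nat.card_eq_fintype_card, Fintype.card_subtype, Finset.card_filter]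
  rw [Fintype.sum_option, Fintype.sum_sum_type]
  simp
  ring

theorem st_card_unit_false (p : Prop) (h : ¬ p) : Nat.card {x : Unit // p} = 0 := by
  haveI : IsEmpty {x : Unit // p} := ⟨fun x => h x.2⟩
  exact Nat.card_of_isEmpty

theorem st_card_unit_true (p : Prop) (h : p) : Nat.card {x : Unit // p} = 1 := by
  haveI : Unique {x : Unit // p} := ⟨⟨⟨(), h⟩⟩, fun x => Subtype.ext rfl⟩
  exact Nat.card_unique

theorem st_card_sub_false {γ : Type*} (p : γ → Prop) (h : ∀ x, ¬ p x) :
    Nat.card {x // p x} = 0 := by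
  haveI : IsEmpty {x // p x} := ⟨fun x => h x.1 x.2⟩
  exact Nat.card_of_isEmpty

theorem st_card_sub_congr {γ : Type*} (p q : γ → Prop) (h : ∀ x, p x ↔ q x) :
    Nat.card {x // p x} = Nat.card {x // q x} :=
  Nat.card_congr (Equiv.subtypeEquivRight h)

theorem st_card_sub_true (γ : Type*) (p : γ → Prop) (h : ∀ x, p x) :
    Nat.card {x // p x} = Nat.card γ :=
  Nat.card_congr (Equiv.subtypeUnivEquiv h)

end Cfsg.Agent.Helper29.Steiner
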