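import Mathlib
import Cfsg.Agent.Helper29.Invol

set_option autoImplicit false

namespace Cfsg.Agent.Helper29

/-! ### Hyperbolic systems adapted to an isometry with scalar square -/

section Sympl

variable {F V : Type*} [Field F] [AddCommGroup V] [Module F V]

/-- Nondegeneracy of `B` on the subspace `W`. -/
def NonDeg (B : V →ₗ[F] V →ₗ[F] F) (W : Submodule F V) : Prop :=
  ∀ u ∈ W, u ≠ 0 → ∃ v ∈ W, B u v ≠ 0

/-- The relations of a family of mutually orthogonal hyperbolic pairs. -/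
def HypRel {ι : Type*} (B : V →ₗ[F] V →ₗ[F] F) (u w : ι → V) : Prop :=
  (∀ k, B (u k) (w k) = 1) ∧ (∀ k l, B (u k) (u l) = 0) ∧ (∀ k l, B (w k) (w l) = 0) ∧
    (∀ k l, k ≠ l → B (u k) (w l) = 0)

/-- `X` maps the `k`-th hyperbolic plane into the `π k`-th one. -/
def HypCompat {ι : Type*} (X : V →ₗ[F] V) (u w : ι → V) (π : ι → ι) : Prop :=
  ∀ k, X (u k) ∈ Submodule.span F {u (π k), w (π k)} ∧
    X (w k) ∈ Submodule.span F {u (π k), w (π k)}

/-- Both members of the pair are eigenvectors. -/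
def QA (X : V →ₗ[F] V) (u w : V) : Prop := (∃ c : F, X u = c • u) ∧ ∃ c : F, X w = c • w

/-- The members of the pair are interchanged up to scalars. -/
def QB (X : V →ₗ[F] V) (u w : V) : Prop := (∃ c : F, X u = c • w) ∧ ∃ c : F, X w = c • u

/-- A nonempty hyperbolic system inside `W`, compatible with `X`. -/
def HasPiece (B : V →ₗ[F] V →ₗ[F] F) (X : V →ₗ[F] V) (Q : V → V → Prop) (W : Submodule F V) :
    Prop :=
  ∃ (ι₀ : Type) (_ : Fintype ι₀) (_ : Nonempty ι₀) (u₀ w₀ : ι₀ → V) (π₀ : ι₀ → ι₀),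
    (∀ k, u₀ k ∈ W) ∧ (∀ k, w₀ k ∈ W) ∧ HypRel B u₀ w₀ ∧ (∀ k, π₀ (π₀ k) = k) ∧
    HypCompat X u₀ w₀ π₀ ∧ ∀ k, Q (u₀ k) (w₀ k)

/-- A hyperbolic system spanning `W`, compatible with `X`. -/
def HasSys (B : V →ₗ[F] V →ₗ[F] F) (X : V →ₗ[F] V) (Q : V → V → Prop) (W : Submodule F V) :
    Prop :=
  ∃ (ι : Type) (_ : Fintype ι) (u w : ι → V) (π : ι → ι),
    HypRel B u w ∧ Submodule.span F (Set.range u ∪ Set.range w) = W ∧ (∀ k, π (π k) = k) ∧
    HypCompat X u w π ∧ ∀ k, Q (u k) (w k)

theorem alt_skew (B : V →ₗ[F] V →ₗ[F] F) (halt : ∀ v, B v v = 0) (u v : V) :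
    B u v = - B v u := by
  have h := halt (u + v)
  simp only [map_add, LinearMap.add_apply, halt] at h
  linear_combination h

theorem bil_span_zero (B : V →ₗ[F] V →ₗ[F] F) {S T : Set V}
    (h : ∀ s ∈ S, ∀ t ∈ T, B s t = 0) :
    ∀ x ∈ Submodule.span F S, ∀ y ∈ Submodule.span F T, B x y = 0 := by
  intro x hx y hy
  have h1 : Submodule.span F T ≤ LinearMap.ker (B x) := by
    refine Submodule.span_le.2 fun t ht => ?_
    have h2 : Submodule.span F S ≤ LinearMap.ker (B.flip t) := by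
      refine Submodule.span_le.2 fun s hs => ?_
      exact LinearMap.mem_ker.2 (by rw [LinearMap.flip_apply]; exact h s hs t ht)
    have h3 := LinearMap.mem_ker.1 (h2 hx)
    rw [LinearMap.flip_apply] at h3
    exact LinearMap.mem_ker.2 h3
  exact LinearMap.mem_ker.1 (h1 hy)

theorem piece_single (B : V →ₗ[F] V →ₗ[F] F) (halt : ∀ v, B v v = 0) (X : V →ₗ[F] V)
    (Q : V → V → Prop) (W : Submodule F V) (u w : V) (hu : u ∈ W) (hw : w ∈ W)
    (h1 : B u w = 1) (hXu : X u ∈ Submodule.span F {u, w}) (hXw : X w ∈ Submodule.span F {u, w})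
    (hQ : Q u w) : HasPiece B X Q W :=
  ⟨Unit, inferInstance, inferInstance, fun _ => u, fun _ => w, id, fun _ => hu, fun _ => hw,
    ⟨fun _ => h1, fun _ _ => halt u, fun _ _ => halt w,
      fun k l hkl => absurd (Subsingleton.elim k l) hkl⟩,
    fun _ => rfl, fun _ => ⟨hXu, hXw⟩, fun _ => hQ⟩

theorem piece_double (B : V →ₗ[F] V →ₗ[F] F) (halt : ∀ v, B v v = 0) (X : V →ₗ[F] V)
    (hXB : ∀ u v, B (X u) (X v) = B u v) (z : F) (hX : ∀ v, X (X v) = z • v)
    (Q : V → V → Prop) (W : Submodule F V) (hW : ∀ w ∈ W, X w ∈ W) (u w : V) (hu : u ∈ W)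
    (hw : w ∈ W) (h1 : B u w = 1) (h2 : B u (X u) = 0) (h3 : B w (X w) = 0)
    (h4 : B u (X w) = 0) (h5 : B w (X u) = 0) (hQ : Q u w) (hQ' : Q (X u) (X w)) :
    HasPiece B X Q W := by
  have hskew := alt_skew B halt
  refine ⟨Bool, inferInstance, inferInstance, fun b => cond b (X u) u, fun b => cond b (X w) w,
    not, ?_, ?_, ⟨?_, ?_, ?_, ?_⟩, ?_, ?_, ?_⟩
  · rintro (_ | _)
    · exact hu
    · exact hW u hu
  · rintro (_ | _)
    · exact hw
    · exact hW w hw
  · rintro (_ | _)
    · exact h1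
    · show B (X u) (X w) = 1
      rw [hXB]
      exact h1
  · rintro (_ | _) (_ | _)
    · exact halt u
    · exact h2
    · show B (X u) u = 0
      rw [hskew, h2, neg_zero]
    · exact halt _
  · rintro (_ | _) (_ | _)
    · exact halt w
    · exact h3
    · show B (X w) w = 0
      rw [hskew, h3, neg_zero]
    · exact halt _
  · rintro (_ | _) (_ | _) hkl
    · exact absurd rfl hkl
    · exact h4
    · show B (X u) w = 0
      rw [hskew, h5, neg_zero]
    · exact absurd rfl hkl
  · rintro (_ | _) <;> rfl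
  · rintro (_ | _)
    · show X u ∈ Submodule.span F {X u, X w} ∧ X w ∈ Submodule.span F {X u, X w}
      exact ⟨Submodule.subset_span (Set.mem_insert _ _),
        Submodule.subset_span (Set.mem_insert_of_mem _ (Set.mem_singleton _))⟩
    · show X (X u) ∈ Submodule.span F {u, w} ∧ X (X w) ∈ Submodule.span F {u, w}
      rw [hX, hX]
      exact ⟨Submodule.smul_mem _ _ (Submodule.subset_span (Set.mem_insert _ _)),
        Submodule.smul_mem _ _
          (Submodule.subset_span (Set.mem_insert_of_mem _ (Set.mem_singleton _)))⟩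
  · rintro (_ | _)
    · exact hQ
    · exact hQ'

/-- Odd characteristic, `X ^ 2 = 1`: a hyperbolic pair of eigenvectors. -/
theorem piece_A (B : V →ₗ[F] V →ₗ[F] F) (halt : ∀ v, B v v = 0) (X : V →ₗ[F] V)
    (hXB : ∀ u v, B (X u) (X v) = B u v) (h2 : (2 : F) ≠ 0) (hX : ∀ v, X (X v) = v)
    (W : Submodule F V) (hW : ∀ w ∈ W, X w ∈ W) (hnd : NonDeg B W) (hbot : W ≠ ⊥) :
    HasPiece B X (QA X) W := by
  obtain ⟨y, hyW, hy0⟩ := Submodule.exists_mem_ne_zero_of_ne_bot hbot
  obtain ⟨u₁, hu₁W, hu₁0, ε, hε, hXu₁⟩ :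
      ∃ u₁ ∈ W, u₁ ≠ 0 ∧ ∃ ε : F, ε * ε = 1 ∧ X u₁ = ε • u₁ := by
    by_cases h : y + X y = 0
    · refine ⟨y, hyW, hy0, -1, by ring, ?_⟩
      rw [neg_one_smul]
      exact eq_neg_of_add_eq_zero_right h
    · refine ⟨y + X y, W.add_mem hyW (hW y hyW), h, 1, mul_one 1, ?_⟩
      rw [map_add, hX, one_smul, add_comm]
  obtain ⟨v, hvW, hv⟩ := hnd u₁ hu₁W hu₁0
  have e1 : B u₁ (X v) = ε * B u₁ v := by
    have h3 : u₁ = ε • X u₁ := by rw [hXu₁, smul_smul, hε, one_smul]
    calc B u₁ (X v) = B (ε • X u₁) (X v) := by rw [← h3]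
      _ = ε * B u₁ v := by rw [map_smul, LinearMap.smul_apply, hXB, smul_eq_mul]
  have e2 : B u₁ (v + ε • X v) = 2 * B u₁ v := by
    rw [map_add, map_smul, e1, smul_eq_mul, ← mul_assoc, hε]
    ring
  have hl : B u₁ (v + ε • X v) ≠ 0 := by
    rw [e2]
    exact mul_ne_zero h2 hv
  have hw₁W : v + ε • X v ∈ W := W.add_mem hvW (W.smul_mem _ (hW v hvW))
  have hXw₁ : X (v + ε • X v) = ε • (v + ε • X v) := by
    rw [map_add, map_smul, hX, smul_add, smul_smul, hε, one_smul, add_comm]
  refine piece_single B halt X (QA X) W u₁ ((B u₁ (v + ε • X v))⁻¹ • (v + ε • X v)) hu₁W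
    (W.smul_mem _ hw₁W) ?_ ?_ ?_ ⟨⟨ε, hXu₁⟩, ⟨ε, ?_⟩⟩
  · rw [map_smul, smul_eq_mul, inv_mul_cancel₀ hl]
  · rw [hXu₁]
    exact Submodule.smul_mem _ _ (Submodule.subset_span (Set.mem_insert _ _))
  · rw [map_smul, hXw₁, smul_comm]
    exact Submodule.smul_mem _ _
      (Submodule.subset_span (Set.mem_insert_of_mem _ (Set.mem_singleton _)))
  · rw [map_smul, hXw₁, smul_comm]

/-- A vector with `B v (X v) ≠ 0` spans, with its image, an `X`-invariant hyperbolic plane. -/
theorem piece_swap (B : V →ₗ[F] V →ₗ[F] F) (halt : ∀ v, B v v = 0) (X : V →ₗ[F] V) (z : F)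
    (hX : ∀ v, X (X v) = z • v) (Q : V → V → Prop) (W : Submodule F V)
    (hW : ∀ w ∈ W, X w ∈ W) (v : V) (hvW : v ∈ W) (hv : B v (X v) ≠ 0)
    (hQ : Q v ((B v (X v))⁻¹ • X v)) : HasPiece B X Q W := by
  refine piece_single B halt X Q W v ((B v (X v))⁻¹ • X v) hvW (W.smul_mem _ (hW v hvW))
    ?_ ?_ ?_ hQ
  · rw [map_smul, smul_eq_mul, inv_mul_cancel₀ hv]
  · exact Submodule.mem_span_pair.2 ⟨0, B v (X v), by
      rw [zero_smul, zero_add, smul_smul, mul_inv_cancel₀ hv, one_smul]⟩
  · refine Submodule.mem_span_pair.2 ⟨(B v (X v))⁻¹ * z, 0, ?_⟩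
    rw [zero_smul, add_zero, map_smul, hX, smul_smul]

/-- Odd characteristic, `X ^ 2 = -1`: a hyperbolic pair interchanged by `X`. -/
theorem piece_B (B : V →ₗ[F] V →ₗ[F] F) (halt : ∀ v, B v v = 0) (X : V →ₗ[F] V)
    (hXB : ∀ u v, B (X u) (X v) = B u v) (h2 : (2 : F) ≠ 0) (hX : ∀ v, X (X v) = -v)
    (W : Submodule F V) (hW : ∀ w ∈ W, X w ∈ W) (hnd : NonDeg B W) (hbot : W ≠ ⊥) :
    HasPiece B X (QB X) W := by
  have hskew := alt_skew B halt
  obtain ⟨v, hvW, hv⟩ : ∃ v ∈ W, B v (X v) ≠ 0 := by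
    by_contra hcon
    push Not at hcon
    have h1 : ∀ u ∈ W, ∀ v ∈ W, B u (X v) = 0 := by
      intro u hu v hv
      have h3 := hcon (u + v) (W.add_mem hu hv)
      simp only [map_add, LinearMap.add_apply, hcon u hu, hcon v hv, zero_add, add_zero] at h3
      have h4 : B v (X u) = B u (X v) := by
        calc B v (X u) = - B (X u) v := hskew _ _
          _ = - B (X (X u)) (X v) := by rw [hXB]
          _ = B u (X v) := by rw [hX, map_neg, LinearMap.neg_apply, neg_neg]
      have h5 : (2 : F) * B u (X v) = 0 := by linear_combination h3 - h4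
      exact (mul_eq_zero.1 h5).resolve_left h2
    obtain ⟨y, hyW, hy0⟩ := Submodule.exists_mem_ne_zero_of_ne_bot hbot
    obtain ⟨t, htW, ht⟩ := hnd y hyW hy0
    apply ht
    have h5 : X (-(X t)) = t := by rw [map_neg, hX, neg_neg]
    rw [← h5]
    exact h1 y hyW _ (W.neg_mem (hW t htW))
  have hX' : ∀ v, X (X v) = (-1 : F) • v := fun v => by rw [hX, neg_one_smul]
  refine piece_swap B halt X (-1) hX' (QB X) W hW v hvW hv ⟨⟨B v (X v), ?_⟩, ⟨-(B v (X v))⁻¹, ?_⟩⟩
  · rw [smul_smul, mul_inv_cancel₀ hv, one_smul]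
  · rw [map_smul, hX, smul_neg, neg_smul]

theorem double_aux (B : V →ₗ[F] V →ₗ[F] F) (X : V →ₗ[F] V)
    (hXB : ∀ u v, B (X u) (X v) = B u v) (hX : ∀ v, X (X v) = v) (v w : V) (D : F)
    (hD : B v w * B v w - B (X v) w * B (X v) w = D) (hD0 : D ≠ 0) :
    B ((B v w / D) • v - (B (X v) w / D) • X v) w = 1 ∧
      B ((B v w / D) • v - (B (X v) w / D) • X v) (X w) = 0 := by
  have e1 : B v (X w) = B (X v) w := by rw [← hXB v (X w), hX]
  constructor
  · simp only [map_sub, map_smul, LinearMap.sub_apply, LinearMap.smul_apply, smul_eq_mul]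
    field_simp
    linear_combination hD
  · simp only [map_sub, map_smul, LinearMap.sub_apply, LinearMap.smul_apply, smul_eq_mul, e1, hXB]
    ring

/-- Characteristic `2`, `X ^ 2 = 1`: some piece exists. -/
theorem piece_C (B : V →ₗ[F] V →ₗ[F] F) (halt : ∀ v, B v v = 0) (X : V →ₗ[F] V)
    (hXB : ∀ u v, B (X u) (X v) = B u v) (h2 : (2 : F) = 0) (hX : ∀ v, X (X v) = v)
    (W : Submodule F V) (hW : ∀ w ∈ W, X w ∈ W) (hnd : NonDeg B W) (hbot : W ≠ ⊥) :
    HasPiece B X (fun _ _ => True) W := by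
  have hskew := alt_skew B halt
  have hX' : ∀ v, X (X v) = (1 : F) • v := fun v => by rw [hX, one_smul]
  by_cases hc1 : ∃ v ∈ W, B v (X v) ≠ 0
  · obtain ⟨v, hvW, hv⟩ := hc1
    exact piece_swap B halt X 1 hX' _ W hW v hvW hv trivial
  push Not at hc1
  by_cases hc2 : ∃ v ∈ W, X v ≠ v
  · obtain ⟨v, hvW, hv⟩ := hc2
    have hXvW := hW v hvW
    obtain ⟨w, hwW, hw⟩ := hnd (X v - v) (W.sub_mem hXvW hvW) (sub_ne_zero.2 hv)
    rw [map_sub, LinearMap.sub_apply] at hw
    have hD : B v w * B v w - B (X v) w * B (X v) w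
        = (B (X v) w - B v w) * (B (X v) w - B v w) := by
      linear_combination (B v w * B (X v) w - B (X v) w * B (X v) w) * h2
    have hD0 : B v w * B v w - B (X v) w * B (X v) w ≠ 0 := by
      rw [hD]
      exact mul_ne_zero hw hw
    obtain ⟨u, huW, hu1, hu2⟩ : ∃ u ∈ W, B u w = 1 ∧ B u (X w) = 0 :=
      ⟨_, W.sub_mem (W.smul_mem _ hvW) (W.smul_mem _ hXvW),
        double_aux B X hXB hX v w _ rfl hD0⟩
    have h3 : B w (X u) = 0 := by
      rw [← hXB w (X u), hX, hskew, hu2, neg_zero]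
    exact piece_double B halt X hXB 1 hX' _ W hW u w huW hwW hu1 (hc1 u huW) (hc1 w hwW) hu2 h3
      trivial trivial
  push Not at hc2
  obtain ⟨y, hyW, hy0⟩ := Submodule.exists_mem_ne_zero_of_ne_bot hbot
  obtain ⟨t, htW, ht⟩ := hnd y hyW hy0
  have hwW : (B y t)⁻¹ • t ∈ W := W.smul_mem _ htW
  refine piece_single B halt X _ W y ((B y t)⁻¹ • t) hyW hwW ?_ ?_ ?_ trivial
  · rw [map_smul, smul_eq_mul, inv_mul_cancel₀ ht]
  · rw [hc2 y hyW]
    exact Submodule.subset_span (Set.mem_insert _ _)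
  · rw [hc2 _ hwW]
    exact Submodule.subset_span (Set.mem_insert_of_mem _ (Set.mem_singleton _))

/-- If every nonzero invariant nondegenerate subspace contains a piece, then every invariant
nondegenerate subspace is spanned by a hyperbolic system made of pieces. -/
theorem hyp_system [FiniteDimensional F V] (B : V →ₗ[F] V →ₗ[F] F) (halt : ∀ v, B v v = 0)
    (X : V →ₗ[F] V) (hXB : ∀ u v, B (X u) (X v) = B u v) (z : F) (hz : z ≠ 0)
    (hX : ∀ v, X (X v) = z • v) (Q : V → V → Prop)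
    (hpiece : ∀ W : Submodule F V, (∀ w ∈ W, X w ∈ W) → NonDeg B W → W ≠ ⊥ → HasPiece B X Q W) :
    ∀ (n : ℕ) (W : Submodule F V), Module.finrank F W = n → (∀ w ∈ W, X w ∈ W) → NonDeg B W →
      HasSys B X Q W := by
  classical
  have hskew := alt_skew B halt
  intro n
  induction n using Nat.strong_induction_on with
  | _ n ih =>
    intro W hn hW hnd
    by_cases hbot : W = ⊥
    · refine ⟨Empty, inferInstance, fun k => k.elim, fun k => k.elim, id,
        ⟨fun k => k.elim, fun k => k.elim, fun k => k.elim, fun k => k.elim⟩, ?_,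
        fun k => k.elim, fun k => k.elim, fun k => k.elim⟩
      rw [hbot, Set.range_eq_empty, Set.union_empty, Submodule.span_empty]
    obtain ⟨ι₀, hι₀, hne, u₀, w₀, π₀, hu₀W, hw₀W, ⟨r1, r2, r3, r4⟩, hπ₀, hc₀, hQ₀⟩ :=
      hpiece W hW hnd hbot
    -- the orthogonal complement of the piece
    obtain ⟨P', hP'⟩ : ∃ P' : Submodule F V,
        ∀ y, y ∈ P' ↔ ∀ k, B y (u₀ k) = 0 ∧ B y (w₀ k) = 0 := by
      refine ⟨⨅ k, LinearMap.ker (B.flip (u₀ k)) ⊓ LinearMap.ker (B.flip (w₀ k)), fun y => ?_⟩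
      simp only [Submodule.mem_iInf, Submodule.mem_inf, LinearMap.mem_ker, LinearMap.flip_apply]
    -- the projection onto the piece
    obtain ⟨ρ, hρ⟩ : ∃ ρ : V →ₗ[F] V,
        ∀ y, ρ y = ∑ k, (B y (w₀ k) • u₀ k - B y (u₀ k) • w₀ k) := by
      refine ⟨∑ k, ((B.flip (w₀ k)).smulRight (u₀ k) - (B.flip (u₀ k)).smulRight (w₀ k)),
        fun y => ?_⟩
      simp only [LinearMap.sum_apply, LinearMap.sub_apply, LinearMap.smulRight_apply,
        LinearMap.flip_apply]
    have hδ : ∀ k l, B (u₀ k) (w₀ l) = if k = l then 1 else 0 := by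
      intro k l
      by_cases h : k = l
      · rw [if_pos h, h]
        exact r1 l
      · rw [if_neg h]
        exact r4 k l h
    have hδ' : ∀ k l, B (w₀ k) (u₀ l) = if k = l then -1 else 0 := by
      intro k l
      rw [hskew, hδ l k]
      by_cases h : k = l
      · rw [if_pos h, if_pos h.symm]
      · rw [if_neg h, if_neg (Ne.symm h), neg_zero]
    have hρmem : ∀ y, ρ y ∈ Submodule.span F (Set.range u₀ ∪ Set.range w₀) := by
      intro y
      rw [hρ]
      refine Submodule.sum_mem _ fun k _ => ?_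
      exact Submodule.sub_mem _
        (Submodule.smul_mem _ _ (Submodule.subset_span (Or.inl ⟨k, rfl⟩)))
        (Submodule.smul_mem _ _ (Submodule.subset_span (Or.inr ⟨k, rfl⟩)))
    have hspanW : Submodule.span F (Set.range u₀ ∪ Set.range w₀) ≤ W := by
      refine Submodule.span_le.2 ?_
      rintro _ (⟨k, rfl⟩ | ⟨k, rfl⟩)
      · exact hu₀W k
      · exact hw₀W k
    have hρu : ∀ y l, B (ρ y) (u₀ l) = B y (u₀ l) := by
      intro y l
      rw [hρ, map_sum, LinearMap.sum_apply, Finset.sum_eq_single l]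
      · simp [r2, hδ']
      · intro k _ hk
        simp [r2, hδ', hk]
      · intro h
        exact absurd (Finset.mem_univ l) h
    have hρw : ∀ y l, B (ρ y) (w₀ l) = B y (w₀ l) := by
      intro y l
      rw [hρ, map_sum, LinearMap.sum_apply, Finset.sum_eq_single l]
      · simp [r3, hδ]
      · intro k _ hk
        simp [r3, hδ, hk]
      · intro h
        exact absurd (Finset.mem_univ l) h
    have hsubP : ∀ y, y - ρ y ∈ P' := by
      intro y
      rw [hP']
      intro k
      exact ⟨by rw [map_sub, LinearMap.sub_apply, hρu, sub_self],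
        by rw [map_sub, LinearMap.sub_apply, hρw, sub_self]⟩
    have hW'inv : ∀ y ∈ W ⊓ P', X y ∈ W ⊓ P' := by
      intro y hy
      obtain ⟨hy1, hy2⟩ := Submodule.mem_inf.1 hy
      rw [hP'] at hy2
      have hyspan : ∀ l, ∀ v ∈ Submodule.span F {u₀ l, w₀ l}, B y v = 0 := by
        intro l v hv
        obtain ⟨α, β, rfl⟩ := Submodule.mem_span_pair.1 hv
        rw [map_add, map_smul, map_smul, (hy2 l).1, (hy2 l).2, smul_zero, smul_zero, add_zero]
      have key : ∀ v, B y (X v) = 0 → B (X y) v = 0 := by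
        intro v hv
        have h1 : z⁻¹ • X (X v) = v := by rw [hX, smul_smul, inv_mul_cancel₀ hz, one_smul]
        rw [← h1, map_smul, hXB, hv, smul_zero]
      refine Submodule.mem_inf.2 ⟨hW y hy1, (hP' _).2 fun k => ?_⟩
      exact ⟨key _ (hyspan _ _ (hc₀ k).1), key _ (hyspan _ _ (hc₀ k).2)⟩
    have hnd' : NonDeg B (W ⊓ P') := by
      intro y hy hy0
      obtain ⟨hy1, hy2⟩ := Submodule.mem_inf.1 hy
      obtain ⟨v, hvW, hv⟩ := hnd y hy1 hy0
      refine ⟨v - ρ v, Submodule.mem_inf.2 ⟨W.sub_mem hvW (hspanW (hρmem v)), hsubP v⟩, ?_⟩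
      have h1 : B y (ρ v) = 0 := by
        refine bil_span_zero B (S := {y}) (T := Set.range u₀ ∪ Set.range w₀) ?_ y
          (Submodule.mem_span_singleton_self y) _ (hρmem v)
        rintro s hs t (⟨k, rfl⟩ | ⟨k, rfl⟩)
        · rw [Set.mem_singleton_iff.1 hs]
          exact ((hP' y).1 hy2 k).1
        · rw [Set.mem_singleton_iff.1 hs]
          exact ((hP' y).1 hy2 k).2
      rw [map_sub, h1, sub_zero]
      exact hv
    have hlt : W ⊓ P' < W := by
      refine lt_of_le_of_ne inf_le_left fun h => ?_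
      obtain ⟨k₀⟩ := hne
      have h1 : u₀ k₀ ∈ W ⊓ P' := by
        rw [h]
        exact hu₀W k₀
      have h2 := ((hP' _).1 (Submodule.mem_inf.1 h1).2 k₀).2
      rw [r1 k₀] at h2
      exact one_ne_zero h2
    have hn' : Module.finrank F ↥(W ⊓ P') < n := by
      rw [← hn]
      exact Submodule.finrank_lt_finrank_of_lt hlt
    obtain ⟨ι', hι', u', w', π', ⟨q1, q2, q3, q4⟩, hsp', hπ', hc', hQ'⟩ :=
      ih _ hn' (W ⊓ P') rfl hW'inv hnd'
    have hu'm : ∀ k, u' k ∈ W ⊓ P' := fun k => by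
      rw [← hsp']
      exact Submodule.subset_span (Or.inl ⟨k, rfl⟩)
    have hw'm : ∀ k, w' k ∈ W ⊓ P' := fun k => by
      rw [← hsp']
      exact Submodule.subset_span (Or.inr ⟨k, rfl⟩)
    have hu'P : ∀ k l, B (u' k) (u₀ l) = 0 ∧ B (u' k) (w₀ l) = 0 := fun k l =>
      (hP' _).1 (Submodule.mem_inf.1 (hu'm k)).2 l
    have hw'P : ∀ k l, B (w' k) (u₀ l) = 0 ∧ B (w' k) (w₀ l) = 0 := fun k l =>
      (hP' _).1 (Submodule.mem_inf.1 (hw'm k)).2 l
    refine ⟨ι₀ ⊕ ι', inferInstance, Sum.elim u₀ u', Sum.elim w₀ w', Sum.map π₀ π',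
      ⟨?_, ?_, ?_, ?_⟩, ?_, ?_, ?_, ?_⟩
    · rintro (k | k)
      · exact r1 k
      · exact q1 k
    · rintro (k | k) (l | l)
      · exact r2 k l
      · show B (u₀ k) (u' l) = 0
        rw [hskew, (hu'P l k).1, neg_zero]
      · exact (hu'P k l).1
      · exact q2 k l
    · rintro (k | k) (l | l)
      · exact r3 k l
      · show B (w₀ k) (w' l) = 0
        rw [hskew, (hw'P l k).2, neg_zero]
      · exact (hw'P k l).2
      · exact q3 k l
    · rintro (k | k) (l | l) hkl
      · exact r4 k l (fun h => hkl (congrArg Sum.inl h))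
      · show B (u₀ k) (w' l) = 0
        rw [hskew, (hw'P l k).1, neg_zero]
      · exact (hu'P k l).2
      · exact q4 k l (fun h => hkl (congrArg Sum.inr h))
    · have e1 : Set.range (Sum.elim u₀ u') ∪ Set.range (Sum.elim w₀ w')
          = (Set.range u₀ ∪ Set.range w₀) ∪ (Set.range u' ∪ Set.range w') := by
        rw [Set.Sum.elim_range, Set.Sum.elim_range]
        exact Set.union_union_union_comm _ _ _ _
      rw [e1, Submodule.span_union, hsp']
      apply le_antisymm
      · exact sup_le hspanW inf_le_left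
      · intro y hy
        have h3 : ρ y + (y - ρ y) = y := by abel
        rw [← h3]
        exact Submodule.add_mem_sup (hρmem y)
          (Submodule.mem_inf.2 ⟨W.sub_mem hy (hspanW (hρmem y)), hsubP y⟩)
    · rintro (k | k)
      · show Sum.inl (π₀ (π₀ k)) = Sum.inl k
        rw [hπ₀ k]
      · show Sum.inr (π' (π' k)) = Sum.inr k
        rw [hπ' k]
    · rintro (k | k)
      · exact hc₀ k
      · exact hc' k
    · rintro (k | k)
      · exact hQ₀ k
      · exact hQ' k

theorem hyp_linIndep {ι : Type*} [Fintype ι] (B : V →ₗ[F] V →ₗ[F] F) (halt : ∀ v, B v v = 0)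
    (u w : ι → V) (hrel : HypRel B u w) : LinearIndependent F (Sum.elim u w) := by
  classical
  obtain ⟨r1, r2, r3, r4⟩ := hrel
  have hskew := alt_skew B halt
  rw [Fintype.linearIndependent_iff]
  intro c hc
  rw [Fintype.sum_sum_type] at hc
  simp only [Sum.elim_inl, Sum.elim_inr] at hc
  have hl : ∀ l, c (Sum.inl l) = 0 := by
    intro l
    have h := congrArg (fun y => B y (w l)) hc
    simp only [map_add, map_sum, map_smul, LinearMap.add_apply, LinearMap.sum_apply,
      LinearMap.smul_apply, smul_eq_mul, r3, mul_zero, Finset.sum_const_zero, add_zero, map_zero,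
      LinearMap.zero_apply] at h
    rw [Finset.sum_eq_single l] at h
    · rw [r1 l, mul_one] at h
      exact h
    · intro k _ hk
      rw [r4 k l hk, mul_zero]
    · intro h'
      exact absurd (Finset.mem_univ l) h'
  have hr : ∀ l, c (Sum.inr l) = 0 := by
    intro l
    have h := congrArg (fun y => B y (u l)) hc
    simp only [map_add, map_sum, map_smul, LinearMap.add_apply, LinearMap.sum_apply,
      LinearMap.smul_apply, smul_eq_mul, r2, mul_zero, Finset.sum_const_zero, zero_add, map_zero,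
      LinearMap.zero_apply] at h
    rw [Finset.sum_eq_single l] at h
    · rw [hskew, r1 l, mul_neg, mul_one, neg_eq_zero] at h
      exact h
    · intro k _ hk
      rw [hskew, r4 l k (Ne.symm hk), neg_zero, mul_zero]
    · intro h'
      exact absurd (Finset.mem_univ l) h'
  rintro (l | l)
  · exact hl l
  · exact hr l

theorem finrank_map_of_sq [FiniteDimensional F V] (X : V →ₗ[F] V) (z : F) (hz : z ≠ 0)
    (hX : ∀ v, X (X v) = z • v) (U : Submodule F V) :
    Module.finrank F (U.map X) = Module.finrank F U := by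
  have hinj : Function.Injective X := by
    rw [← LinearMap.ker_eq_bot, LinearMap.ker_eq_bot']
    intro v hv
    have h1 := hX v
    rw [hv, map_zero] at h1
    exact (smul_eq_zero.1 h1.symm).resolve_left hz
  have h := LinearEquiv.finrank_map_eq (LinearEquiv.ofInjectiveEndo X hinj) U
  have e : ((LinearEquiv.ofInjectiveEndo X hinj : V ≃ₗ[F] V) : V →ₗ[F] V) = X :=
    LinearMap.ext fun v => rfl
  rw [e] at h
  exact h

theorem lagr_compl {ι : Type*} (B : V →ₗ[F] V →ₗ[F] F)
    (hnd : ∀ u, (∀ v, B u v = 0) → u = 0) (u w : ι → V) (hrel : HypRel B u w)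
    (hsp : Submodule.span F (Set.range u ∪ Set.range w) = ⊤) :
    IsCompl (Submodule.span F (Set.range u)) (Submodule.span F (Set.range w)) ∧
    (∀ a ∈ Submodule.span F (Set.range u), ∀ b ∈ Submodule.span F (Set.range u), B a b = 0) ∧
    (∀ a ∈ Submodule.span F (Set.range w), ∀ b ∈ Submodule.span F (Set.range w), B a b = 0) := by
  obtain ⟨r1, r2, r3, r4⟩ := hrel
  have iso_u : ∀ a ∈ Submodule.span F (Set.range u), ∀ b ∈ Submodule.span F (Set.range u),
      B a b = 0 := by
    refine bil_span_zero B ?_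
    rintro _ ⟨k, rfl⟩ _ ⟨l, rfl⟩
    exact r2 k l
  have iso_w : ∀ a ∈ Submodule.span F (Set.range w), ∀ b ∈ Submodule.span F (Set.range w),
      B a b = 0 := by
    refine bil_span_zero B ?_
    rintro _ ⟨k, rfl⟩ _ ⟨l, rfl⟩
    exact r3 k l
  refine ⟨⟨?_, ?_⟩, iso_u, iso_w⟩
  · rw [Submodule.disjoint_def]
    intro y hy1 hy2
    apply hnd
    intro v
    have hv : v ∈ Submodule.span F (Set.range u) ⊔ Submodule.span F (Set.range w) := by
      rw [← Submodule.span_union, hsp]
      exact Submodule.mem_top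
    obtain ⟨a, ha, b, hb, rfl⟩ := Submodule.mem_sup.1 hv
    rw [map_add, iso_u y hy1 a ha, iso_w y hy2 b hb, add_zero]
  · rw [codisjoint_iff, ← Submodule.span_union, hsp]

theorem lagr_fixed [FiniteDimensional F V] {ι : Type*} (X : V →ₗ[F] V) (z : F) (hz : z ≠ 0)
    (hX : ∀ v, X (X v) = z • v) (u w : ι → V) (hQ : ∀ k, QA X (u k) (w k)) :
    (Submodule.span F (Set.range u)).map X = Submodule.span F (Set.range u) ∧
    (Submodule.span F (Set.range w)).map X = Submodule.span F (Set.range w) := by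
  constructor
  · refine Submodule.eq_of_le_of_finrank_eq ?_ (finrank_map_of_sq X z hz hX _)
    rw [Submodule.map_span, Submodule.span_le]
    rintro _ ⟨_, ⟨k, rfl⟩, rfl⟩
    obtain ⟨c, hc⟩ := (hQ k).1
    show X (u k) ∈ Submodule.span F (Set.range u)
    rw [hc]
    exact Submodule.smul_mem _ _ (Submodule.subset_span ⟨k, rfl⟩)
  · refine Submodule.eq_of_le_of_finrank_eq ?_ (finrank_map_of_sq X z hz hX _)
    rw [Submodule.map_span, Submodule.span_le]
    rintro _ ⟨_, ⟨k, rfl⟩, rfl⟩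
    obtain ⟨c, hc⟩ := (hQ k).2
    show X (w k) ∈ Submodule.span F (Set.range w)
    rw [hc]
    exact Submodule.smul_mem _ _ (Submodule.subset_span ⟨k, rfl⟩)

theorem lagr_swapped [FiniteDimensional F V] {ι : Type*} (X : V →ₗ[F] V) (z : F) (hz : z ≠ 0)
    (hX : ∀ v, X (X v) = z • v) (u w : ι → V) (hQ : ∀ k, QB X (u k) (w k)) :
    (Submodule.span F (Set.range u)).map X = Submodule.span F (Set.range w) ∧
    (Submodule.span F (Set.range w)).map X = Submodule.span F (Set.range u) := by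
  have hle1 : (Submodule.span F (Set.range u)).map X ≤ Submodule.span F (Set.range w) := by
    rw [Submodule.map_span, Submodule.span_le]
    rintro _ ⟨_, ⟨k, rfl⟩, rfl⟩
    obtain ⟨c, hc⟩ := (hQ k).1
    show X (u k) ∈ Submodule.span F (Set.range w)
    rw [hc]
    exact Submodule.smul_mem _ _ (Submodule.subset_span ⟨k, rfl⟩)
  have hle2 : (Submodule.span F (Set.range w)).map X ≤ Submodule.span F (Set.range u) := by
    rw [Submodule.map_span, Submodule.span_le]
    rintro _ ⟨_, ⟨k, rfl⟩, rfl⟩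
    obtain ⟨c, hc⟩ := (hQ k).2
    show X (w k) ∈ Submodule.span F (Set.range u)
    rw [hc]
    exact Submodule.smul_mem _ _ (Submodule.subset_span ⟨k, rfl⟩)
  have f1 := finrank_map_of_sq X z hz hX (Submodule.span F (Set.range u))
  have f2 := finrank_map_of_sq X z hz hX (Submodule.span F (Set.range w))
  have m1 := Submodule.finrank_mono hle1
  have m2 := Submodule.finrank_mono hle2
  exact ⟨Submodule.eq_of_le_of_finrank_eq hle1 (by omega),
    Submodule.eq_of_le_of_finrank_eq hle2 (by omega)⟩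

/-- From a hyperbolic system and a compatible labelling: an orthogonal decomposition into
nondegenerate subspaces permuted by `X`. -/
theorem decomp_of_hypsys [FiniteDimensional F V] (B : V →ₗ[F] V →ₗ[F] F)
    (halt : ∀ v, B v v = 0) (hnd : ∀ u, (∀ v, B u v = 0) → u = 0) (X : V →ₗ[F] V) (z : F)
    (hz : z ≠ 0) (hX : ∀ v, X (X v) = z • v) {ι : Type} [Fintype ι] (u w : ι → V) (π : ι → ι)
    (hrel : HypRel B u w) (hsp : Submodule.span F (Set.range u ∪ Set.range w) = ⊤)
    (hc : HypCompat X u w π) {t : ℕ} (g : ι → Fin t) (τ : Equiv.Perm (Fin t))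
    (hg : ∀ k, g (π k) = τ (g k)) (m : ℕ)
    (hm : ∀ j, (Finset.univ.filter (fun k => g k = j)).card = m) :
    ∃ D : Fin t → Submodule F V, iSupIndep D ∧ iSup D = ⊤ ∧
      (∀ j, Module.finrank F (D j) = 2 * m) ∧ (∀ j, NonDeg B (D j)) ∧
      (∀ j j', j ≠ j' → ∀ a ∈ D j, ∀ b ∈ D j', B a b = 0) ∧ ∀ j, (D j).map X = D (τ j) := by
  classical
  have hli := hyp_linIndep B halt u w hrel
  have hskew := alt_skew B halt
  obtain ⟨r1, r2, r3, r4⟩ := hrel
  have hspb : Submodule.span F (Set.range (Sum.elim u w)) = ⊤ := by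
    rw [Set.Sum.elim_range]
    exact hsp
  obtain ⟨d1, d2, d3⟩ := decomp_of_basis (Sum.elim u w) hli hspb (Sum.elim g g)
  have hort : ∀ i i' : ι ⊕ ι, Sum.elim g g i ≠ Sum.elim g g i' →
      B (Sum.elim u w i) (Sum.elim u w i') = 0 := by
    rintro (k | k) (l | l) h
    · exact r2 k l
    · exact r4 k l (fun e => h (congrArg g e))
    · show B (w k) (u l) = 0
      rw [hskew, r4 l k (fun e => h (congrArg g e.symm)), neg_zero]
    · exact r3 k l
  have hfin : ∀ j, Module.finrank F
      (Submodule.span F (Sum.elim u w '' {i | Sum.elim g g i = j})) = 2 * m := by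
    intro j
    have hm' := hm j
    rw [Finset.card_filter] at hm'
    rw [d3 j, Finset.card_filter, Fintype.sum_sum_type]
    exact (congrArg₂ (fun a b => a + b) hm' hm').trans (two_mul m).symm
  refine ⟨fun j => Submodule.span F (Sum.elim u w '' {i | Sum.elim g g i = j}), d1, d2, hfin,
    ?_, ?_, ?_⟩
  · intro j y hy hy0
    by_contra hcon
    push Not at hcon
    apply hy0
    apply hnd
    have hb : ∀ i, B y (Sum.elim u w i) = 0 := by
      intro i
      by_cases hi : Sum.elim g g i = j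
      · exact hcon _ (Submodule.subset_span ⟨i, hi, rfl⟩)
      · refine bil_span_zero B (S := Sum.elim u w '' {i | Sum.elim g g i = j})
          (T := {Sum.elim u w i}) ?_ y hy _ (Submodule.mem_span_singleton_self _)
        rintro _ ⟨i', hi', rfl⟩ t ht
        have hi'' : Sum.elim g g i' = j := hi'
        rw [Set.mem_singleton_iff.1 ht]
        exact hort i' i (fun e => hi (e.symm.trans hi''))
    intro v
    have hv : v ∈ Submodule.span F (Set.range (Sum.elim u w)) := by
      rw [hspb]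
      exact Submodule.mem_top
    refine bil_span_zero B (S := {y}) (T := Set.range (Sum.elim u w)) ?_ y
      (Submodule.mem_span_singleton_self y) v hv
    rintro s hs _ ⟨i, rfl⟩
    rw [Set.mem_singleton_iff.1 hs]
    exact hb i
  · intro j j' hjj'
    show ∀ a ∈ Submodule.span F (Sum.elim u w '' {i | Sum.elim g g i = j}),
      ∀ b ∈ Submodule.span F (Sum.elim u w '' {i | Sum.elim g g i = j'}), B a b = 0
    refine bil_span_zero B ?_
    rintro _ ⟨i, hi, rfl⟩ _ ⟨i', hi', rfl⟩
    have h1 : Sum.elim g g i = j := hi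
    have h2 : Sum.elim g g i' = j' := hi'
    exact hort i i' (by rw [h1, h2]; exact hjj')
  · intro j
    show (Submodule.span F (Sum.elim u w '' {i | Sum.elim g g i = j})).map X
      = Submodule.span F (Sum.elim u w '' {i | Sum.elim g g i = τ j})
    have hle : (Submodule.span F (Sum.elim u w '' {i | Sum.elim g g i = j})).map X
        ≤ Submodule.span F (Sum.elim u w '' {i | Sum.elim g g i = τ j}) := by
      rw [Submodule.map_span, Submodule.span_le]
      rintro _ ⟨_, ⟨i, hi, rfl⟩, rfl⟩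
      have hi' : Sum.elim g g i = j := hi
      have hpair : ∀ k, g k = j → Submodule.span F {u (π k), w (π k)}
          ≤ Submodule.span F (Sum.elim u w '' {i | Sum.elim g g i = τ j}) := by
        intro k hk
        refine Submodule.span_le.2 ?_
        have hgk : g (π k) = τ j := by rw [hg k, hk]
        rintro y (rfl | rfl)
        · exact Submodule.subset_span ⟨Sum.inl (π k), hgk, rfl⟩
        · exact Submodule.subset_span ⟨Sum.inr (π k), hgk, rfl⟩
      rcases i with k | k
      · exact hpair k hi' (hc k).1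
      · exact hpair k hi' (hc k).2
    refine Submodule.eq_of_le_of_finrank_eq hle ?_
    rw [finrank_map_of_sq X z hz hX, hfin j, hfin (τ j)]

end Sympl

end Cfsg.Agent.Helper29
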