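import Mathlib
import Cfsg.Prelude.Def_ClassicalGeometry
import Cfsg.Agent.Helper29.Sympl

set_option autoImplicit false

namespace Cfsg.Agent.Helper29

open Matrix

section SymplStd

variable {F : Type*} [Field F] (d : ℕ)

/-- The standard alternating form as a bilinear map. -/
def sympB : (Fin d ⊕ Fin d → F) →ₗ[F] (Fin d ⊕ Fin d → F) →ₗ[F] F :=
  LinearMap.mk₂ F (Cfsg.sympForm d F)
    (fun u₁ u₂ v => add_dotProduct _ _ _)
    (fun c u v => smul_dotProduct _ _ _)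
    (fun u v₁ v₂ => by unfold Cfsg.sympForm; rw [Matrix.mulVec_add, dotProduct_add])
    (fun c u v => by unfold Cfsg.sympForm; rw [Matrix.mulVec_smul, dotProduct_smul])

theorem sympB_apply (u v : Fin d ⊕ Fin d → F) : sympB d u v = Cfsg.sympForm d F u v := rfl

theorem sympB_alt (v : Fin d ⊕ Fin d → F) : sympB d v v = 0 := by
  show Cfsg.sympForm d F v v = 0
  unfold Cfsg.sympForm Matrix.J
  rw [Matrix.fromBlocks_mulVec, dotProduct, Fintype.sum_sum_type]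
  simp only [Sum.elim_inl, Sum.elim_inr, Matrix.zero_mulVec, Matrix.neg_mulVec, Matrix.one_mulVec,
    zero_add, add_zero, Pi.neg_apply, Function.comp_apply]
  rw [← Finset.sum_add_distrib]
  exact Finset.sum_eq_zero fun i _ => by ring

theorem sympB_nondeg (u : Fin d ⊕ Fin d → F) (h : ∀ v, sympB d u v = 0) : u = 0 := by
  classical
  funext i
  have h1 := h ((-Matrix.J (Fin d) F) *ᵥ Pi.single i 1)
  have h2 : Matrix.J (Fin d) F *ᵥ ((-Matrix.J (Fin d) F) *ᵥ Pi.single i (1 : F))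
      = Pi.single i 1 := by
    rw [Matrix.mulVec_mulVec, Matrix.mul_neg, Matrix.J_squared, neg_neg, Matrix.one_mulVec]
  have h3 : sympB d u ((-Matrix.J (Fin d) F) *ᵥ Pi.single i 1)
      = u ⬝ᵥ (Matrix.J (Fin d) F *ᵥ ((-Matrix.J (Fin d) F) *ᵥ Pi.single i (1 : F))) := rfl
  rw [h3, h2, dotProduct_single_one] at h1
  exact h1

theorem sympB_inv (x : Matrix (Fin d ⊕ Fin d) (Fin d ⊕ Fin d) F)
    (hx : x ∈ Matrix.symplecticGroup (Fin d) F) (u v : Fin d ⊕ Fin d → F) :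
    sympB d (Matrix.toLin' x u) (Matrix.toLin' x v) = sympB d u v := by
  have hJ : xᵀ * Matrix.J (Fin d) F * x = Matrix.J (Fin d) F :=
    SymplecticGroup.mem_iff'.1 hx
  show Cfsg.sympForm d F (Matrix.toLin' x u) (Matrix.toLin' x v) = Cfsg.sympForm d F u v
  rw [Matrix.toLin'_apply, Matrix.toLin'_apply]
  unfold Cfsg.sympForm
  calc (x *ᵥ u) ⬝ᵥ (Matrix.J (Fin d) F *ᵥ (x *ᵥ v))
      = (u ᵥ* xᵀ) ⬝ᵥ ((Matrix.J (Fin d) F * x) *ᵥ v) := by
        rw [Matrix.vecMul_transpose, Matrix.mulVec_mulVec]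
    _ = u ⬝ᵥ (xᵀ *ᵥ ((Matrix.J (Fin d) F * x) *ᵥ v)) := (Matrix.dotProduct_mulVec u xᵀ _).symm
    _ = u ⬝ᵥ (Matrix.J (Fin d) F *ᵥ v) := by rw [Matrix.mulVec_mulVec, ← Matrix.mul_assoc, hJ]

theorem sympB_nonDeg_top : NonDeg (sympB (F := F) d) ⊤ := by
  intro u _ hu
  by_contra hcon
  push Not at hcon
  exact hu (sympB_nondeg d u (fun v => hcon v Submodule.mem_top))

/-- The linear map of a symplectic matrix with scalar square `z` squares to `z`, and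
`z * z = 1`. -/
theorem sympl_setup (hd : 1 ≤ d) (x : ↥(Matrix.symplecticGroup (Fin d) F)) (z : F)
    (hz : ((x ^ 2 : ↥(Matrix.symplecticGroup (Fin d) F)) :
      Matrix (Fin d ⊕ Fin d) (Fin d ⊕ Fin d) F) = z • (1 : Matrix (Fin d ⊕ Fin d) (Fin d ⊕ Fin d) F)) :
    (∀ v, Matrix.toLin' (x : Matrix (Fin d ⊕ Fin d) (Fin d ⊕ Fin d) F)
        (Matrix.toLin' (x : Matrix (Fin d ⊕ Fin d) (Fin d ⊕ Fin d) F) v) = z • v) ∧ z * z = 1 := by
  classical
  have hX : ∀ v, Matrix.toLin' (x : Matrix (Fin d ⊕ Fin d) (Fin d ⊕ Fin d) F)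
      (Matrix.toLin' (x : Matrix (Fin d ⊕ Fin d) (Fin d ⊕ Fin d) F) v) = z • v := by
    intro v
    have h1 : ((x ^ 2 : ↥(Matrix.symplecticGroup (Fin d) F)) :
        Matrix (Fin d ⊕ Fin d) (Fin d ⊕ Fin d) F)
        = (x : Matrix (Fin d ⊕ Fin d) (Fin d ⊕ Fin d) F)
          * (x : Matrix (Fin d ⊕ Fin d) (Fin d ⊕ Fin d) F) :=
      congrArg Subtype.val (pow_two x)
    rw [← Matrix.toLin'_mul_apply, ← h1, hz, Matrix.toLin'_apply, Matrix.smul_mulVec,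
      Matrix.one_mulVec]
  refine ⟨hX, ?_⟩
  have hu0 : (Pi.single (Sum.inl ⟨0, hd⟩) 1 : Fin d ⊕ Fin d → F) ≠ 0 := by
    intro h
    have := congrFun h (Sum.inl ⟨0, hd⟩)
    simp at this
  obtain ⟨v, -, hv⟩ := sympB_nonDeg_top (F := F) d _ Submodule.mem_top hu0
  have h1 := sympB_inv d _ x.2
    (Matrix.toLin' (x : Matrix (Fin d ⊕ Fin d) (Fin d ⊕ Fin d) F) (Pi.single (Sum.inl ⟨0, hd⟩) 1))
    (Matrix.toLin' (x : Matrix (Fin d ⊕ Fin d) (Fin d ⊕ Fin d) F) v)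
  rw [hX, hX, sympB_inv d _ x.2, map_smul, map_smul, LinearMap.smul_apply, smul_eq_mul,
    smul_eq_mul] at h1
  have h2 : (z * z - 1) * sympB d (Pi.single (Sum.inl ⟨0, hd⟩) 1) v = 0 := by
    linear_combination h1
  rcases mul_eq_zero.1 h2 with h | h
  · exact sub_eq_zero.1 h
  · exact absurd h hv

end SymplStd

end Cfsg.Agent.Helper29
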