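import Mathlib

set_option autoImplicit false

namespace Cfsg.Agent.Helper29.Transv

open Matrix

/-- The ordering `0 < 2 < 3 < 4 < 1` of the five coordinates. -/
def tpos : Fin 5 → Fin 5 := ![0, 4, 1, 2, 3]

theorem tpos_injective : Function.Injective tpos := by decide

theorem tpos_zero_lt : ∀ i : Fin 5, i ≠ 0 → tpos 0 < tpos i := by decide

theorem tpos_lt_one : ∀ j : Fin 5, j ≠ 1 → tpos j < tpos 1 := by decide

/-- Unitriangular with respect to the ordering `tpos`. -/
def IsUT (M : Matrix (Fin 5) (Fin 5) (ZMod 2)) : Prop :=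
  Matrix.BlockTriangular M tpos ∧ ∀ i, M i i = 1

theorem isUT_one : IsUT (1 : Matrix (Fin 5) (Fin 5) (ZMod 2)) :=
  ⟨Matrix.blockTriangular_one, fun i => Matrix.one_apply_eq i⟩

theorem isUT_mul {M N : Matrix (Fin 5) (Fin 5) (ZMod 2)} (hM : IsUT M) (hN : IsUT N) :
    IsUT (M * N) := by
  refine ⟨hM.1.mul hN.1, fun i => ?_⟩
  rw [Matrix.mul_apply, Finset.sum_eq_single i]
  · rw [hM.2, hN.2, mul_one]
  · intro k _ hk
    rcases lt_trichotomy (tpos k) (tpos i) with h | h | h
    · rw [hM.1 h, zero_mul]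
    · exact absurd (tpos_injective h) hk
    · rw [hN.1 h, mul_zero]
  · intro h
    exact absurd (Finset.mem_univ i) h

theorem isUT_pow {M : Matrix (Fin 5) (Fin 5) (ZMod 2)} (hM : IsUT M) (k : ℕ) : IsUT (M ^ k) := by
  induction k with
  | zero => rw [pow_zero]; exact isUT_one
  | succ k ih => rw [pow_succ]; exact isUT_mul ih hM

/-- The permutation of coordinates given by `tpos`. -/
noncomputable def tposEquiv : Fin 5 ≃ Fin 5 := Equiv.ofBijective tpos
  ⟨tpos_injective, Finite.surjective_of_injective tpos_injective⟩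

theorem isUT_det {M : Matrix (Fin 5) (Fin 5) (ZMod 2)} (hM : IsUT M) : M.det = 1 := by
  rw [← Matrix.det_submatrix_equiv_self tposEquiv.symm M]
  have hup : (M.submatrix tposEquiv.symm tposEquiv.symm).IsUpperTriangular := by
    intro i j hij
    rw [Matrix.submatrix_apply]
    apply hM.1
    have h1 : tpos (tposEquiv.symm i) = i := tposEquiv.apply_symm_apply i
    have h2 : tpos (tposEquiv.symm j) = j := tposEquiv.apply_symm_apply j
    rw [h1, h2]
    exact hij
  rw [Matrix.det_of_isUpperTriangular hup]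
  apply Finset.prod_eq_one
  intro i _
  rw [Matrix.submatrix_apply, hM.2]

theorem isUT_transvection {a b : Fin 5} (hab : tpos a < tpos b) :
    IsUT (Matrix.transvection a b (1 : ZMod 2)) := by
  refine ⟨Matrix.blockTriangular_transvection hab.le 1, fun i => ?_⟩
  have hne : a ≠ b := fun h => by rw [h] at hab; exact lt_irrefl _ hab
  rw [Matrix.transvection, Matrix.add_apply, Matrix.one_apply_eq, Matrix.single_apply_of_ne,
    add_zero]
  rintro ⟨rfl, rfl⟩
  exact hne rfl

/-- Every `tpos`-unitriangular matrix commutes with the transvection `1 + E₀₁`. -/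
theorem isUT_comm {M : Matrix (Fin 5) (Fin 5) (ZMod 2)} (hM : IsUT M) :
    M * Matrix.transvection 0 1 (1 : ZMod 2) = Matrix.transvection 0 1 (1 : ZMod 2) * M := by
  rw [Matrix.transvection, Matrix.mul_add, Matrix.add_mul, Matrix.mul_one, Matrix.one_mul]
  congr 1
  ext i j
  by_cases hj : j = 1
  · subst hj
    rw [Matrix.mul_single_apply_same, mul_one]
    by_cases hi : i = 0
    · subst hi
      rw [Matrix.single_mul_apply_same, one_mul, hM.2, hM.2]
    · rw [Matrix.single_mul_apply_of_ne _ _ _ _ _ hi]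
      apply hM.1
      exact tpos_zero_lt i hi
  · rw [Matrix.mul_single_apply_of_ne _ _ _ _ _ hj]
    by_cases hi : i = 0
    · subst hi
      rw [Matrix.single_mul_apply_same, one_mul]
      symm
      apply hM.1
      exact tpos_lt_one j hj
    · rw [Matrix.single_mul_apply_of_ne _ _ _ _ _ hi]

/-- A matrix of determinant one commuting with all the `tpos`-positive transvections is
`1` or the transvection `1 + E₀₁`. -/
theorem comm_all {g : Matrix (Fin 5) (Fin 5) (ZMod 2)}
    (hg : ∀ a b : Fin 5, tpos a < tpos b →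
      g * Matrix.transvection a b (1 : ZMod 2) = Matrix.transvection a b (1 : ZMod 2) * g)
    (hdet : g.det = 1) :
    g = 1 ∨ g = Matrix.transvection 0 1 (1 : ZMod 2) := by
  have hg' : ∀ a b : Fin 5, tpos a < tpos b →
      g * Matrix.single a b (1 : ZMod 2) = Matrix.single a b (1 : ZMod 2) * g := by
    intro a b hab
    have h := hg a b hab
    rw [Matrix.transvection, Matrix.mul_add, Matrix.add_mul, Matrix.mul_one, Matrix.one_mul] at h
    exact add_left_cancel h
  -- column `a` vanishes off the diagonal when `a` is not the last coordinate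
  have hcol : ∀ a b i : Fin 5, tpos a < tpos b → i ≠ a → g i a = 0 := by
    intro a b i hab hi
    have h := congrFun (congrFun (hg' a b hab) i) b
    rw [Matrix.mul_single_apply_same, mul_one, Matrix.single_mul_apply_of_ne _ _ _ _ _ hi] at h
    exact h
  -- row `b` vanishes off the diagonal when `b` is not the first coordinate
  have hrow : ∀ a b j : Fin 5, tpos a < tpos b → j ≠ b → g b j = 0 := by
    intro a b j hab hj
    have h := congrFun (congrFun (hg' a b hab) a) j
    rw [Matrix.mul_single_apply_of_ne _ _ _ _ _ hj, Matrix.single_mul_apply_same, one_mul] at h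
    exact h.symm
  have hdiag : ∀ a b : Fin 5, tpos a < tpos b → g a a = g b b := by
    intro a b hab
    have h := congrFun (congrFun (hg' a b hab) a) b
    rw [Matrix.mul_single_apply_same, mul_one, Matrix.single_mul_apply_same, one_mul] at h
    exact h
  have hoff : ∀ i j : Fin 5, i ≠ j → (i, j) ≠ (0, 1) → g i j = 0 := by
    intro i j hij h01
    by_cases hj : j = 1
    · subst hj
      have hi : i ≠ 0 := fun h => h01 (by rw [h])
      -- row i, with i ≠ 0: some a has tpos a < tpos i
      exact hrow 0 i 1 (tpos_zero_lt i hi) hij.symm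
    · exact hcol j 1 i (tpos_lt_one j hj) hij
  have hd0 : ∀ i : Fin 5, g i i = g 0 0 := by
    intro i
    by_cases hi : i = 0
    · rw [hi]
    · exact (hdiag 0 i (tpos_zero_lt i hi)).symm
  have h00 : g 0 0 = 1 := by
    by_contra hne
    have h0 : g 0 0 = 0 := by
      have : ∀ x : ZMod 2, x ≠ 1 → x = 0 := by decide
      exact this _ hne
    have hcol0 : ∀ i, g i 0 = 0 := by
      intro i
      by_cases hi : i = 0
      · rw [hi, h0]
      · exact hoff i 0 hi (by simp)
    have : g.det = 0 := Matrix.det_eq_zero_of_column_eq_zero 0 hcol0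
    rw [this] at hdet
    exact zero_ne_one hdet
  have hcases : g 0 1 = 0 ∨ g 0 1 = 1 := by
    have : ∀ x : ZMod 2, x = 0 ∨ x = 1 := by decide
    exact this _
  rcases hcases with h01 | h01
  · left
    ext i j
    by_cases hij : i = j
    · subst hij
      rw [hd0, h00, Matrix.one_apply_eq]
    · rw [Matrix.one_apply_ne hij]
      by_cases hp : (i, j) = (0, 1)
      · have hi : i = 0 := congrArg Prod.fst hp
        have hj : j = 1 := congrArg Prod.snd hp
        rw [hi, hj, h01]
      · exact hoff i j hij hp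
  · right
    ext i j
    rw [Matrix.transvection, Matrix.add_apply]
    by_cases hij : i = j
    · subst hij
      rw [hd0, h00, Matrix.one_apply_eq, Matrix.single_apply_of_ne, add_zero]
      rintro ⟨h1, h2⟩
      rw [← h1] at h2
      exact absurd h2 (by decide)
    · rw [Matrix.one_apply_ne hij, zero_add]
      by_cases hp : (i, j) = (0, 1)
      · have hi : i = 0 := congrArg Prod.fst hp
        have hj : j = 1 := congrArg Prod.snd hp
        rw [hi, hj, h01, Matrix.single_apply_same]
      · rw [hoff i j hij hp, Matrix.single_apply_of_ne]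
        rintro ⟨h1, h2⟩
        exact hp (by rw [← h1, ← h2])

/-- The `tpos`-unitriangular subgroup of `SL₅(2)`. -/
def uT : Subgroup (Matrix.SpecialLinearGroup (Fin 5) (ZMod 2)) where
  carrier := {g | IsUT (g : Matrix (Fin 5) (Fin 5) (ZMod 2))}
  mul_mem' := by
    intro a b ha hb
    show IsUT ((a * b : Matrix.SpecialLinearGroup (Fin 5) (ZMod 2)) :
      Matrix (Fin 5) (Fin 5) (ZMod 2))
    rw [Matrix.SpecialLinearGroup.coe_mul]
    exact isUT_mul ha hb
  one_mem' := by
    show IsUT ((1 : Matrix.SpecialLinearGroup (Fin 5) (ZMod 2)) :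
      Matrix (Fin 5) (Fin 5) (ZMod 2))
    rw [Matrix.SpecialLinearGroup.coe_one]
    exact isUT_one
  inv_mem' := by
    intro g hg
    show IsUT ((g⁻¹ : Matrix.SpecialLinearGroup (Fin 5) (ZMod 2)) :
      Matrix (Fin 5) (Fin 5) (ZMod 2))
    have h1 : g⁻¹ = g ^ (orderOf g - 1) := by
      apply inv_eq_of_mul_eq_one_right
      rw [← pow_succ', Nat.sub_add_cancel (orderOf_pos g), pow_orderOf_eq_one]
    rw [h1, Matrix.SpecialLinearGroup.coe_pow]
    exact isUT_pow hg _

theorem mem_uT (g : Matrix.SpecialLinearGroup (Fin 5) (ZMod 2)) :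
    g ∈ uT ↔ IsUT (g : Matrix (Fin 5) (Fin 5) (ZMod 2)) := Iff.rfl

/-- The positions above the diagonal for the ordering `tpos`. -/
abbrev UPos : Type := {p : Fin 5 × Fin 5 // tpos p.1 < tpos p.2}

/-- Unitriangular matrices are parametrised by their entries above the diagonal. -/
noncomputable def utEquiv :
    {M : Matrix (Fin 5) (Fin 5) (ZMod 2) // IsUT M} ≃ (UPos → ZMod 2) where
  toFun M := fun p => M.1 p.1.1 p.1.2
  invFun f := ⟨Matrix.of (fun i j =>
      if h : tpos i < tpos j then f ⟨(i, j), h⟩ else if i = j then 1 else 0), by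
    constructor
    · intro i j hij
      rw [Matrix.of_apply, dif_neg (not_lt.mpr hij.le), if_neg]
      rintro rfl
      exact lt_irrefl _ hij
    · intro i
      rw [Matrix.of_apply, dif_neg (lt_irrefl _), if_pos rfl]⟩
  left_inv := by
    intro M
    apply Subtype.ext
    ext i j
    simp only [Matrix.of_apply]
    by_cases h : tpos i < tpos j
    · rw [dif_pos h]
    · rw [dif_neg h]
      by_cases hij : i = j
      · rw [if_pos hij, hij, M.2.2]
      · rw [if_neg hij]
        have : tpos j < tpos i := by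
          rcases lt_trichotomy (tpos i) (tpos j) with h' | h' | h'
          · exact absurd h' h
          · exact absurd (tpos_injective h') hij
          · exact h'
        exact (M.2.1 this).symm
  right_inv := by
    intro f
    funext p
    simp only [Matrix.of_apply]
    rw [dif_pos p.2]

theorem card_isUT : Nat.card {M : Matrix (Fin 5) (Fin 5) (ZMod 2) // IsUT M} = 2 ^ 10 := by
  have h10 : Fintype.card UPos = 10 := by decide
  rw [Nat.card_congr utEquiv, Nat.card_eq_fintype_card, Fintype.card_fun, ZMod.card, h10]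

theorem card_uT : Nat.card uT = 2 ^ 10 := by
  rw [← card_isUT]
  exact Nat.card_congr
    { toFun := fun g => ⟨(g.1 : Matrix (Fin 5) (Fin 5) (ZMod 2)), g.2⟩
      invFun := fun M => ⟨⟨M.1, isUT_det M.2⟩, M.2⟩
      left_inv := fun g => rfl
      right_inv := fun M => rfl }

theorem uT_le_centralizer (s : Matrix.SpecialLinearGroup (Fin 5) (ZMod 2))
    (hs : (s : Matrix (Fin 5) (Fin 5) (ZMod 2)) = Matrix.transvection 0 1 1) :
    uT ≤ Subgroup.centralizer ({s} : Set (Matrix.SpecialLinearGroup (Fin 5) (ZMod 2))) := by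
  intro g hg
  rw [Subgroup.mem_centralizer_iff]
  intro h hh
  rw [Set.mem_singleton_iff] at hh
  subst hh
  apply Subtype.ext
  rw [Matrix.SpecialLinearGroup.coe_mul, Matrix.SpecialLinearGroup.coe_mul, hs]
  exact (isUT_comm hg).symm

theorem comm_uT (g : Matrix.SpecialLinearGroup (Fin 5) (ZMod 2))
    (hg : ∀ y ∈ uT, g * y = y * g) :
    (g : Matrix (Fin 5) (Fin 5) (ZMod 2)) = 1 ∨
      (g : Matrix (Fin 5) (Fin 5) (ZMod 2)) = Matrix.transvection 0 1 1 := by
  apply comm_all _ g.2
  intro a b hab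
  have hne : a ≠ b := fun h => by rw [h] at hab; exact lt_irrefl _ hab
  have hy : (⟨Matrix.transvection a b 1, Matrix.det_transvection_of_ne _ _ hne 1⟩ :
      Matrix.SpecialLinearGroup (Fin 5) (ZMod 2)) ∈ uT := isUT_transvection hab
  exact congrArg Subtype.val (hg _ hy)

theorem card_SL_dvd :
    Nat.card (Matrix.SpecialLinearGroup (Fin 5) (ZMod 2)) ∣ 2 ^ 10 * 9765 := by
  have h1 := Subgroup.card_dvd_of_injective
    (Matrix.SpecialLinearGroup.toGL : Matrix.SpecialLinearGroup (Fin 5) (ZMod 2) →* _)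
    Matrix.SpecialLinearGroup.toGL_injective
  have h2 := Matrix.card_GL_field (𝔽 := ZMod 2) 5
  rw [h2] at h1
  have h3 : ∏ i : Fin 5, (Fintype.card (ZMod 2) ^ 5 - Fintype.card (ZMod 2) ^ (i : ℕ))
      = 2 ^ 10 * 9765 := by
    rw [ZMod.card, Fin.prod_univ_five]
    norm_num
  rwa [h3] at h1

theorem exists_sylow_uT (s : Matrix.SpecialLinearGroup (Fin 5) (ZMod 2))
    (hs : (s : Matrix (Fin 5) (Fin 5) (ZMod 2)) = Matrix.transvection 0 1 1) :
    ∃ P : Sylow 2 (Subgroup.centralizer
        ({s} : Set (Matrix.SpecialLinearGroup (Fin 5) (ZMod 2)))),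
      ∀ x : Subgroup.centralizer ({s} : Set (Matrix.SpecialLinearGroup (Fin 5) (ZMod 2))),
        x ∈ P ↔ (x : Matrix.SpecialLinearGroup (Fin 5) (ZMod 2)) ∈ uT := by
  have hle := uT_le_centralizer s hs
  have hcard : Nat.card (uT.subgroupOf (Subgroup.centralizer
      ({s} : Set (Matrix.SpecialLinearGroup (Fin 5) (ZMod 2))))) = 2 ^ 10 := by
    rw [Nat.card_congr (Subgroup.subgroupOfEquivOfLe hle).toEquiv, card_uT]
  have hpg : IsPGroup 2 (uT.subgroupOf (Subgroup.centralizer
      ({s} : Set (Matrix.SpecialLinearGroup (Fin 5) (ZMod 2))))) := IsPGroup.of_card hcard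
  have hidx : ¬ 2 ∣ (uT.subgroupOf (Subgroup.centralizer
      ({s} : Set (Matrix.SpecialLinearGroup (Fin 5) (ZMod 2))))).index := by
    intro h2
    have hdvd : Nat.card (Subgroup.centralizer
        ({s} : Set (Matrix.SpecialLinearGroup (Fin 5) (ZMod 2)))) ∣ 2 ^ 10 * 9765 :=
      (Subgroup.card_subgroup_dvd_card _).trans card_SL_dvd
    rw [← Subgroup.card_mul_index (uT.subgroupOf (Subgroup.centralizer
      ({s} : Set (Matrix.SpecialLinearGroup (Fin 5) (ZMod 2))))), hcard] at hdvd
    have h3 : (uT.subgroupOf (Subgroup.centralizer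
        ({s} : Set (Matrix.SpecialLinearGroup (Fin 5) (ZMod 2))))).index ∣ 9765 :=
      Nat.dvd_of_mul_dvd_mul_left (by norm_num) hdvd
    have h4 : 2 ∣ 9765 := h2.trans h3
    norm_num at h4
  exact ⟨hpg.toSylow hidx, fun x => Iff.rfl⟩

/-- Every Sylow 2-subgroup of the centraliser of the transvection has at most one nontrivial
central element. -/
theorem centre_small (s : Matrix.SpecialLinearGroup (Fin 5) (ZMod 2))
    (hs : (s : Matrix (Fin 5) (Fin 5) (ZMod 2)) = Matrix.transvection 0 1 1)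
    (T0 : Sylow 2 (Subgroup.centralizer
        ({s} : Set (Matrix.SpecialLinearGroup (Fin 5) (ZMod 2))))) :
    ∀ x1 ∈ T0, ∀ x2 ∈ T0, (∀ y ∈ T0, x1 * y = y * x1) → (∀ y ∈ T0, x2 * y = y * x2) →
      x1 ≠ 1 → x2 ≠ 1 → x1 = x2 := by
  obtain ⟨P, hP⟩ := exists_sylow_uT s hs
  obtain ⟨c, hc⟩ := MulAction.exists_smul_eq (Subgroup.centralizer
        ({s} : Set (Matrix.SpecialLinearGroup (Fin 5) (ZMod 2)))) P T0
  have hmem : ∀ x : Subgroup.centralizer
      ({s} : Set (Matrix.SpecialLinearGroup (Fin 5) (ZMod 2))), x ∈ T0 ↔ c⁻¹ * x * c ∈ P := by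
    intro x
    rw [← hc]
    show x ∈ ((c • P : Sylow 2 _) : Subgroup _) ↔ _
    rw [Sylow.coe_subgroup_smul, Subgroup.mem_pointwise_smul_iff_inv_smul_mem, MulAut.smul_def,
      MulAut.conj_inv_apply]
    exact Iff.rfl
  have key : ∀ x ∈ T0, (∀ y ∈ T0, x * y = y * x) → x ≠ 1 →
      (((c⁻¹ * x * c : Subgroup.centralizer
        ({s} : Set (Matrix.SpecialLinearGroup (Fin 5) (ZMod 2)))) :
        Matrix.SpecialLinearGroup (Fin 5) (ZMod 2)) : Matrix (Fin 5) (Fin 5) (ZMod 2))
        = Matrix.transvection 0 1 1 := by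
    intro x hx hcen hx1
    have hcomm : ∀ y ∈ uT, ((c⁻¹ * x * c : Subgroup.centralizer
        ({s} : Set (Matrix.SpecialLinearGroup (Fin 5) (ZMod 2)))) :
        Matrix.SpecialLinearGroup (Fin 5) (ZMod 2)) * y = y * ((c⁻¹ * x * c : Subgroup.centralizer
        ({s} : Set (Matrix.SpecialLinearGroup (Fin 5) (ZMod 2)))) :
        Matrix.SpecialLinearGroup (Fin 5) (ZMod 2)) := by
      intro y hy
      have hyC : y ∈ Subgroup.centralizer
          ({s} : Set (Matrix.SpecialLinearGroup (Fin 5) (ZMod 2))) := uT_le_centralizer s hs hy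
      have hyP : (⟨y, hyC⟩ : Subgroup.centralizer
          ({s} : Set (Matrix.SpecialLinearGroup (Fin 5) (ZMod 2)))) ∈ P := (hP _).mpr hy
      have hyT : c * ⟨y, hyC⟩ * c⁻¹ ∈ T0 := by
        rw [hmem]
        have : c⁻¹ * (c * ⟨y, hyC⟩ * c⁻¹) * c = ⟨y, hyC⟩ := by group
        rw [this]
        exact hyP
      have h1 := hcen _ hyT
      have h2 : c⁻¹ * x * c * ⟨y, hyC⟩ = ⟨y, hyC⟩ * (c⁻¹ * x * c) := by
        have e1 : c⁻¹ * x * c * ⟨y, hyC⟩ = c⁻¹ * (x * (c * ⟨y, hyC⟩ * c⁻¹)) * c := by group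
        have e2 : ⟨y, hyC⟩ * (c⁻¹ * x * c) = c⁻¹ * ((c * ⟨y, hyC⟩ * c⁻¹) * x) * c := by group
        rw [e1, e2, h1]
      exact congrArg Subtype.val h2
    rcases comm_uT _ hcomm with h | h
    · exfalso
      apply hx1
      have h3 : c⁻¹ * x * c = 1 := by
        apply Subtype.ext
        apply Subtype.ext
        rw [h]
        rfl
      have : x = c * (c⁻¹ * x * c) * c⁻¹ := by group
      rw [this, h3]
      group
    · exact h
  intro x1 hx1 x2 hx2 hc1 hc2 hn1 hn2
  have h1 := key x1 hx1 hc1 hn1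
  have h2 := key x2 hx2 hc2 hn2
  have h3 : c⁻¹ * x1 * c = c⁻¹ * x2 * c := by
    apply Subtype.ext
    apply Subtype.ext
    rw [h1, h2]
  have e1 : x1 = c * (c⁻¹ * x1 * c) * c⁻¹ := by group
  have e2 : x2 = c * (c⁻¹ * x2 * c) * c⁻¹ := by group
  rw [e1, e2, h3]

/-- If a Sylow 2-subgroup of the centraliser of an involution `z` has at most one nontrivial
central element, then it is a Sylow 2-subgroup of the whole group. -/
theorem sylow_of_centre_small {G : Type*} [Group G] [Finite G] (z : G) (hz : orderOf z = 2)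
    (T : Sylow 2 (Subgroup.centralizer ({z} : Set G)))
    (hsmall : ∀ x1 ∈ T, ∀ x2 ∈ T, (∀ y ∈ T, x1 * y = y * x1) → (∀ y ∈ T, x2 * y = y * x2) →
      x1 ≠ 1 → x2 ≠ 1 → x1 = x2) :
    ¬ 2 ∣ ((T : Subgroup (Subgroup.centralizer ({z} : Set G))).map
      (Subgroup.subtype (Subgroup.centralizer ({z} : Set G)))).index := by
  classical
  have hzC : z ∈ Subgroup.centralizer ({z} : Set G) := by
    rw [Subgroup.mem_centralizer_iff]
    intro h hh
    rw [Set.mem_singleton_iff.mp hh]
  have hz'1 : (⟨z, hzC⟩ : Subgroup.centralizer ({z} : Set G)) ≠ 1 := by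
    intro h
    have : z = 1 := congrArg Subtype.val h
    rw [this, orderOf_one] at hz
    norm_num at hz
  have hz'cen : ∀ y : Subgroup.centralizer ({z} : Set G),
      (⟨z, hzC⟩ : Subgroup.centralizer ({z} : Set G)) * y = y * ⟨z, hzC⟩ := by
    intro y
    apply Subtype.ext
    exact (Subgroup.mem_centralizer_iff.mp y.2) z (Set.mem_singleton z)
  have hz'T : (⟨z, hzC⟩ : Subgroup.centralizer ({z} : Set G)) ∈ T := by
    have hpz : IsPGroup 2 (Subgroup.zpowers (⟨z, hzC⟩ : Subgroup.centralizer ({z} : Set G))) := by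
      apply IsPGroup.of_card (n := 1)
      rw [Nat.card_zpowers, pow_one, ← hz]
      exact Subgroup.orderOf_mk z hzC
    obtain ⟨Q, hQ⟩ := hpz.exists_le_sylow
    obtain ⟨c, hc⟩ := MulAction.exists_smul_eq (Subgroup.centralizer ({z} : Set G)) Q T
    rw [← hc]
    show (⟨z, hzC⟩ : Subgroup.centralizer ({z} : Set G)) ∈ ((c • Q : Sylow 2 _) : Subgroup _)
    rw [Sylow.coe_subgroup_smul, Subgroup.mem_pointwise_smul_iff_inv_smul_mem, MulAut.smul_def,
      MulAut.conj_inv_apply]
    have : c⁻¹ * (⟨z, hzC⟩ : Subgroup.centralizer ({z} : Set G)) * c = ⟨z, hzC⟩ := by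
      rw [mul_assoc, hz'cen c, ← mul_assoc, inv_mul_cancel, one_mul]
    rw [this]
    exact hQ (Subgroup.mem_zpowers _)
  intro hdvd
  have hTp : IsPGroup 2 ((T : Subgroup (Subgroup.centralizer ({z} : Set G))).map
      (Subgroup.subtype (Subgroup.centralizer ({z} : Set G)))) :=
    T.isPGroup'.map (Subgroup.subtype (Subgroup.centralizer ({z} : Set G)))
  obtain ⟨n, hn⟩ := IsPGroup.iff_card.mp hTp
  have hdvd' : 2 ^ (n + 1) ∣ Nat.card G := by
    rw [← Subgroup.card_mul_index ((T : Subgroup (Subgroup.centralizer ({z} : Set G))).map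
      (Subgroup.subtype (Subgroup.centralizer ({z} : Set G)))), hn, pow_succ]
    exact Nat.mul_dvd_mul_left _ hdvd
  obtain ⟨K, hK, hTK⟩ := Sylow.exists_subgroup_card_pow_succ hdvd' hn
  have hidx : (((T : Subgroup (Subgroup.centralizer ({z} : Set G))).map
      (Subgroup.subtype (Subgroup.centralizer ({z} : Set G)))).subgroupOf K).index = 2 := by
    have h1 := Subgroup.card_mul_index (((T : Subgroup (Subgroup.centralizer ({z} : Set G))).map
      (Subgroup.subtype (Subgroup.centralizer ({z} : Set G)))).subgroupOf K)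
    rw [Nat.card_congr (Subgroup.subgroupOfEquivOfLe hTK).toEquiv, hn, hK, pow_succ] at h1
    exact Nat.eq_of_mul_eq_mul_left (by positivity) h1
  have hnorm : (((T : Subgroup (Subgroup.centralizer ({z} : Set G))).map
      (Subgroup.subtype (Subgroup.centralizer ({z} : Set G)))).subgroupOf K).Normal :=
    Subgroup.normal_of_index_eq_two hidx
  obtain ⟨g, hgK, hgT⟩ : ∃ g ∈ K, g ∉ (T : Subgroup (Subgroup.centralizer ({z} : Set G))).map
      (Subgroup.subtype (Subgroup.centralizer ({z} : Set G))) := by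
    by_contra hcon
    have hKT : K ≤ (T : Subgroup (Subgroup.centralizer ({z} : Set G))).map
        (Subgroup.subtype (Subgroup.centralizer ({z} : Set G))) := by
      intro g hg
      by_contra hgT
      exact hcon ⟨g, hg, hgT⟩
    have hle := Subgroup.card_le_of_le hKT
    rw [hK, hn, pow_succ] at hle
    have : 0 < 2 ^ n := by positivity
    omega
  have hmemTt : ∀ x : G, x ∈ (T : Subgroup (Subgroup.centralizer ({z} : Set G))).map
      (Subgroup.subtype (Subgroup.centralizer ({z} : Set G))) ↔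
      ∃ h : x ∈ Subgroup.centralizer ({z} : Set G),
        (⟨x, h⟩ : Subgroup.centralizer ({z} : Set G)) ∈ T := by
    intro x
    rw [Subgroup.mem_map]
    constructor
    · rintro ⟨y, hy, rfl⟩
      exact ⟨y.2, hy⟩
    · rintro ⟨h, hx⟩
      exact ⟨⟨x, h⟩, hx, rfl⟩
  have hgnorm : ∀ x ∈ (T : Subgroup (Subgroup.centralizer ({z} : Set G))).map
      (Subgroup.subtype (Subgroup.centralizer ({z} : Set G))), g * x * g⁻¹ ∈
      (T : Subgroup (Subgroup.centralizer ({z} : Set G))).map
      (Subgroup.subtype (Subgroup.centralizer ({z} : Set G))) := by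
    intro x hx
    have := hnorm.conj_mem ⟨x, hTK hx⟩ (Subgroup.mem_subgroupOf.mpr hx) ⟨g, hgK⟩
    exact Subgroup.mem_subgroupOf.mp this
  have hgnorm' : ∀ x ∈ (T : Subgroup (Subgroup.centralizer ({z} : Set G))).map
      (Subgroup.subtype (Subgroup.centralizer ({z} : Set G))), g⁻¹ * x * g ∈
      (T : Subgroup (Subgroup.centralizer ({z} : Set G))).map
      (Subgroup.subtype (Subgroup.centralizer ({z} : Set G))) := by
    intro x hx
    have := hnorm.conj_mem ⟨x, hTK hx⟩ (Subgroup.mem_subgroupOf.mpr hx) (⟨g, hgK⟩ : K)⁻¹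
    have h2 := Subgroup.mem_subgroupOf.mp this
    simpa using h2
  have hzTt : z ∈ (T : Subgroup (Subgroup.centralizer ({z} : Set G))).map
      (Subgroup.subtype (Subgroup.centralizer ({z} : Set G))) := (hmemTt z).mpr ⟨hzC, hz'T⟩
  obtain ⟨hwC, hwT⟩ := (hmemTt _).mp (hgnorm z hzTt)
  have hwcen : ∀ y ∈ T, (⟨g * z * g⁻¹, hwC⟩ : Subgroup.centralizer ({z} : Set G)) * y
      = y * ⟨g * z * g⁻¹, hwC⟩ := by
    intro y hy
    apply Subtype.ext
    show g * z * g⁻¹ * (y : G) = (y : G) * (g * z * g⁻¹)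
    have hyTt : (y : G) ∈ (T : Subgroup (Subgroup.centralizer ({z} : Set G))).map
        (Subgroup.subtype (Subgroup.centralizer ({z} : Set G))) := (hmemTt _).mpr ⟨y.2, hy⟩
    obtain ⟨h1C, -⟩ := (hmemTt _).mp (hgnorm' _ hyTt)
    have h2 := (Subgroup.mem_centralizer_iff.mp h1C) z (Set.mem_singleton z)
    calc g * z * g⁻¹ * (y : G) = g * (z * (g⁻¹ * (y : G) * g)) * g⁻¹ := by group
      _ = g * ((g⁻¹ * (y : G) * g) * z) * g⁻¹ := by rw [h2]
      _ = (y : G) * (g * z * g⁻¹) := by group
  have hw1 : (⟨g * z * g⁻¹, hwC⟩ : Subgroup.centralizer ({z} : Set G)) ≠ 1 := by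
    intro h
    have h' : g * z * g⁻¹ = 1 := congrArg Subtype.val h
    have h'' : z = 1 := by
      have e : z = g⁻¹ * (g * z * g⁻¹) * g := by group
      rw [e, h']
      group
    exact hz'1 (Subtype.ext h'')
  have heq := hsmall _ hwT _ hz'T hwcen (fun y _ => hz'cen y) hw1 hz'1
  have hgz : g * z * g⁻¹ = z := congrArg Subtype.val heq
  have hgC : g ∈ Subgroup.centralizer ({z} : Set G) := by
    rw [Subgroup.mem_centralizer_iff]
    intro h hh
    rw [Set.mem_singleton_iff.mp hh]
    calc z * g = g * z * g⁻¹ * g := by rw [hgz]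
      _ = g * z := by group
  have hKp : IsPGroup 2 K := IsPGroup.of_card hK
  have hQp : IsPGroup 2 (K.subgroupOf (Subgroup.centralizer ({z} : Set G))) := hKp.comap_subtype
  have hle : (T : Subgroup (Subgroup.centralizer ({z} : Set G))) ≤
      K.subgroupOf (Subgroup.centralizer ({z} : Set G)) := by
    intro x hx
    rw [Subgroup.mem_subgroupOf]
    exact hTK ((hmemTt _).mpr ⟨x.2, hx⟩)
  have hQT := T.is_maximal' hQp hle
  have hgT' : (⟨g, hgC⟩ : Subgroup.centralizer ({z} : Set G)) ∈
      (T : Subgroup (Subgroup.centralizer ({z} : Set G))) := by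
    rw [← hQT, Subgroup.mem_subgroupOf]
    exact hgK
  exact hgT ((hmemTt g).mpr ⟨hgC, hgT'⟩)

end Cfsg.Agent.Helper29.Transv
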