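import Mathlib
import Cfsg.Agent.Helper29.Jordan

set_option autoImplicit false

namespace Cfsg.Agent.Helper29

open MulAction

/-- A Sylow subgroup of `S` conjugated by an ambient element back into `S` is conjugate
inside `S`. -/
theorem sylow_conj_in {G : Type*} [Group G] (S : Subgroup G) [Finite S] (p : ℕ) [Fact p.Prime]
    (Q : Sylow p S) (θ : G) (hθ : ∀ x : S, x ∈ Q → θ * (x : G) * θ⁻¹ ∈ S) :
    ∃ s : S, ∀ y : S, y ∈ Q →
      ∃ x : S, x ∈ Q ∧ (s : G) * (y : G) * (s : G)⁻¹ = θ * (x : G) * θ⁻¹ := by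
  have hR₀ : ((Q : Subgroup S).map S.subtype).map (MulAut.conj θ).toMonoidHom ≤ S := by
    rintro _ ⟨_, ⟨x, hx, rfl⟩, rfl⟩
    exact hθ x hx
  have hcard : Nat.card ((((Q : Subgroup S).map S.subtype).map
      (MulAut.conj θ).toMonoidHom).subgroupOf S) = p ^ (Nat.card S).factorization p := by
    rw [Nat.card_congr (Subgroup.subgroupOfEquivOfLe hR₀).toEquiv,
      Subgroup.card_map_of_injective (MulAut.conj θ).injective,
      Subgroup.card_map_of_injective S.subtype_injective]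
    exact Q.card_eq_multiplicity
  obtain ⟨s, hs⟩ := MulAction.exists_smul_eq S Q (Sylow.ofCard _ hcard)
  refine ⟨s, fun y hy => ?_⟩
  have h1 : s * y * s⁻¹ ∈ ((s • Q : Sylow p S) : Subgroup S) := by
    rw [Sylow.coe_subgroup_smul]
    exact (Subgroup.mem_smul_pointwise_iff_exists _ _ _).2 ⟨y, hy, rfl⟩
  rw [hs, Sylow.coe_ofCard] at h1
  obtain ⟨_, ⟨x, hx, rfl⟩, hx2⟩ := Subgroup.mem_subgroupOf.1 h1
  refine ⟨x, hx, ?_⟩
  simp only [MulEquiv.coe_toMonoidHom, MulAut.conj_apply, Subgroup.coe_subtype,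
    Subgroup.coe_mul, Subgroup.coe_inv] at hx2
  exact hx2.symm

section Wagner

variable {G : Type*} [Group G] {α : Type*} [MulAction G α]

theorem exists_fixed_of_sq [Fintype α] (hodd : Odd (Fintype.card α)) (n : G) (hn : n ^ 2 = 1) :
    ∃ c : α, n • c = c := by
  classical
  by_contra hc
  push Not at hc
  have h1 : (MulAction.toPermHom G α n) ^ 2 = 1 := by rw [← map_pow, hn, map_one]
  have h2 := Equiv.Perm.two_dvd_card_support h1
  have h3 : (MulAction.toPermHom G α n).support = Finset.univ := by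
    ext x
    simp only [Equiv.Perm.mem_support, Finset.mem_univ, iff_true]
    exact hc x
  rw [h3, Finset.card_univ] at h2
  exact (Nat.not_even_iff_odd.2 hodd) (even_iff_two_dvd.2 h2)

theorem pow_odd_swap {t : G} {a b : α} (h1 : t • a = b) (h2 : t • b = a) {u : ℕ} (hu : Odd u) :
    t ^ u • a = b ∧ t ^ u • b = a := by
  obtain ⟨j, rfl⟩ := hu
  induction j with
  | zero => simpa using ⟨h1, h2⟩
  | succ j ih =>
    have e : 2 * (j + 1) + 1 = (2 * j + 1) + 2 := by ring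
    rw [e, pow_add, pow_two]
    constructor
    · rw [mul_smul, mul_smul, h1, h2]; exact ih.1
    · rw [mul_smul, mul_smul, h2, h1]; exact ih.2

/-- The elements of `N` stabilising the pair `{a, b}` setwise. -/
def swapStab (N : Subgroup G) (a b : α) : Subgroup G where
  carrier := {g | g ∈ N ∧ ((g • a = a ∧ g • b = b) ∨ (g • a = b ∧ g • b = a))}
  mul_mem' := by
    rintro g h ⟨hg, hg'⟩ ⟨hh, hh'⟩
    refine ⟨N.mul_mem hg hh, ?_⟩
    rcases hg' with ⟨h1, h2⟩ | ⟨h1, h2⟩ <;> rcases hh' with ⟨h3, h4⟩ | ⟨h3, h4⟩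
    · left; exact ⟨by rw [mul_smul, h3, h1], by rw [mul_smul, h4, h2]⟩
    · right; exact ⟨by rw [mul_smul, h3, h2], by rw [mul_smul, h4, h1]⟩
    · right; exact ⟨by rw [mul_smul, h3, h1], by rw [mul_smul, h4, h2]⟩
    · left; exact ⟨by rw [mul_smul, h3, h2], by rw [mul_smul, h4, h1]⟩
  one_mem' := ⟨N.one_mem, Or.inl ⟨one_smul _ _, one_smul _ _⟩⟩
  inv_mem' := by
    rintro g ⟨hg, hg'⟩
    refine ⟨N.inv_mem hg, ?_⟩
    rcases hg' with ⟨h1, h2⟩ | ⟨h1, h2⟩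
    · left; exact ⟨by rw [inv_smul_eq_iff, h1], by rw [inv_smul_eq_iff, h2]⟩
    · right; exact ⟨by rw [inv_smul_eq_iff, h2], by rw [inv_smul_eq_iff, h1]⟩

theorem mem_swapStab {N : Subgroup G} {a b : α} {g : G} :
    g ∈ swapStab N a b ↔
      g ∈ N ∧ ((g • a = a ∧ g • b = b) ∨ (g • a = b ∧ g • b = a)) := Iff.rfl

theorem wagner_aux [Fintype α] [Finite G] (hfaith : ∀ g : G, (∀ x : α, g • x = x) → g = 1)
    (hodd : Odd (Fintype.card α)) (h5 : 5 ≤ Fintype.card α)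
    (hG3 : LTr (⊤ : Subgroup G) ([] : List α) 3) (N : Subgroup G) [hNn : N.Normal]
    (hN : ∃ n ∈ N, n ≠ 1) : LTr N ([] : List α) 3 := by
  have hnorm : ∀ g : G, (∀ f ∈ ([] : List α), g • f = f) → ∀ n ∈ N, g * n * g⁻¹ ∈ N :=
    fun g _ n hn => hNn.conj_mem n hn g
  have hfix : ∀ n ∈ N, ∀ f ∈ ([] : List α), n • f = f := by simp
  have hG2 : LTr (⊤ : Subgroup G) ([] : List α) 2 :=
    LTr.mono (by norm_num) hG3 (by simp only [List.length_nil]; omega)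
  have hN1 : LTr N ([] : List α) 1 := ltr_one_of_two hfaith hG2 N hnorm hfix hN
  have hnd1 : ∀ z : α, (([] : List α) ++ [z]).Nodup := fun z => by simp
  -- Step 1: `N` is 2-transitive
  have hN2 : LTr N ([] : List α) 2 := by
    rcases jordan_aux hfaith 3 (by norm_num) [] N hG3 (by simp only [List.length_nil]; omega)
      hnorm hfix hN with h | ⟨-, hcomm, hsq⟩
    · exact h
    · exfalso
      obtain ⟨n, hn, hn1⟩ := hN
      obtain ⟨c, hc⟩ := exists_fixed_of_sq hodd n (hsq n hn)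
      apply hn1
      apply hfaith
      intro x
      obtain ⟨h, hh, -, hhc⟩ := hN1 [c] [x] rfl rfl (hnd1 c) (hnd1 x)
      simp only [List.map_cons, List.map_nil, List.cons.injEq, and_true] at hhc
      rw [← hhc, ← mul_smul, hcomm n hn h hh, mul_smul, hc]
  -- Step 2: a 2-element swapping two points
  obtain ⟨a, b, hab⟩ : ∃ a b : α, a ≠ b :=
    Fintype.exists_pair_of_one_lt_card (by omega)
  obtain ⟨t, ht, -, htmap⟩ := hN2 [a, b] [b, a] rfl rfl (by simp [hab]) (by simp [Ne.symm hab])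
  simp only [List.map_cons, List.map_nil, List.cons.injEq, and_true] at htmap
  obtain ⟨hta, htb⟩ := htmap
  obtain ⟨e, u, hu, hord⟩ := Nat.exists_eq_two_pow_mul_odd (orderOf_pos t).ne'
  obtain ⟨ht'a, ht'b⟩ := pow_odd_swap hta htb hu
  have ht'N : t ^ u ∈ N := N.pow_mem ht u
  have ht'pow : (t ^ u) ^ (2 ^ e) = 1 := by
    rw [← pow_mul, mul_comm, ← hord, pow_orderOf_eq_one]
  have ht'S : t ^ u ∈ swapStab N a b := mem_swapStab.2 ⟨ht'N, Or.inr ⟨ht'a, ht'b⟩⟩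
  have hP : IsPGroup 2 (Subgroup.zpowers (⟨t ^ u, ht'S⟩ : swapStab N a b)) := by
    rintro ⟨y, hy⟩
    obtain ⟨j, rfl⟩ := Subgroup.mem_zpowers_iff.1 hy
    refine ⟨e, Subtype.ext ?_⟩
    have hx : (⟨t ^ u, ht'S⟩ : swapStab N a b) ^ (2 ^ e) = 1 := Subtype.ext ht'pow
    show ((⟨t ^ u, ht'S⟩ : swapStab N a b) ^ j) ^ 2 ^ e = 1
    rw [← zpow_natCast, ← zpow_mul, mul_comm, zpow_mul, zpow_natCast, hx, one_zpow]
  obtain ⟨Q, hQ⟩ := hP.exists_le_sylow
  have ht'Q : (⟨t ^ u, ht'S⟩ : swapStab N a b) ∈ Q := hQ (Subgroup.mem_zpowers _)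
  -- Step 3: a fixed point of `Q`
  have hnd : ¬ (2 ∣ Nat.card α) := by
    rw [Nat.card_eq_fintype_card]
    exact fun h => (Nat.not_even_iff_odd.2 hodd) (even_iff_two_dvd.2 h)
  obtain ⟨d₁, hd₁⟩ := Q.isPGroup'.nonempty_fixed_point_of_prime_not_dvd_card α hnd
  have hQfix : ∀ x : swapStab N a b, x ∈ Q → (x : G) • d₁ = d₁ := fun x hx => hd₁ ⟨x, hx⟩
  have ht'd : t ^ u • d₁ = d₁ := hQfix ⟨t ^ u, ht'S⟩ ht'Q
  have hd₁a : d₁ ≠ a := by
    intro h
    rw [h] at ht'd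
    exact hab (ht'd.symm.trans ht'a)
  have hd₁b : d₁ ≠ b := by
    intro h
    rw [h] at ht'd
    exact hab (ht'b.symm.trans ht'd)
  -- Step 4
  have hx4 : ∀ d : α, d ≠ a → d ≠ b → ∃ x ∈ N, x • a = b ∧ x • b = a ∧ x • d = d := by
    intro d hda hdb
    obtain ⟨g, -, -, hgmap⟩ := hG3 [a, b, d₁] [a, b, d] rfl rfl
      (by simp [hab, Ne.symm hd₁a, Ne.symm hd₁b]) (by simp [hab, Ne.symm hda, Ne.symm hdb])
    simp only [List.map_cons, List.map_nil, List.cons.injEq, and_true] at hgmap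
    obtain ⟨hga, hgb, hgd⟩ := hgmap
    refine ⟨g * t ^ u * g⁻¹, hNn.conj_mem _ ht'N g, ?_, ?_, ?_⟩
    · rw [conj_smul_of_fix hga, ht'a, hgb]
    · rw [conj_smul_of_fix hgb, ht'b, hga]
    · have : g⁻¹ • d = d₁ := by rw [inv_smul_eq_iff, hgd]
      rw [mul_smul, mul_smul, this, ht'd, hgd]
  -- Step 5
  have hS5 : ∀ s ∈ swapStab N a b, ∀ d : α, d ≠ a → d ≠ b →
      ∃ k ∈ N, k • a = a ∧ k • b = b ∧ s • d = k • d := by
    intro s hs d hda hdb
    obtain ⟨hsN, hs'⟩ := mem_swapStab.1 hs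
    rcases hs' with ⟨h1, h2⟩ | ⟨h1, h2⟩
    · exact ⟨s, hsN, h1, h2, rfl⟩
    · obtain ⟨x, hx, hxa, hxb, hxd⟩ := hx4 d hda hdb
      refine ⟨s * x⁻¹, N.mul_mem hsN (N.inv_mem hx), ?_, ?_, ?_⟩
      · rw [mul_smul, inv_smul_eq_iff.2 hxb.symm, h2]
      · rw [mul_smul, inv_smul_eq_iff.2 hxa.symm, h1]
      · rw [mul_smul, inv_smul_eq_iff.2 hxd.symm]
  -- Step 6
  have hK : ∀ d₂ : α, d₂ ≠ a → d₂ ≠ b → ∃ k ∈ N, k • a = a ∧ k • b = b ∧ k • d₁ = d₂ := by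
    intro d₂ hd₂a hd₂b
    by_contra hno
    obtain ⟨g, -, -, hgmap⟩ := hG3 [a, b, d₁] [a, b, d₂] rfl rfl
      (by simp [hab, Ne.symm hd₁a, Ne.symm hd₁b]) (by simp [hab, Ne.symm hd₂a, Ne.symm hd₂b])
    simp only [List.map_cons, List.map_nil, List.cons.injEq, and_true] at hgmap
    obtain ⟨hga, hgb, hgd⟩ := hgmap
    have hθ : ∀ x : swapStab N a b, x ∈ Q → g * (x : G) * g⁻¹ ∈ swapStab N a b := by
      intro x _
      obtain ⟨hxN, hx'⟩ := mem_swapStab.1 x.2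
      refine mem_swapStab.2 ⟨hNn.conj_mem _ hxN g, ?_⟩
      rcases hx' with ⟨h1, h2⟩ | ⟨h1, h2⟩
      · left
        exact ⟨by rw [conj_smul_of_fix hga, h1, hga], by rw [conj_smul_of_fix hgb, h2, hgb]⟩
      · right
        exact ⟨by rw [conj_smul_of_fix hga, h1, hgb], by rw [conj_smul_of_fix hgb, h2, hga]⟩
    obtain ⟨s, hs⟩ := sylow_conj_in (swapStab N a b) 2 Q g hθ
    have hfix2 : ∀ y : swapStab N a b, y ∈ Q →
        (y : G) • ((s : G)⁻¹ • d₂) = (s : G)⁻¹ • d₂ := by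
      intro y hy
      obtain ⟨x, hx, hxy⟩ := hs y hy
      have h1 : ((s : G) * (y : G) * (s : G)⁻¹) • d₂ = d₂ := by
        rw [hxy, mul_smul, mul_smul, inv_smul_eq_iff.2 hgd.symm, hQfix x hx, hgd]
      rw [mul_smul, mul_smul] at h1
      exact eq_inv_smul_iff.2 h1
    obtain ⟨k, hk, hka, hkb, hkd⟩ :=
      hS5 (s : G)⁻¹ (Subgroup.inv_mem _ s.2) d₂ hd₂a hd₂b
    have hne : (s : G)⁻¹ • d₂ ≠ d₁ := by
      intro h
      apply hno
      refine ⟨k⁻¹, N.inv_mem hk, by rw [inv_smul_eq_iff, hka], by rw [inv_smul_eq_iff, hkb], ?_⟩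
      rw [← h, hkd, inv_smul_smul]
    obtain ⟨h, hh, -, hhmap⟩ := hN2 [d₁, (s : G)⁻¹ • d₂] [a, b] rfl rfl
      (by simp [Ne.symm hne]) (by simp [hab])
    simp only [List.map_cons, List.map_nil, List.cons.injEq, and_true] at hhmap
    obtain ⟨hh1, hh2⟩ := hhmap
    have hθ2 : ∀ x : swapStab N a b, x ∈ Q → h * (x : G) * h⁻¹ ∈ swapStab N a b := by
      intro x hx
      refine mem_swapStab.2 ⟨hNn.conj_mem _ (mem_swapStab.1 x.2).1 h, Or.inl ⟨?_, ?_⟩⟩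
      · rw [mul_smul, mul_smul, inv_smul_eq_iff.2 hh1.symm, hQfix x hx, hh1]
      · rw [mul_smul, mul_smul, inv_smul_eq_iff.2 hh2.symm, hfix2 x hx, hh2]
    obtain ⟨s', hs'⟩ := sylow_conj_in (swapStab N a b) 2 Q h hθ2
    obtain ⟨x, hx, hxy⟩ := hs' ⟨t ^ u, ht'S⟩ ht'Q
    have hxy' : (s' : G) * t ^ u * (s' : G)⁻¹ = h * (x : G) * h⁻¹ := hxy
    have h1 : ((s' : G) * t ^ u * (s' : G)⁻¹) • a = a := by
      rw [hxy', mul_smul, mul_smul, inv_smul_eq_iff.2 hh1.symm, hQfix x hx, hh1]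
    obtain ⟨-, hs''⟩ := mem_swapStab.1 s'.2
    rcases hs'' with ⟨h3, h4⟩ | ⟨h3, h4⟩
    · rw [mul_smul, mul_smul, inv_smul_eq_iff.2 h3.symm, ht'a, h4] at h1
      exact hab h1.symm
    · rw [mul_smul, mul_smul, inv_smul_eq_iff.2 h4.symm, ht'b, h3] at h1
      exact hab h1.symm
  -- Step 7
  have hK1 : LTr N [a, b] 1 := by
    intro l l' hl hl' hn hn'
    obtain ⟨d, rfl⟩ := List.length_eq_one_iff.1 hl
    obtain ⟨d', rfl⟩ := List.length_eq_one_iff.1 hl'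
    have hd := (nodup_app.1 hn).2.2 d (by simp)
    have hd' := (nodup_app.1 hn').2.2 d' (by simp)
    simp only [List.mem_cons, List.not_mem_nil, or_false, not_or] at hd hd'
    obtain ⟨k₁, hk₁, hk₁a, hk₁b, hk₁d⟩ := hK d hd.1 hd.2
    obtain ⟨k₂, hk₂, hk₂a, hk₂b, hk₂d⟩ := hK d' hd'.1 hd'.2
    refine ⟨k₂ * k₁⁻¹, N.mul_mem hk₂ (N.inv_mem hk₁), ?_, ?_⟩
    · intro f hf
      simp only [List.mem_cons, List.not_mem_nil, or_false] at hf
      rcases hf with hf | hf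
      · rw [hf, mul_smul, inv_smul_eq_iff.2 hk₁a.symm, hk₂a]
      · rw [hf, mul_smul, inv_smul_eq_iff.2 hk₁b.symm, hk₂b]
    · simp only [List.map_cons, List.map_nil, List.cons.injEq, and_true]
      rw [mul_smul, inv_smul_eq_iff.2 hk₁d.symm, hk₂d]
  have hNa1 : LTr N [a] 1 := hN2.cons_fix a
  have hNa2 : LTr N [a] 2 := LTr.up hNa1 hK1 (by simp [Ne.symm hab])
  exact LTr.up hN1 hNa2 (by simp)

end Wagner

end Cfsg.Agent.Helper29
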