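import Mathlib
import Cfsg.Agent.Helper29.KTrans

/-!
Witt's lemma on transitive extensions (iterated form).
-/

set_option autoImplicit false

namespace Cfsg.Agent.Helper29

open MulAction

/-- One step of Witt's lemma: `K ∪ K τ K` is a group, so an element of `⟨K, τ⟩` fixing the
new point `ω` lies in `K`. -/
theorem witt_step {M : Type*} [Group M] {α : Type*} [MulAction M α]
    (K N : Subgroup M) (a b ω : α) (s τ : M)
    (hNK : N ≤ K) (hs : s ∈ K) (haω : a ≠ ω)
    (h1 : ∀ x ∈ K, x • ω = ω)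
    (h2 : ∀ x ∈ K, x • a = a → x ∈ N)
    (h3 : ∀ x ∈ K, x • a ≠ a → ∃ n ∈ N, n • a = a ∧ n • b = x • a)
    (h4 : s • a = b) (h5 : τ • ω = a)
    (h6 : ∀ n ∈ N, τ * n * τ⁻¹ ∈ N) (h7 : τ ^ 2 ∈ N) (h8 : (s * τ) ^ 3 ∈ N) :
    ∀ x ∈ Subgroup.closure ((K : Set M) ∪ {τ}), x • ω = ω → x ∈ K := by
  have h6' : ∀ n ∈ N, τ⁻¹ * n * τ ∈ N := by
    intro n hn
    have e : τ⁻¹ * n * τ = (τ ^ 2)⁻¹ * (τ * n * τ⁻¹) * τ ^ 2 := by group
    rw [e]
    exact N.mul_mem (N.mul_mem (N.inv_mem h7) (h6 n hn)) h7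
  have hτsτ : ∃ k₁ ∈ K, ∃ k₂ ∈ K, τ * s * τ = k₁ * τ * k₂ := by
    refine ⟨s⁻¹ * (s * τ) ^ 3 * (τ ^ 2)⁻¹, ?_, s⁻¹, K.inv_mem hs, ?_⟩
    · exact K.mul_mem (K.mul_mem (K.inv_mem hs) (hNK h8)) (K.inv_mem (hNK h7))
    · rw [pow_three]
      group
  have key : ∀ k ∈ K, τ * k * τ ∈ K ∨ ∃ k₁ ∈ K, ∃ k₂ ∈ K, τ * k * τ = k₁ * τ * k₂ := by
    intro k hk
    by_cases hka : k • a = a
    · left
      have e : τ * k * τ = (τ * k * τ⁻¹) * τ ^ 2 := by group
      rw [e]
      exact hNK (N.mul_mem (h6 k (h2 k hk hka)) h7)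
    · right
      obtain ⟨n, hn, hna, hnb⟩ := h3 k hk hka
      have hmK : (n * s)⁻¹ * k ∈ K := K.mul_mem (K.inv_mem (K.mul_mem (hNK hn) hs)) hk
      have hma : ((n * s)⁻¹ * k) • a = a := by
        rw [mul_smul, ← hnb, ← h4, ← mul_smul n s a, inv_smul_smul]
      have hmN := h2 _ hmK hma
      obtain ⟨k₁, hk₁, k₂, hk₂, e⟩ := hτsτ
      refine ⟨(τ * n * τ⁻¹) * k₁, K.mul_mem (hNK (h6 n hn)) hk₁,
        k₂ * (τ⁻¹ * ((n * s)⁻¹ * k) * τ), K.mul_mem hk₂ (hNK (h6' _ hmN)), ?_⟩
      have e2 : τ * k * τ = (τ * n * τ⁻¹) * (τ * s * τ) * (τ⁻¹ * ((n * s)⁻¹ * k) * τ) := by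
        group
      rw [e2, e]
      group
  have hτB : ∀ y, (y ∈ K ∨ ∃ k₁ ∈ K, ∃ k₂ ∈ K, y = k₁ * τ * k₂) →
      (τ * y ∈ K ∨ ∃ k₁ ∈ K, ∃ k₂ ∈ K, τ * y = k₁ * τ * k₂) := by
    rintro y (hy | ⟨k₁, hk₁, k₂, hk₂, rfl⟩)
    · right
      exact ⟨1, K.one_mem, y, hy, by group⟩
    · rcases key k₁ hk₁ with h | ⟨m₁, hm₁, m₂, hm₂, e⟩
      · left
        have e2 : τ * (k₁ * τ * k₂) = (τ * k₁ * τ) * k₂ := by group
        rw [e2]
        exact K.mul_mem h hk₂
      · right
        refine ⟨m₁, hm₁, m₂ * k₂, K.mul_mem hm₂ hk₂, ?_⟩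
        have e2 : τ * (k₁ * τ * k₂) = (τ * k₁ * τ) * k₂ := by group
        rw [e2, e]
        group
  have hKB : ∀ g ∈ K, ∀ y, (y ∈ K ∨ ∃ k₁ ∈ K, ∃ k₂ ∈ K, y = k₁ * τ * k₂) →
      (g * y ∈ K ∨ ∃ k₁ ∈ K, ∃ k₂ ∈ K, g * y = k₁ * τ * k₂) := by
    rintro g hg y (hy | ⟨k₁, hk₁, k₂, hk₂, rfl⟩)
    · left
      exact K.mul_mem hg hy
    · right
      exact ⟨g * k₁, K.mul_mem hg hk₁, k₂, hk₂, by group⟩
  have hB : ∀ x ∈ Subgroup.closure ((K : Set M) ∪ {τ}),
      x ∈ K ∨ ∃ k₁ ∈ K, ∃ k₂ ∈ K, x = k₁ * τ * k₂ := by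
    intro x hx
    induction hx using Subgroup.closure_induction_left with
    | one => left; exact K.one_mem
    | mul_left g hg y hy ih =>
      rcases hg with hg | hg
      · exact hKB g hg y ih
      · rw [Set.mem_singleton_iff] at hg
        rw [hg]
        exact hτB y ih
    | inv_mul_cancel g hg y hy ih =>
      rcases hg with hg | hg
      · exact hKB g⁻¹ (K.inv_mem hg) y ih
      · rw [Set.mem_singleton_iff] at hg
        rw [hg]
        have e : τ⁻¹ * y = (τ ^ 2)⁻¹ * (τ * y) := by group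
        rw [e]
        exact hKB _ (K.inv_mem (hNK h7)) _ (hτB y ih)
  intro x hx hxω
  rcases hB x hx with h | ⟨k₁, hk₁, k₂, hk₂, rfl⟩
  · exact h
  · exfalso
    rw [mul_smul, mul_smul, h1 k₂ hk₂, h5] at hxω
    have h9 := h1 k₁⁻¹ (K.inv_mem hk₁)
    rw [← hxω, inv_smul_smul] at h9
    exact haω (h9.trans hxω)

section Witt

variable {α : Type*}

/-- the subgroup generated by `G` and `s 2, …, s (k - 1)`. -/
def wittK (G : Subgroup (Equiv.Perm α)) (s : ℕ → Equiv.Perm α) (k : ℕ) :
    Subgroup (Equiv.Perm α) :=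
  Subgroup.closure ((G : Set (Equiv.Perm α)) ∪ {x | ∃ i : ℕ, 2 ≤ i ∧ i + 1 ≤ k ∧ x = s i})

/-- the list `q t, q (t - 1), …, q (k + 1)`. -/
def wittF (q : ℕ → α) (t k : ℕ) : List α := (List.range (t - k)).map (fun i => q (t - i))

theorem mem_wittF (q : ℕ → α) (t k : ℕ) (x : α) :
    x ∈ wittF q t k ↔ ∃ j, k < j ∧ j ≤ t ∧ x = q j := by
  unfold wittF
  rw [List.mem_map]
  constructor
  · rintro ⟨i, hi, rfl⟩
    rw [List.mem_range] at hi
    exact ⟨t - i, by omega, by omega, rfl⟩
  · rintro ⟨j, hj, hjt, rfl⟩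
    exact ⟨t - j, List.mem_range.2 (by omega), by rw [show t - (t - j) = j by omega]⟩

theorem wittF_succ (q : ℕ → α) (t k : ℕ) (hk : k + 1 ≤ t) :
    wittF q t k = wittF q t (k + 1) ++ [q (k + 1)] := by
  unfold wittF
  have e : t - k = (t - (k + 1)) + 1 := by omega
  have e2 : t - (t - (k + 1)) = k + 1 := by omega
  rw [e, List.range_succ, List.map_append, List.map_singleton, e2]

theorem length_wittF (q : ℕ → α) (t k : ℕ) : (wittF q t k).length = t - k := by
  simp [wittF]

theorem wittF_nodup (q : ℕ → α) (t k : ℕ)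
    (hq : ∀ i j : ℕ, 1 ≤ i → i ≤ t → 1 ≤ j → j ≤ t → q i = q j → i = j) :
    (wittF q t k).Nodup := by
  unfold wittF
  refine List.Nodup.map_on ?_ List.nodup_range
  intro i hi j hj hij
  rw [List.mem_range] at hi hj
  have := hq (t - i) (t - j) (by omega) (by omega) (by omega) (by omega) hij
  omega

theorem wittK_mono (G : Subgroup (Equiv.Perm α)) (s : ℕ → Equiv.Perm α) {k k' : ℕ}
    (h : k ≤ k') : wittK G s k ≤ wittK G s k' := by
  apply Subgroup.closure_mono
  rintro x (hx | ⟨i, hi, hik, rfl⟩)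
  · exact Or.inl hx
  · exact Or.inr ⟨i, hi, by omega, rfl⟩

theorem le_wittK (G : Subgroup (Equiv.Perm α)) (s : ℕ → Equiv.Perm α) (k : ℕ) :
    G ≤ wittK G s k := fun _ hx => Subgroup.subset_closure (Or.inl hx)

theorem wittK_eq (G : Subgroup (Equiv.Perm α)) (s : ℕ → Equiv.Perm α) {k : ℕ} (hk : k ≤ 2) :
    wittK G s k = G := by
  apply le_antisymm
  · rw [wittK, Subgroup.closure_le]
    rintro x (hx | ⟨i, hi, hik, rfl⟩)
    · exact hx
    · omega
  · exact le_wittK G s k

theorem wittK_succ_le (G : Subgroup (Equiv.Perm α)) (s : ℕ → Equiv.Perm α) (k : ℕ) :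
    wittK G s (k + 1) ≤ Subgroup.closure ((wittK G s k : Set (Equiv.Perm α)) ∪ {s k}) := by
  rw [wittK, Subgroup.closure_le]
  rintro x (hx | ⟨i, hi, hik, rfl⟩)
  · exact Subgroup.subset_closure (Or.inl (le_wittK G s k hx))
  · by_cases hik' : i = k
    · subst hik'
      exact Subgroup.subset_closure (Or.inr rfl)
    · exact Subgroup.subset_closure
        (Or.inl (Subgroup.subset_closure (Or.inr ⟨i, hi, by omega, rfl⟩)))

theorem witt_main [Fintype α] [DecidableEq α] (t : ℕ) (ht : 2 ≤ t) (q : ℕ → α)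
    (hq : ∀ i j : ℕ, 1 ≤ i → i ≤ t → 1 ≤ j → j ≤ t → q i = q j → i = j)
    (G : Subgroup (Equiv.Perm α))
    (hfix : ∀ g ∈ G, ∀ i : ℕ, 3 ≤ i → i ≤ t → g (q i) = q i)
    (h2 : ∀ a b c d : α, (∀ i, 3 ≤ i → i ≤ t → a ≠ q i ∧ b ≠ q i ∧ c ≠ q i ∧ d ≠ q i) →
      a ≠ b → c ≠ d → ∃ g ∈ G, g a = c ∧ g b = d)
    (s : ℕ → Equiv.Perm α) (hs1 : s 1 ∈ G) (hs1q : s 1 (q 1) = q 2 ∧ s 1 (q 2) = q 1)
    (hsq : ∀ i : ℕ, 2 ≤ i → i + 1 ≤ t → s i (q i) = q (i + 1) ∧ s i (q (i + 1)) = q i ∧
      ∀ j : ℕ, 1 ≤ j → j ≤ t → j ≠ i → j ≠ i + 1 → s i (q j) = q j)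
    (H : Subgroup (Equiv.Perm α))
    (hH : H = G ⊓ MulAction.stabilizer (Equiv.Perm α) (q 1) ⊓
      MulAction.stabilizer (Equiv.Perm α) (q 2))
    (hsq2 : ∀ i : ℕ, 1 ≤ i → i + 1 ≤ t → s i ^ 2 ∈ H)
    (hbraid : ∀ i : ℕ, 1 ≤ i → i + 2 ≤ t → (s i * s (i + 1)) ^ 3 ∈ H)
    (hcomm : ∀ i j : ℕ, 1 ≤ i → i + 2 ≤ j → j + 1 ≤ t →
      (s i * s j) ^ 2 ∈ H ∧ (s j * s i) ^ 2 ∈ H)
    (hnorm : ∀ i : ℕ, 2 ≤ i → i + 1 ≤ t →
      ∀ g ∈ G ⊓ MulAction.stabilizer (Equiv.Perm α) (q 2),
        s i * g * (s i)⁻¹ ∈ G ⊓ MulAction.stabilizer (Equiv.Perm α) (q 2)) :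
    MulAction.IsMultiplyPretransitive ↥(wittK G s t) α t ∧
      wittK G s t ⊓ fixingSubgroup (Equiv.Perm α) {x | ∃ i : ℕ, 1 ≤ i ∧ i ≤ t ∧ x = q i} = H := by
  classical
  have hHG : H ≤ G := by
    rw [hH]
    exact inf_le_left.trans inf_le_left
  have hH1 : ∀ h ∈ H, h (q 1) = q 1 := by
    intro h hh
    rw [hH] at hh
    exact hh.1.2
  have hH2 : ∀ h ∈ H, h (q 2) = q 2 := by
    intro h hh
    rw [hH] at hh
    exact hh.2
  have hne : ∀ i j : ℕ, 1 ≤ i → i ≤ t → 1 ≤ j → j ≤ t → i ≠ j → q i ≠ q j :=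
    fun i j h1 h2 h3 h4 hij e => hij (hq i j h1 h2 h3 h4 e)
  -- elements of `wittK G s k` fix the later points
  have hA : ∀ k, 2 ≤ k → ∀ x ∈ wittK G s k, ∀ j, k < j → j ≤ t → x (q j) = q j := by
    intro k hk x hx j hkj hjt
    induction hx using Subgroup.closure_induction with
    | mem y hy =>
      rcases hy with hy | ⟨i, hi2, hik, rfl⟩
      · exact hfix y hy j (by omega) hjt
      · exact (hsq i hi2 (by omega)).2.2 j (by omega) hjt (by omega) (by omega)
    | one => rfl
    | mul y z _ _ ihy ihz => rw [Equiv.Perm.mul_apply, ihz, ihy]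
    | inv y _ ihy => rw [Equiv.Perm.inv_eq_iff_eq]; exact ihy.symm
  have hconj : ∀ i k : ℕ, s k * s i * (s k)⁻¹ = (s k * s i) ^ 2 * (s i)⁻¹ * ((s k) ^ 2)⁻¹ := by
    intro i k
    rw [pow_two (s k * s i)]
    group
  -- `s k` normalises `G` for `k ≥ 3`
  have hnormG : ∀ k, 3 ≤ k → k + 1 ≤ t → ∀ g ∈ G, s k * g * (s k)⁻¹ ∈ G := by
    intro k hk3 hkt g hg
    by_cases hg2 : g (q 2) = q 2
    · exact (hnorm k (by omega) hkt g ⟨hg, hg2⟩).1
    · have hgne : ∀ i, 3 ≤ i → i ≤ t → g (q 2) ≠ q i := by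
        intro i hi hit e
        have h3 := hfix g hg i hi hit
        rw [← h3] at e
        exact hne 2 i (by omega) (by omega) (by omega) hit (by omega) (g.injective e)
      obtain ⟨n, hn, hn2, hn1⟩ := h2 (q 2) (q 1) (q 2) (g (q 2))
        (fun i hi hit => ⟨hne 2 i (by omega) (by omega) (by omega) hit (by omega),
          hne 1 i (by omega) (by omega) (by omega) hit (by omega),
          hne 2 i (by omega) (by omega) (by omega) hit (by omega), hgne i hi hit⟩)
        (hne 2 1 (by omega) (by omega) (by omega) (by omega) (by omega)) (Ne.symm hg2)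
      have hmG : (n * s 1)⁻¹ * g ∈ G := G.mul_mem (G.inv_mem (G.mul_mem hn hs1)) hg
      have hm2 : ((n * s 1)⁻¹ * g) (q 2) = q 2 := by
        rw [Equiv.Perm.mul_apply, Equiv.Perm.inv_eq_iff_eq, Equiv.Perm.mul_apply, hs1q.2, hn1]
      have e : s k * g * (s k)⁻¹ = (s k * n * (s k)⁻¹) * (s k * s 1 * (s k)⁻¹) *
          (s k * ((n * s 1)⁻¹ * g) * (s k)⁻¹) := by group
      rw [e]
      refine G.mul_mem (G.mul_mem (hnorm k (by omega) hkt n ⟨hn, hn2⟩).1 ?_)
        (hnorm k (by omega) hkt _ ⟨hmG, hm2⟩).1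
      rw [hconj]
      exact G.mul_mem (G.mul_mem (hHG (hcomm 1 k le_rfl (by omega) hkt).2) (G.inv_mem hs1))
        (G.inv_mem (hHG (hsq2 k (by omega) hkt)))
  have hcard : t ≤ Fintype.card α := by
    have hinj : Function.Injective (fun i : Fin t => q (i.val + 1)) := by
      intro i j hij
      have h3 := hq _ _ (by omega) (by have := i.2; omega) (by omega) (by have := j.2; omega) hij
      exact Fin.ext (by omega)
    simpa using Fintype.card_le_of_injective _ hinj
  have main : ∀ k, 2 ≤ k → k ≤ t →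
      (LTr (wittK G s k) (wittF q t k) k ∧
        ∀ x ∈ wittK G s k, x (q k) = q k → x ∈ wittK G s (k - 1)) := by
    intro k hk
    induction k, hk using Nat.le_induction with
    | base =>
      intro _
      constructor
      · rw [wittK_eq G s le_rfl]
        intro l l' hl hl' hn hn'
        obtain ⟨a, b, rfl⟩ := List.length_eq_two.1 hl
        obtain ⟨c, d, rfl⟩ := List.length_eq_two.1 hl'
        rw [nodup_app] at hn hn'
        obtain ⟨-, hab, habF⟩ := hn
        obtain ⟨-, hcd, hcdF⟩ := hn'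
        have hnotF : ∀ x, x ∉ wittF q t 2 → ∀ i, 3 ≤ i → i ≤ t → x ≠ q i := by
          intro x hx i hi hit hxi
          exact hx ((mem_wittF q t 2 x).2 ⟨i, by omega, hit, hxi⟩)
        obtain ⟨g, hg, hga, hgb⟩ := h2 a b c d
          (fun i hi hit => ⟨hnotF a (habF a (by simp)) i hi hit,
            hnotF b (habF b (by simp)) i hi hit,
            hnotF c (hcdF c (by simp)) i hi hit, hnotF d (hcdF d (by simp)) i hi hit⟩)
          (by simpa using hab) (by simpa using hcd)
        refine ⟨g, hg, ?_, ?_⟩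
        · intro f hf
          obtain ⟨j, hj, hjt, rfl⟩ := (mem_wittF q t 2 f).1 hf
          exact hfix g hg j (by omega) hjt
        · simp only [List.map_cons, List.map_nil, Equiv.Perm.smul_def, hga, hgb]
      · intro x hx _
        rw [wittK_eq G s le_rfl] at hx
        rw [wittK_eq G s (by norm_num)]
        exact hx
    | succ k hk ih =>
      intro hk1
      obtain ⟨hL, hQ⟩ := ih (by omega)
      have hFk : wittF q t k = wittF q t (k + 1) ++ [q (k + 1)] := wittF_succ q t k hk1
      have hlen : (wittF q t k).length + k ≤ Fintype.card α := by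
        rw [length_wittF]
        omega
      have hL1 : LTr (wittK G s k) (wittF q t k) 1 := LTr.mono (by omega) hL hlen
      have hL2 : LTr (wittK G s k) (wittF q t k) 2 := LTr.mono hk hL hlen
      have hsk_mem : s k ∈ wittK G s (k + 1) :=
        Subgroup.subset_closure (Or.inr ⟨k, hk, le_rfl, rfl⟩)
      have hsk := hsq k hk hk1
      have hqk : q k ∉ wittF q t k := by
        intro hmem
        obtain ⟨j, hj, hjt, e⟩ := (mem_wittF q t k _).1 hmem
        exact absurd (hq k j (by omega) (by omega) (by omega) hjt e) (by omega)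
      have hqk' : q (k - 1) ∉ wittF q t k := by
        intro hmem
        obtain ⟨j, hj, hjt, e⟩ := (mem_wittF q t k _).1 hmem
        exact absurd (hq (k - 1) j (by omega) (by omega) (by omega) hjt e) (by omega)
      have hqk1 : q (k + 1) ∉ wittF q t (k + 1) := by
        intro hmem
        obtain ⟨j, hj, hjt, e⟩ := (mem_wittF q t (k + 1) _).1 hmem
        exact absurd (hq (k + 1) j (by omega) hk1 (by omega) hjt e) (by omega)
      have hFn : (wittF q t k).Nodup := wittF_nodup q t k hq
      have hmove : ∀ x, x ∉ wittF q t (k + 1) → ∃ g ∈ wittK G s (k + 1),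
          (∀ f ∈ wittF q t (k + 1), g • f = f) ∧ g • x = q k := by
        intro x hx
        by_cases hxq : x = q (k + 1)
        · refine ⟨s k, hsk_mem, ?_, ?_⟩
          · intro f hf
            obtain ⟨j, hj, hjt, rfl⟩ := (mem_wittF q t (k + 1) f).1 hf
            exact hsk.2.2 j (by omega) hjt (by omega) (by omega)
          · rw [hxq]
            exact hsk.2.1
        · have hxk : x ∉ wittF q t k := by
            rw [hFk, List.mem_append, List.mem_singleton]
            push Not
            exact ⟨hx, hxq⟩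
          obtain ⟨g, hg, hgF, hgx⟩ := hL1 [x] [q k] rfl rfl
            (by rw [nodup_app]; exact ⟨hFn, by simp, by simpa using hxk⟩)
            (by rw [nodup_app]; exact ⟨hFn, by simp, by simpa using hqk⟩)
          refine ⟨g, wittK_mono G s (by omega) hg, ?_, by simpa using hgx⟩
          intro f hf
          exact hgF f (by rw [hFk]; exact List.mem_append_left _ hf)
      have hT1 : LTr (wittK G s (k + 1)) (wittF q t (k + 1)) 1 := by
        intro l l' hl hl' hn hn'
        obtain ⟨x, rfl⟩ := List.length_eq_one_iff.1 hl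
        obtain ⟨y, rfl⟩ := List.length_eq_one_iff.1 hl'
        rw [nodup_app] at hn hn'
        obtain ⟨g₁, hg₁, hg₁F, hg₁x⟩ := hmove x (hn.2.2 x (by simp))
        obtain ⟨g₂, hg₂, hg₂F, hg₂y⟩ := hmove y (hn'.2.2 y (by simp))
        refine ⟨g₂⁻¹ * g₁, Subgroup.mul_mem _ (Subgroup.inv_mem _ hg₂) hg₁, ?_, ?_⟩
        · intro f hf
          rw [mul_smul, hg₁F f hf, inv_smul_eq_iff, hg₂F f hf]
        · simp only [List.map_cons, List.map_nil, List.cons.injEq, and_true]
          rw [mul_smul, hg₁x, inv_smul_eq_iff, hg₂y]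
      have hT2 : LTr (wittK G s (k + 1)) (wittF q t (k + 1) ++ [q (k + 1)]) k := by
        rw [← hFk]
        exact LTr.subgroup_mono (wittK_mono G s (by omega)) hL
      refine ⟨LTr.up hT1 hT2 hqk1, ?_⟩
      intro x hx hxq
      rw [Nat.add_sub_cancel]
      have hx' : x ∈ Subgroup.closure ((wittK G s k : Set (Equiv.Perm α)) ∪ {s k}) :=
        wittK_succ_le G s k hx
      have hstab : ∀ y ∈ wittK G s k, y • q k = q k →
          y ∈ wittK G s (k - 1) ⊓ stabilizer (Equiv.Perm α) (q k) :=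
        fun y hy hya => ⟨hQ y hy hya, hya⟩
      have hHN : ∀ h ∈ H, h ∈ wittK G s (k - 1) ⊓ stabilizer (Equiv.Perm α) (q k) := by
        intro h hh
        refine ⟨le_wittK G s (k - 1) (hHG hh), ?_⟩
        show h (q k) = q k
        rcases Nat.lt_or_ge k 3 with hk3 | hk3
        · have hk2 : k = 2 := by omega
          rw [hk2]
          exact hH2 h hh
        · exact hfix h (hHG hh) k hk3 (by omega)
      refine witt_step (wittK G s k) (wittK G s (k - 1) ⊓ stabilizer (Equiv.Perm α) (q k))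
        (q k) (q (k - 1)) (q (k + 1)) (s (k - 1)) (s k)
        (inf_le_left.trans (wittK_mono G s (by omega))) ?_
        (hne k (k + 1) (by omega) (by omega) (by omega) hk1 (by omega))
        (fun y hy => hA k hk y hy (k + 1) (by omega) hk1) hstab ?_ ?_ hsk.2.1 ?_
        (hHN _ (hsq2 k (by omega) hk1)) ?_ x hx' hxq
      · -- s (k - 1) ∈ wittK G s k
        rcases Nat.lt_or_ge k 3 with hk3 | hk3
        · have hk2 : k = 2 := by omega
          rw [hk2]
          exact le_wittK G s 2 hs1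
        · exact Subgroup.subset_closure (Or.inr ⟨k - 1, by omega, by omega, rfl⟩)
      · -- transitivity of the stabiliser
        intro y hy hya
        have hyF : ∀ f ∈ wittF q t k, y • f = f := by
          intro f hf
          obtain ⟨j, hj, hjt, rfl⟩ := (mem_wittF q t k f).1 hf
          exact hA k hk y hy j hj hjt
        obtain ⟨g, hg, hgF, hgmap⟩ := hL2 [q k, q (k - 1)] [q k, y • q k] rfl rfl
          (by
            rw [nodup_app]
            refine ⟨hFn, ?_, ?_⟩
            · simpa using hne k (k - 1) (by omega) (by omega) (by omega) (by omega) (by omega)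
            · intro z hz
              simp only [List.mem_cons, List.not_mem_nil, or_false] at hz
              rcases hz with rfl | rfl
              · exact hqk
              · exact hqk')
          (by
            rw [nodup_app]
            refine ⟨hFn, ?_, ?_⟩
            · simpa using Ne.symm hya
            · intro z hz
              simp only [List.mem_cons, List.not_mem_nil, or_false] at hz
              rcases hz with rfl | rfl
              · exact hqk
              · exact notMem_of_fix hyF hqk)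
        simp only [List.map_cons, List.map_nil, List.cons.injEq, and_true] at hgmap
        exact ⟨g, hstab g hg hgmap.1, hgmap.1, hgmap.2⟩
      · -- s (k - 1) • q k = q (k - 1)
        show s (k - 1) (q k) = q (k - 1)
        rcases Nat.lt_or_ge k 3 with hk3 | hk3
        · have hk2 : k = 2 := by omega
          rw [hk2]
          exact hs1q.2
        · have h3 := (hsq (k - 1) (by omega) (by omega)).2.1
          rwa [show k - 1 + 1 = k by omega] at h3
      · -- s k normalises N
        rintro n ⟨hnK, hnq⟩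
        rcases Nat.lt_or_ge k 3 with hk3 | hk3
        · have hk2 : k = 2 := by omega
          subst hk2
          rw [wittK_eq G s (by norm_num)] at hnK ⊢
          exact hnorm 2 le_rfl hk1 n ⟨hnK, hnq⟩
        · refine ⟨?_, ?_⟩
          · induction hnK using Subgroup.closure_induction with
            | mem y hy =>
              rcases hy with hy | ⟨i, hi2, hik, rfl⟩
              · exact le_wittK G s (k - 1) (hnormG k hk3 hk1 y hy)
              · rw [hconj]
                refine Subgroup.mul_mem _ (Subgroup.mul_mem _ ?_ ?_) ?_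
                · exact le_wittK G s (k - 1) (hHG (hcomm i k (by omega) (by omega) hk1).2)
                · exact Subgroup.inv_mem _ (Subgroup.subset_closure (Or.inr ⟨i, hi2, hik, rfl⟩))
                · exact Subgroup.inv_mem _ (le_wittK G s (k - 1) (hHG (hsq2 k (by omega) hk1)))
            | one =>
              have e : s k * 1 * (s k)⁻¹ = 1 := by group
              rw [e]
              exact Subgroup.one_mem _
            | mul y z hy hz ihy ihz =>
              have e : s k * (y * z) * (s k)⁻¹ = (s k * y * (s k)⁻¹) * (s k * z * (s k)⁻¹) := by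
                group
              rw [e]
              exact Subgroup.mul_mem _ (ihy (by
                  show y (q k) = q k
                  exact hA (k - 1) (by omega) y hy k (by omega) (by omega)))
                (ihz (by
                  show z (q k) = q k
                  exact hA (k - 1) (by omega) z hz k (by omega) (by omega)))
            | inv y hy ihy =>
              have e : s k * y⁻¹ * (s k)⁻¹ = (s k * y * (s k)⁻¹)⁻¹ := by group
              rw [e]
              exact Subgroup.inv_mem _ (ihy (by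
                show y (q k) = q k
                exact hA (k - 1) (by omega) y hy k (by omega) (by omega)))
          · show (s k * n * (s k)⁻¹) (q k) = q k
            have h3 : (s k)⁻¹ (q k) = q (k + 1) := by
              rw [Equiv.Perm.inv_eq_iff_eq]
              exact hsk.2.1.symm
            rw [Equiv.Perm.mul_apply, Equiv.Perm.mul_apply, h3,
              hA (k - 1) (by omega) n hnK (k + 1) (by omega) hk1]
            exact hsk.2.1
      · -- braid relation
        have h3 := hbraid (k - 1) (by omega) (by omega)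
        rw [show k - 1 + 1 = k by omega] at h3
        exact hHN _ h3
  obtain ⟨hLt, -⟩ := main t ht le_rfl
  constructor
  · have e : wittF q t t = [] := by simp [wittF]
    rw [e] at hLt
    exact pretrans_of_ltr _ t hLt
  · apply le_antisymm
    · intro x hx
      obtain ⟨hxK, hxfix⟩ := Subgroup.mem_inf.1 hx
      rw [mem_fixingSubgroup_iff] at hxfix
      have hxq : ∀ i, 1 ≤ i → i ≤ t → x (q i) = q i :=
        fun i h1 h2 => hxfix (q i) ⟨i, h1, h2, rfl⟩
      have hdown : ∀ d, d + 2 ≤ t → x ∈ wittK G s (t - d) := by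
        intro d
        induction d with
        | zero => intro _; exact hxK
        | succ d ih =>
          intro hd
          have h1 := ih (by omega)
          have h3 := (main (t - d) (by omega) (by omega)).2 x h1
            (hxq (t - d) (by omega) (by omega))
          have e : t - d - 1 = t - (d + 1) := by omega
          rwa [e] at h3
      have hxG : x ∈ G := by
        have h1 := hdown (t - 2) (by omega)
        have e : t - (t - 2) = 2 := by omega
        rw [e, wittK_eq G s le_rfl] at h1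
        exact h1
      rw [hH]
      exact ⟨⟨hxG, hxq 1 le_rfl (by omega)⟩, hxq 2 (by omega) ht⟩
    · intro x hx
      refine Subgroup.mem_inf.2 ⟨le_wittK G s t (hHG hx), ?_⟩
      rw [mem_fixingSubgroup_iff]
      rintro y ⟨i, hi1, hit, rfl⟩
      show x (q i) = q i
      rcases Nat.lt_or_ge i 3 with hi | hi
      · interval_cases i
        · exact hH1 x hx
        · exact hH2 x hx
      · exact hfix x (hHG hx) i hi hit

end Witt

end Cfsg.Agent.Helper29
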